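import Cfsg.Agent.H8.FC9

/-! Constructions of Frobenius groups with a given complement. -/

set_option autoImplicit false
open Subgroup Cfsg CfsgH2 CfsgH1 CfsgH3 CfsgH4 Function Module MulAction

namespace CfsgH8.FC

variable {G : Type*} [Group G] {m p : ℕ}

/-- `G` is a Frobenius complement with a kernel of order `m`. -/
def Cpl (G : Type*) [Group G] (m : ℕ) : Prop :=
  ∃ (L : Type) (_ : Group L) (_ : Finite L) (H : Subgroup L), IsFrobeniusComplement H ∧
    Nonempty (G ≃* H) ∧ Nat.card (frobeniusKernel H) = m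

theorem Cpl.out (h : Cpl G m) : ∃ (L : Type) (_ : Group L) (_ : Finite L) (H : Subgroup L),
    IsFrobeniusComplement H ∧ Nonempty (G ≃* H) :=
  let ⟨L, _, _, H, h1, h2, _⟩ := h; ⟨L, _, ‹_›, H, h1, h2⟩

theorem Cpl.out' (h : Cpl G m) : ∃ (L : Type) (_ : Group L) (_ : Finite L) (H : Subgroup L),
    IsFrobeniusComplement H ∧ Nonempty (H ≃* G) :=
  let ⟨L, _, _, H, h1, ⟨e⟩, _⟩ := h; ⟨L, _, ‹_›, H, h1, ⟨e.symm⟩⟩

theorem cpl_of_frob {L : Type*} [Group L] [Finite L] {K H : Subgroup L} (h : Frob K H ⊤) (e : G ≃* H) :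
    Cpl G o[K] := by
  let f := (Shrink.mulEquiv.{0} (α := L)).symm
  haveI : Finite (Shrink.{0} L) := .of_equiv _ f.toEquiv
  have := (Frob.map_iff (f := f.toMonoidHom) f.injective).2 h
  rw [map_top_of_surjective _ f.surjective] at this
  exact ⟨_, inferInstance, inferInstance, _, this.isFrobeniusComplement,
    ⟨e.trans (H.equivMapOfInjective _ f.injective)⟩, by
      rw [this.kernel_eq]; exact card_map_of_injective f.injective⟩

variable {V : Type*} [AddCommGroup V]

/-- The action on an abelian group, written multiplicatively. -/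
def toAut (G V : Type*) [Group G] [AddCommGroup V] [DistribMulAction G V] :
    G →* MulAut (Multiplicative V) where
  toFun g := AddEquiv.toMultiplicative (DistribMulAction.toAddEquiv V g)
  map_one' := MulEquiv.ext fun v => one_smul G v.toAdd
  map_mul' g h := MulEquiv.ext fun v => mul_smul g h v.toAdd

variable [Finite G]

theorem Free.cpl [Nontrivial G] [DistribMulAction G V] [Finite V] [Nontrivial V] (h : Free G V) :
    Cpl G (Nat.card V) := by
  obtain ⟨X, _, _, i, j, hi, hj, c, n, d, s⟩ := exists_ambient (toAut G V)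
  have f : Frob (map i ⊤) (map j ⊤) ⊤ := by
    refine ⟨le_top.trans (top_le_norm_iff.2 n), s, mt (map_eq_bot_iff_of_injective _ hi).1 top_ne_bot,
      mt (map_eq_bot_iff_of_injective _ hj).1 top_ne_bot, ?_⟩
    rintro _ ⟨g, -, rfl⟩ h1
    rw [eq_bot_iff]
    rintro _ ⟨⟨v, -, rfl⟩, hv⟩
    have := c g v
    rw [← mem_centralizer_singleton_iff.1 hv, mul_inv_cancel_right] at this
    rcases h g v.toAdd (hi this).symm with rfl | e
    · exact absurd (map_one j) h1
    · rw [show v = 1 from e, map_one]; exact one_mem _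
  have := cpl_of_frob f (topEquiv.symm.trans (equivMapOfInjective _ j hj))
  rwa [card_map_of_injective hi, card_top] at this

/-- Functions killed by all norm elements. -/
def NK {M : Type*} [AddCommMonoid M] (w : G → M) : Prop :=
  ∀ x, x ≠ 1 → ∀ g, ∑ i ∈ Finset.range (orderOf x), w (g * x ^ i) = 0

omit [Finite G] in
theorem NK.map {M M' : Type*} [AddCommMonoid M] [AddCommMonoid M'] {w : G → M} (h : NK w) (f : M →+ M') :
    NK fun g => f (w g) := fun x hx g => by rw [← map_sum, h x hx, map_zero]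

theorem NK.cpl [Nontrivial G] [hp : Fact p.Prime] {w : G → ZMod p} (h : NK w) (h0 : w ≠ 0)
    (hG : ¬ p ∣ Nat.card G) : ∃ m, Cpl G m := by
  let X : AddSubgroup (G → ZMod p) :=
    { carrier := {w | NK w}
      add_mem' := fun {a b} h1 h2 x hx g => by simp [Finset.sum_add_distrib, h1 x hx, h2 x hx]
      zero_mem' := fun x hx g => by simp
      neg_mem' := fun {a} h1 x hx g => by simp [h1 x hx] }
  letI : DistribMulAction G X :=
    { smul := fun k f => ⟨fun g => f.1 (g * k), fun x hx g => by
        have := f.2 (k⁻¹ * x * k⁻¹⁻¹) (mt conj_eq_one_iff.1 hx) (g * k)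
        simp only [CfsgH2.orderOf_conj', conj_pow] at this
        simpa only [inv_inv, mul_assoc, mul_inv_cancel_left] using this⟩
      one_smul := fun f => Subtype.ext (funext fun g => congrArg f.1 (mul_one g))
      mul_smul := fun a b f => Subtype.ext (funext fun g => congrArg f.1 (mul_assoc g a b).symm)
      smul_zero := fun _ => rfl
      smul_add := fun _ _ _ => rfl }
  haveI : Nontrivial X := ⟨⟨w, h⟩, 0, fun e => h0 (congrArg Subtype.val e)⟩
  refine ⟨_, Free.cpl (V := X) fun k f e => or_iff_not_imp_left.2 fun k1 => Subtype.ext (funext fun g => ?_)⟩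
  have e1 : ∀ i, f.1 (g * k ^ i) = f.1 g := fun i => by
    induction i with
    | zero => simp
    | succ i ih => rw [pow_succ, ← mul_assoc]; exact (congrFun (congrArg Subtype.val e) _).trans ih
  have := f.2 k k1 g
  simp only [e1, Finset.sum_const, Finset.card_range, nsmul_eq_mul, mul_eq_zero,
    ZMod.natCast_eq_zero_iff] at this
  exact this.resolve_left fun d => hG (d.trans (orderOf_dvd_natCard k))

theorem NK.cpl0 [Nontrivial G] [IsAddTorsionFree V] {w : G → V} (h : NK w) (h0 : w ≠ 0) :
    ∃ m, Cpl G m := by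
  obtain ⟨p, l, hp⟩ := Nat.exists_infinite_primes (Nat.card G + 1)
  haveI := Fact.mk hp
  let M := Submodule.span ℤ (Set.range w)
  haveI : Module.Finite ℤ M := .span_of_finite ℤ (Set.finite_range w)
  let w' : G → M := fun g => ⟨w g, Submodule.subset_span ⟨g, rfl⟩⟩
  haveI : Nontrivial M := by
    obtain ⟨g, hg⟩ := Function.ne_iff.1 h0
    exact ⟨w' g, 0, fun e => hg (congrArg Subtype.val e)⟩
  let b := Module.Free.chooseBasis ℤ M
  obtain ⟨i⟩ := b.index_nonempty
  let f : M →+ ZMod p := (Int.castAddHom _).comp (b.coord i).toAddMonoidHom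
  have n : NK w' := fun x hx g => Subtype.ext (by simpa using h x hx g)
  refine (n.map f).cpl (fun e => ?_) (Nat.not_dvd_of_pos_of_lt Nat.card_pos l)
  have : ∀ v (hv : v ∈ M), f ⟨v, hv⟩ = 0 := fun v hv => by
    induction hv using Submodule.span_induction with
    | mem v hv => obtain ⟨g, rfl⟩ := hv; exact congrFun e g
    | zero => exact map_zero f
    | add x y hx hy h1 h2 => exact (map_add f ⟨x, hx⟩ ⟨y, hy⟩).trans (by rw [h1, h2, add_zero])
    | smul a x hx h1 => exact (map_zsmul f a ⟨x, hx⟩).trans (by rw [h1, smul_zero])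
  simpa [f] using this (b i) (b i).2

theorem Free.nk [DistribMulAction G V] (h : Free G V) (u : V) : NK fun g : G => g • u := fun x hx g => by
  simp only [mul_smul, ← Finset.smul_sum]
  rw [(h x (∑ i ∈ Finset.range (orderOf x), x ^ i • u) ?_).resolve_left hx, smul_zero]
  have := Finset.sum_range_succ' (fun i => x ^ i • u) (orderOf x)
  rw [Finset.sum_range_succ, pow_orderOf_eq_one, pow_zero, add_left_inj] at this
  simp only [Finset.smul_sum, smul_smul, ← pow_succ', ← this]

theorem FC.cpl [Nontrivial G] (h : FC ℂ G) : ∃ m, Cpl G m := by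
  obtain ⟨n, hn, ρ, f⟩ := h
  haveI : Nonempty (Fin n) := ⟨⟨0, hn⟩⟩
  letI := DistribMulAction.compHom (Fin n → ℂ) ρ
  exact (Free.nk (V := Fin n → ℂ) (fun g v e => or_iff_not_imp_left.2 fun g1 => f g g1 v e) 1).cpl0
    fun e => one_ne_zero ((one_smul G (1 : Fin n → ℂ)).symm.trans (congrFun e 1))

theorem FC.prod {A B : Type*} [Group A] [Group B] (h1 : FC ℂ A) (h2 : FC ℂ B)
    (c : (Nat.card A).Coprime (Nat.card B)) : FC ℂ (A × B) := by
  obtain ⟨n, hn, ρ, f⟩ := h1
  obtain ⟨m, hm, σ, f'⟩ := h2
  refine ⟨_, ?_, FPF.sub (Representation.linHom (ρ.comp (MonoidHom.fst A B)) (σ.comp (MonoidHom.snd A B)))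
    ⊤ (fun _ _ _ => trivial) fun ⟨a, b⟩ g1 u _ e => ?_⟩
  · simp [Module.finrank_linearMap, hn, hm]
  have e1 : ∀ i : ℕ, Representation.linHom (ρ.comp (MonoidHom.fst A B)) (σ.comp (MonoidHom.snd A B))
      ((a, b) ^ i) u = u := fun i => by
    induction i with
    | zero => simp
    | succ i ih => rw [pow_succ, map_mul, End.mul_apply, e, ih]
  by_cases b1 : b = 1
  · subst b1
    have s : Surjective ⇑(ρ a⁻¹ - 1) := LinearMap.injective_iff_surjective.1 ((injective_iff_map_eq_zero _).2
      fun v hv => f a⁻¹ (by simpa using g1) v (sub_eq_zero.1 hv))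
    refine LinearMap.ext fun v => ?_
    obtain ⟨v, rfl⟩ := s v
    simpa [sub_eq_zero] using DFunLike.congr_fun e v
  · refine LinearMap.ext fun v => f' (b ^ Nat.card A) (fun e => b1 (orderOf_eq_one_iff.1
      (Nat.eq_one_of_dvd_coprimes c (orderOf_dvd_of_pow_eq_one e) (orderOf_dvd_natCard b)))) _ ?_
    simpa using DFunLike.congr_fun (e1 (Nat.card A)) v

theorem cpl_div {D : Type*} [DivisionRing D] (φ : G →* Dˣ) (hφ : Injective φ) [Nontrivial G] :
    ∃ m, Cpl G m := by
  letI := DistribMulAction.compHom D φ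
  have n := Free.nk (G := G) (V := D) (fun g v e => or_iff_not_imp_right.2 fun v0 => hφ (Units.ext
    ((mul_eq_right₀ v0).1 e |>.trans (by simp)))) 1
  obtain ⟨p, hp⟩ := CharP.exists D
  rcases CharP.char_is_prime_or_zero D p with h | rfl
  · haveI := Fact.mk h
    letI := ZMod.algebra D p
    obtain ⟨f, hf⟩ := Module.Projective.exists_dual_ne_zero (ZMod p) (one_ne_zero (α := D))
    refine (n.map f.toAddMonoidHom).cpl (fun e => hf (by simpa using congrFun e 1)) fun d => ?_
    obtain ⟨x, hx⟩ := exists_prime_orderOf_dvd_card' p d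
    have : ((φ x : D) - 1) ^ p = 0 := by
      rw [sub_pow_char_of_commute _ (Commute.one_right _), ← Units.val_pow_eq_pow_val, ← map_pow, ← hx,
        pow_orderOf_eq_one]; simp
    have := hφ (Units.ext ((sub_eq_zero.1 (eq_zero_of_pow_eq_zero this)).trans
      (show _ = ((φ 1 : Dˣ) : D) by simp)))
    exact h.ne_one (by rw [← hx, this, orderOf_one])
  · haveI := CharP.charP_to_charZero D
    exact n.cpl0 fun e => one_ne_zero ((one_smul G (1 : D)).symm.trans (congrFun e 1))

/-- The natural action through `SL₂`. -/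
abbrev slAct (φ : G →* Matrix.SpecialLinearGroup (Fin 2) (ZMod p)) : DistribMulAction G (Fin 2 → ZMod p) :=
  DistribMulAction.compHom _ (Matrix.SpecialLinearGroup.toLin'.comp φ)

theorem free_sl [hp : Fact p.Prime] {φ : G →* Matrix.SpecialLinearGroup (Fin 2) (ZMod p)} (hφ : Injective φ)
    (hG : ¬ p ∣ Nat.card G) : @Free G (Fin 2 → ZMod p) _ _ (slAct φ) := fun g v e =>
  or_iff_not_imp_right.2 fun v0 => by
    have d : ((φ g).1 - 1).det = 0 := Matrix.exists_mulVec_eq_zero_iff.1 ⟨v, v0, by
      rw [Matrix.sub_mulVec, Matrix.one_mulVec, sub_eq_zero]; exact e⟩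
    have t : (φ g).1.trace = 2 := by
      have := (φ g).2
      simp only [Matrix.det_fin_two, Matrix.sub_apply, Matrix.one_apply_eq, ne_eq, zero_ne_one,
        not_false_eq_true, Matrix.one_apply_ne, sub_zero, one_ne_zero] at d this
      rw [Matrix.trace_fin_two]; linear_combination this - d
    have s : ((φ g).1 - 1) ^ p = 0 := pow_eq_zero_of_le hp.out.two_le (by
      rw [sq, sub_mul, mul_sub, sq_SL2, t, two_smul, mul_one, one_mul]; abel)
    rw [sub_pow_char_of_commute _ (Commute.one_right _), one_pow, sub_eq_zero] at s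
    have : g ^ p = 1 := hφ (by rw [map_pow, map_one]; exact Subtype.ext s)
    exact orderOf_eq_one_iff.1 (Nat.eq_one_of_dvd_coprimes ((Nat.Prime.coprime_iff_not_dvd hp.out).2 hG)
      (orderOf_dvd_of_pow_eq_one this) (orderOf_dvd_natCard g))

omit [Finite G] in
theorem Free.prod {W : Type*} [AddCommGroup W] [DistribMulAction G V] [DistribMulAction G W]
    (h : Free G V) (h' : Free G W) : Free G (V × W) := fun g v e => or_iff_not_imp_left.2 fun g1 =>
  Prod.ext ((h g _ (congrArg Prod.fst e)).resolve_left g1) ((h' g _ (congrArg Prod.snd e)).resolve_left g1)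

end CfsgH8.FC
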