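import Cfsg.Agent.H8.FC6
import Cfsg.Agent.H3.FC

/-! Linear groups acting freely or regularly on the non-zero vectors. -/

set_option autoImplicit false
open Subgroup Cfsg CfsgH2 CfsgH1 CfsgH3 CfsgH4 Function Module MulAction
open scoped commutatorElement

namespace CfsgH8.FC

section sq
universe u

theorem card_ker_range {V W : Type*} [AddCommGroup V] [AddCommGroup W] (f : V →+ W) :
    Nat.card V = Nat.card f.ker * Nat.card f.range := by
  rw [← AddSubgroup.index_ker, AddSubgroup.card_mul_index]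

theorem quat_inv {R : Type*} [Ring R] {i j : R} (hi : i * i = -1) (hj : j * j = -1)
    (hij : i * j = -(j * i)) {p : ℕ} (hp : p.Prime) (p0 : (p : R) = 0) : ∃ u : R, u * u = 1 ∧
      u * (i * j) = -(i * j * u) ∧ i * j * (i * j) = -1 ∧ ∀ c, c * i = i * c → c * j = j * c → u * c = c * u := by
  haveI := Fact.mk hp
  obtain ⟨x, y, k, e⟩ : ∃ x y k : ℕ, x ^ 2 + y ^ 2 + 1 = p * k := by
    obtain ⟨x, y, e⟩ := ZMod.sq_add_sq p (-1)
    exact ⟨x.val, y.val, (ZMod.natCast_eq_zero_iff _ p).1 (by simp [e])⟩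
  have e' : (x : R) * x + y * y + 1 = 0 := by
    rw [← sq, ← sq]; exact_mod_cast (congrArg (Nat.cast : ℕ → R) e).trans (by simp [p0])
  refine ⟨x • i + y • j, ?_, ?_, ?_, fun c h1 h2 => ?_⟩
  · have : (x • i + y • j) * (x • i + y • j) =
        (x * x) • (i * i) + (y * y) • (j * j) + (x * y) • (i * j + j * i) := by
      simp only [add_mul, mul_add, smul_mul_assoc, mul_smul_comm, smul_add, smul_smul, mul_comm y x]
      abel
    rw [this, hi, hj, hij, neg_add_cancel, smul_zero, add_zero, ← add_smul, smul_neg, nsmul_one]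
    push_cast
    rw [eq_neg_of_add_eq_zero_left e', neg_neg]
  · have h1 : i * (i * j) = -(i * j * i) := by rw [mul_assoc, ← mul_neg, ← hij]
    have h2 : j * (i * j) = -(i * j * j) := by rw [← mul_assoc, ← neg_mul, hij, neg_neg]
    simp only [add_mul, mul_add, smul_mul_assoc, mul_smul_comm, h1, h2, smul_neg, neg_add]
  · rw [mul_assoc, ← mul_assoc j, ← neg_neg (j * i), ← hij, neg_mul, mul_assoc, hj]; simp [hi]
  · simp only [add_mul, mul_add, smul_mul_assoc, mul_smul_comm, h1, h2]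

theorem sq_base {V : Type*} [AddCommGroup V] {i j : AddMonoid.End V} (hi : i * i = -1)
    (hj : j * j = -1) (hij : i * j = -(j * i)) {p : ℕ} (hp : p.Prime) (p2 : p ≠ 2)
    (hV : ∀ v : V, p • v = 0) : ∃ U : AddSubgroup V, Nat.card V = Nat.card U ^ 2 ∧
      ∀ c : AddMonoid.End V, c * i = i * c → c * j = j * c → ∀ v ∈ U, c v ∈ U := by
  obtain ⟨n, hn⟩ := hp.odd_of_ne_two p2
  obtain ⟨u, uu, ku, kk, cu⟩ := quat_inv hi hj hij hp (AddMonoidHom.ext hV)
  have ap : ∀ (f g : AddMonoid.End V) v, f (g v) = (f * g) v := fun _ _ _ => rfl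
  let T : V →+ V := (u - 1 : AddMonoid.End V)
  have m1 : ∀ v, v ∈ T.ker ↔ u v = v := fun v => sub_eq_zero
  have m2 : ∀ v, v ∈ T.range ↔ u v = -v := fun v => by
    refine ⟨?_, fun h => ⟨n • v, ?_⟩⟩
    · rintro ⟨w, rfl⟩
      change u (u w - w) = -(u w - w)
      rw [map_sub, ap, uu, neg_sub]; rfl
    · change u (n • v) - n • v = v
      have := hV v
      rw [hn] at this
      rw [map_nsmul, h]
      linear_combination (norm := module) -this
  refine ⟨T.ker, ?_, fun c h1 h2 v hv => ?_⟩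
  · rw [card_ker_range T, sq]
    have l : ∀ v, u ((i * j) v) = -(i * j) (u v) := fun v => by rw [ap, ku]; rfl
    have l' : ∀ v, (i * j) ((i * j) v) = -v := fun v => by rw [ap, kk]; rfl
    congr 1
    refine Nat.card_congr ⟨fun v => ⟨(i * j) v, ?_⟩, fun v => ⟨-(i * j) v, ?_⟩, fun v => ?_, fun v => ?_⟩
    · rw [m1, l, (m2 _).1 v.2, map_neg, neg_neg]
    · rw [m2, map_neg, l, (m1 _).1 v.2]
    · exact Subtype.ext (by simp only [l', neg_neg])
    · exact Subtype.ext (by simp only [map_neg, l', neg_neg])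
  · rw [m1] at hv ⊢
    rw [ap, cu c h1 h2, ← ap, hv]

/-- restriction of an endomorphism to an invariant subgroup. -/
def res {V : Type*} [AddCommGroup V] (i : AddMonoid.End V) (W : AddSubgroup V) (h : ∀ v ∈ W, i v ∈ W) :
    AddMonoid.End W := (AddMonoidHom.comp i W.subtype).codRestrict W fun v => h v v.2

theorem sq_all (n : ℕ) : ∀ {V : Type u} [AddCommGroup V] {i j : AddMonoid.End V}, i * i = -1 →
    j * j = -1 → i * j = -(j * i) → Nat.card V = n → Odd n → IsSquare n := by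
  induction n using Nat.strong_induction_on with | _ n ih => ?_
  intro V _ i j hi hj hij hV ho
  by_cases n1 : n = 1
  · exact n1 ▸ IsSquare.one
  haveI : Finite V := Nat.finite_of_card_ne_zero (hV ▸ ho.pos.ne')
  have hp := Nat.minFac_prime n1
  haveI := Fact.mk hp
  let f : V →+ V := nsmulAddMonoidHom n.minFac
  have e := card_ker_range f
  have r : ∀ (W : AddSubgroup V) (h1 : ∀ v ∈ W, i v ∈ W) (h2 : ∀ v ∈ W, j v ∈ W),
      res i W h1 * res i W h1 = -1 ∧ res j W h2 * res j W h2 = -1 ∧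
        res i W h1 * res j W h2 = -(res j W h2 * res i W h1) := fun W _ _ =>
    ⟨AddMonoidHom.ext fun v => Subtype.ext (DFunLike.congr_fun hi v.1),
      AddMonoidHom.ext fun v => Subtype.ext (DFunLike.congr_fun hj v.1),
      AddMonoidHom.ext fun v => Subtype.ext (DFunLike.congr_fun hij v.1)⟩
  have k1 : ∀ i : AddMonoid.End V, ∀ v ∈ f.ker, i v ∈ f.ker := fun i v hv =>
    (map_nsmul i _ v).symm.trans (by rw [show n.minFac • v = 0 from hv, map_zero])
  have k2 : ∀ i : AddMonoid.End V, ∀ v ∈ f.range, i v ∈ f.range := by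
    rintro i _ ⟨v, rfl⟩; exact ⟨i v, (map_nsmul i _ v).symm⟩
  obtain ⟨a1, a2, a3⟩ := r _ (k1 i) (k1 j)
  obtain ⟨U, hU, -⟩ := sq_base a1 a2 a3 hp (fun e => (Nat.not_even_iff_odd.2 ho)
    (even_iff_two_dvd.2 (e ▸ n.minFac_dvd))) fun v => Subtype.ext v.2
  obtain ⟨a1, a2, a3⟩ := r _ (k2 i) (k2 j)
  obtain ⟨v, hv⟩ := exists_prime_addOrderOf_dvd_card' (G := V) n.minFac (hV ▸ n.minFac_dvd)
  have : 1 < Nat.card f.ker := Finite.one_lt_card_iff_nontrivial.2 ⟨⟨⟨v, addOrderOf_dvd_iff_nsmul_eq_zero.1 hv.dvd⟩,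
    0, fun e => hp.ne_one (by rw [← hv, AddMonoid.addOrderOf_eq_one_iff]; exact congrArg Subtype.val e)⟩⟩
  rw [hV] at e
  rw [e]
  exact (hU ▸ IsSquare.sq _).mul (ih _ (e ▸ lt_mul_of_one_lt_left Nat.card_pos this) a1 a2 a3 rfl
    (Nat.Odd.of_mul_right (e ▸ ho)))

end sq

variable {G : Type*} [Group G] {A H K N P Q S : Subgroup G} {a b x y z g : G} {m p : ℕ}
variable {V : Type*} [AddCommGroup V] [DistribMulAction G V] {U W : AddSubgroup V}

/-- The action is free on non-zero vectors. -/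
def Free (G V : Type*) [Group G] [AddCommGroup V] [DistribMulAction G V] : Prop :=
  ∀ (g : G) (v : V), g • v = v → g = 1 ∨ v = 0

/-- invariant subgroups. -/
def Iv (K : Subgroup G) (W : AddSubgroup V) : Prop := ∀ g ∈ K, ∀ v ∈ W, g • v ∈ W

/-- irreducible subgroups. -/
def Irr (V : Type*) [AddCommGroup V] [DistribMulAction G V] (K : Subgroup G) : Prop :=
  ∀ W : AddSubgroup V, Iv K W → W = ⊥ ∨ W = ⊤

theorem Free.card_dvd [Finite V] (h : Free G V) (i : Iv K W) : o[K] ∣ Nat.card W - 1 := by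
  let X : SubMulAction K V := ⟨W \ {0}, fun g v hv => ⟨i g g.2 v hv.1, fun e => hv.2
    ((smul_eq_zero_iff_eq g).1 e)⟩⟩
  have e := Nat.card_congr (selfEquivOrbitsQuotientProd (G := K) (X := X) fun v => eq_bot_iff.2
    fun g hg => Subtype.ext ((h g v (congrArg Subtype.val hg)).resolve_right v.2.2))
  rw [Nat.card_prod] at e
  have : Nat.card X = Nat.card W - 1 := Set.ncard_sdiff_singleton_of_mem W.zero_mem
  exact this ▸ Dvd.intro_left _ e.symm

theorem Free.le [Finite V] (h : Free G V) (i : Iv K W) (h0 : W ≠ ⊥) : o[K] + 1 ≤ Nat.card W := by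
  haveI := (AddSubgroup.nontrivial_iff_ne_bot W).2 h0
  have := Finite.one_lt_card (α := W)
  have := Nat.le_of_dvd (by omega) (h.card_dvd i)
  omega

theorem Free.fc [Finite G] [Finite V] [Nontrivial V] (h : Free G V) : FC ℂ G := by
  have hp := Nat.minFac_prime (Finite.one_lt_card (α := V)).ne'
  haveI := Fact.mk hp
  obtain ⟨v, hv⟩ := exists_prime_addOrderOf_dvd_card' (G := V) _ (Nat.minFac_dvd _)
  refine fc_of_mod (DistribMulAction.toModuleEnd ℤ V) (fun g h1 v e => (h g v e).resolve_left h1) hp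
    (fun e => hp.ne_one ?_) (m := v) (fun e => hp.ne_one (by rw [← hv, e, addOrderOf_zero]))
    (by rw [natCast_zsmul, ← hv, addOrderOf_nsmul_eq_zero])
  have := h.card_dvd (K := ⊤) (W := ⊤) fun _ _ _ _ => trivial
  rw [card_top, AddSubgroup.card_top] at this
  exact Nat.dvd_one.1 ((Nat.dvd_add_right (e.trans this)).1 (by
    rw [Nat.sub_add_cancel Nat.card_pos]; exact Nat.minFac_dvd _))

theorem Free.ab (h : Free G V) (i : Iv K W) (hp : (Nat.card W).Prime) : Ab[K] := by
  haveI := Fact.mk hp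
  haveI : Finite W := Nat.finite_of_card_ne_zero hp.ne_zero
  obtain ⟨⟨w, hw⟩, e⟩ := (isAddCyclic_of_prime_card (α := W) rfl).1
  have k : ∀ g ∈ K, ∃ n : ℤ, n • w = g • w := fun g hg => by
    obtain ⟨n, hn⟩ := e ⟨_, i g hg w hw⟩; exact ⟨n, congrArg Subtype.val hn⟩
  refine ⟨⟨fun ⟨g, hg⟩ ⟨g', hg'⟩ => Subtype.ext (inv_mul_eq_one.1 ((h _ w ?_).resolve_right ?_))⟩⟩
  · obtain ⟨n, hn⟩ := k g hg
    obtain ⟨n', hn'⟩ := k g' hg'
    rw [mul_smul, inv_smul_eq_iff]
    change (g' * g) • w = (g * g') • w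
    rw [mul_smul, mul_smul, ← hn, smul_comm g', ← hn', smul_comm g, ← hn, smul_comm]
  · rintro rfl
    refine hp.ne_one (Nat.card_eq_one_iff_exists.2 ⟨0, fun v => ?_⟩)
    obtain ⟨n, rfl⟩ := e v
    exact Subtype.ext (smul_zero n)

theorem Free.neg (h : Free G V) (oz : orderOf z = 2) (v : V) : z • v = -v :=
  eq_neg_of_add_eq_zero_left ((h z _ (by
    rw [smul_add, smul_smul, ← sq, ← oz, pow_orderOf_eq_one, one_smul, add_comm])).resolve_left
      fun e => by simp [e] at oz)

theorem Free.quat (h : Free G V) (oz : orderOf (a * a) = 2) (hb : b * b = a * a) (i : b * a * b⁻¹ = a⁻¹) :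
    DistribMulAction.toAddMonoidEnd G V a * DistribMulAction.toAddMonoidEnd G V a = -1 ∧
    DistribMulAction.toAddMonoidEnd G V b * DistribMulAction.toAddMonoidEnd G V b = -1 ∧
    DistribMulAction.toAddMonoidEnd G V a * DistribMulAction.toAddMonoidEnd G V b =
      -(DistribMulAction.toAddMonoidEnd G V b * DistribMulAction.toAddMonoidEnd G V a) := by
  have e : DistribMulAction.toAddMonoidEnd G V (a * a) = -1 := AddMonoidHom.ext (h.neg oz)
  refine ⟨by rw [← map_mul, e], by rw [← map_mul, hb, e], ?_⟩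
  rw [← neg_one_mul, ← e, ← map_mul, ← map_mul, ← map_mul, mul_inv_eq_iff_eq_mul.1 i]
  congr 1; group

theorem semilin [Finite V] [Nontrivial V] [A.Normal] (hA : Ab[A]) (i : Irr V A) :
    ∃ (F : Type) (_ : Field F) (_ : Fintype F) (e : V ≃+ F),
      ∀ g : G, ∃ (a : F) (σ : F ≃+* F), ∀ v : V, e (g • v) = a * σ (e v) := by
  let ρ := DistribMulAction.toAddMonoidEnd G V
  obtain ⟨R, hm, hf, hR, hb⟩ := CfsgRO.exists_field (ρ.comp A.subtype) hA.1.1
    fun W hW => i W fun g hg => hW ⟨g, hg⟩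
  letI := hf.toField
  obtain ⟨v0, hv0⟩ := exists_ne (0 : V)
  let ev : R ≃+ V := AddEquiv.ofBijective (AddMonoidHom.mk' (fun r : R => r.1 v0) fun _ _ => rfl) (hb v0 hv0)
  haveI : Finite R := Finite.of_equiv _ ev.toEquiv.symm
  have c : ∀ g : G, ∀ r ∈ R, ρ g * r * ρ g⁻¹ ∈ R := fun g r hr => by
    rw [hR] at hr
    induction hr using Subring.closure_induction with
    | mem x hx =>
      obtain ⟨x, rfl⟩ := hx
      exact (by simp only [map_mul]; rfl : ρ (g * x * g⁻¹) = _) ▸
        hm ⟨_, Normal.conj_mem inferInstance _ x.2 g⟩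
    | zero => simp
    | one => simp [← map_mul]
    | add x y _ _ h1 h2 => rw [mul_add, add_mul]; exact add_mem h1 h2
    | neg x _ h1 => rw [mul_neg, neg_mul]; exact neg_mem h1
    | mul x y _ _ h1 h2 =>
      convert mul_mem h1 h2 using 1
      simp only [mul_assoc]
      rw [← mul_assoc (ρ g⁻¹), ← map_mul, inv_mul_cancel, map_one, one_mul]
  let φ := (Shrink.ringEquiv.{0} R).symm
  haveI : Finite (Shrink.{0} R) := Finite.of_equiv _ φ.toEquiv
  refine ⟨Shrink.{0} R, inferInstance, Fintype.ofFinite _, ev.symm.trans φ.toAddEquiv, fun g => ?_⟩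
  have t : ∀ (g : G) r, ρ g⁻¹ * (ρ g * r) = r := fun g r => by
    rw [← mul_assoc, ← map_mul, inv_mul_cancel, map_one, one_mul]
  let σ : R ≃+* R :=
    { toFun := fun r => ⟨_, c g r r.2⟩
      invFun := fun r => ⟨_, c g⁻¹ r r.2⟩
      left_inv := fun r => Subtype.ext (by simp only [mul_assoc, t, ← map_mul]; simp)
      right_inv := fun r => Subtype.ext (by
        have := t g⁻¹; simp only [inv_inv] at this
        simp only [mul_assoc, inv_inv, this, ← map_mul]; simp)
      map_mul' := fun r s => Subtype.ext (by simp [mul_assoc, t])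
      map_add' := fun r s => Subtype.ext (by simp [mul_add, add_mul]) }
  refine ⟨φ (ev.symm (g • v0)), (φ.symm.trans σ).trans φ, fun v => ?_⟩
  obtain ⟨r, rfl⟩ := ev.surjective v
  have : g • ev r = ev (σ r * ev.symm (g • v0)) := by
    change _ = g • r.1 (g⁻¹ • ev (ev.symm (g • v0)))
    rw [AddEquiv.apply_symm_apply, inv_smul_smul]; rfl
  rw [this, mul_comm]
  simp

end CfsgH8.FC
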