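import Cfsg.Agent.H8.FC7
import Cfsg.Agent.H8.SL23

/-! Linear groups acting regularly on the non-zero vectors. -/

set_option autoImplicit false
open Subgroup Cfsg CfsgH2 CfsgH1 CfsgH3 CfsgH4 Function Module MulAction
open scoped commutatorElement

namespace CfsgH8.FC

variable {G : Type*} [Group G] [Finite G] {A H K N P Q S : Subgroup G} {a b d x y z g : G} {m p : ℕ}
variable {V : Type*} [AddCommGroup V] [DistribMulAction G V] {U W : AddSubgroup V}

/-- maximal normal abelian subgroups. -/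
structure MxA (A : Subgroup G) : Prop where
  nor : A.Normal
  ab : Ab[A]
  max : ∀ B : Subgroup G, B.Normal → Ab[B] → A ≤ B → B = A

theorem exists_mxA : ∃ A : Subgroup G, MxA A := by
  obtain ⟨A, -, h, m⟩ := exists_maximal_ge (fun B : Subgroup G => B.Normal ∧ Ab[B]) (H := ⊥)
    ⟨inferInstance, inferInstance⟩
  exact ⟨A, h.1, h.2, fun B h1 h2 => m B ⟨h1, h2⟩⟩

omit [Finite G] in
theorem MxA.le (h : MxA A) [K.Normal] (hK : Ab[K]) (l : K ≤ C[A]) : K ≤ A :=
  haveI := h.nor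
  le_sup_left.trans (h.max _ inferInstance (isMulComm_sup hK h.ab l) le_sup_right).le

theorem FC.min_na (h : FC ℂ G) (hA : MxA A) [N.Normal] (l : N ≤ C[A]) (na : ¬ Ab[N])
    (mn : ∀ M : Subgroup G, M.Normal → M ≤ N → ¬ Ab[M] → M = N) :
    (∃ a b, GQ N a b 1) ∨ ∃ φ : SL25 →* G, Injective φ ∧ φ.range = N := by
  have nN : ⊤ ≤ N[N] := top_le_norm_iff.2 inferInstance
  rcases (h.sub N).str with s | ⟨ψ, hψ, -⟩
  · left
    haveI : F[N].Normal := top_le_norm_iff.1 (le_norm_fit' nN)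
    have f : F[N] = N := mn _ inferInstance fit_le fun e => na (isMulComm_of_le e
      ((le_inf le_rfl (l.trans (cent_anti (hA.le e (fit_le.trans l))))).trans (cent_fit_le s)))
    have e : O[{2}, N] = N := by
      by_contra e
      refine na (nil_ab_of_cores (f ▸ fit_nil) fun p _ _ => ?_)
      by_cases p2 : p = 2
      · subst p2
        by_contra n
        exact e (mn _ (top_le_norm_iff.1 (nN.trans norm_le_norm_piCoreOf)) piCoreOf_le n)
      · exact isMulComm_of_cyclic (h.cyc_odd p2 (isPGroup_iff_piN.2 piN_piCoreOf))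
    obtain ⟨a, b, m, q⟩ := (h.two (P := N) (e ▸ isPGroup_iff_piN.2 piN_piCoreOf)).resolve_left
      fun c => na (isMulComm_of_cyclic c)
    by_cases m1 : m = 1
    · exact ⟨a, b, m1 ▸ q⟩
    haveI : (zpowers a).Normal := top_le_norm_iff.1 fun g _ => mem_norm_of_map_le (by
      rw [MonoidHom.map_zpowers, zpowers_le]
      by_contra e
      have h1 := q.sq_eq (conj_mem_of_norm (nN (mem_top g)) q.amem) e
      have h2 : orderOf (g * a * g⁻¹) ∣ 2 ^ 2 := orderOf_dvd_of_pow_eq_one (by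
        rw [show 2 ^ 2 = 2 * 2 from rfl, pow_mul, sq (g * a * g⁻¹), h1]
        exact orderOf_dvd_iff_pow_eq_one.1 q.ord_t.dvd)
      rw [CfsgH2.orderOf_conj', q.ord, Nat.pow_dvd_pow_iff_le_right one_lt_two] at h2
      have := q.pos
      omega)
    have := l q.bmem a (hA.le inferInstance (q.ale.trans l) (Subgroup.mem_zpowers a))
    refine absurd ?_ q.sq_a_ne
    rw [mul_eq_one_iff_eq_inv, ← q.inv, ← this, mul_inv_cancel_right]
  · obtain ⟨φ, hφ, n, -, t⟩ := h.str.resolve_left fun _ => not_solvable_SL25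
      (Group.isSolvable_of_isSolvable_injective (f := N.subtype.comp ψ) (N.subtype_injective.comp hψ))
    have k : ∀ y, (ψ (y * s5x * y⁻¹) : G) ∈ N ⊓ φ.range := fun y => ⟨Subtype.prop _, t _ (by
      rw [orderOf_coe, map_mul, map_mul, map_inv, CfsgH2.orderOf_conj', ord_x hψ])⟩
    have := mn (N ⊓ φ.range) inferInstance inf_le_left fun e => absurd (hψ ((map_mul ψ _ _).trans
      ((Subtype.ext (comm_of_isMulComm e (k 1) (k s5y))).trans (map_mul ψ _ _).symm))) (by decide)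
    exact Or.inr ⟨φ, hφ, (eq_of_le_of_card_le (inf_eq_left.1 this) (by
      rw [← Nat.card_congr (MonoidHom.ofInjective hφ).toEquiv]
      exact Nat.card_le_card_of_injective _ hψ)).symm⟩

theorem FC.sl23 (h : FC ℂ G) [Group.IsSolvable G] [Q.Normal] (q : IsPGroup 2 Q) (od : orderOf d = 3)
    (hd : d ∉ C[Q]) : ∃ φ : SL23 →* G, Injective φ ∧
      ∀ K : Subgroup G, (∀ c, orderOf c = 3 → c ∈ K) → φ.range ≤ K := by
  obtain ⟨x, hx, n⟩ : ∃ x ∈ Q, x * d ≠ d * x := by simpa [mem_centralizer_iff] using hd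
  have k : ∀ c, orderOf c = 3 → orderOf (c * d) = 4 → ∃ φ : SL23 →* G, Injective φ ∧
      ∀ K : Subgroup G, (∀ c, orderOf c = 3 → c ∈ K) → φ.range ≤ K := fun c oc o => by
    have o2 : orderOf ((c * d) ^ 2) = 2 := by rw [orderOf_pow_of_dvd two_ne_zero (by rw [o]; decide), o]
    obtain ⟨φ, h1, h2⟩ := exists_hom_SL23 (orderOf_dvd_iff_pow_eq_one.1 oc.dvd)
      (orderOf_dvd_iff_pow_eq_one.1 od.dvd) (orderOf_dvd_iff_pow_eq_one.1 o.dvd) (h.inv_comm o2 c).symm
    refine ⟨φ, inj_SL23 φ fun e => ?_, fun K hK => ?_⟩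
    · rw [map_pow, map_mul, h1, h2] at e; simp [e] at o2
    · rintro _ ⟨y, rfl⟩
      exact (eq_top_s3 (H := K.comap φ) (hK _ (h1 ▸ oc)) (hK _ (h2 ▸ od))).ge (mem_top y)
  have oc := (CfsgH2.orderOf_conj' x d).trans od
  obtain ⟨R, _, _, _, ρ, f⟩ := h.fr
  rcases f.tcases oc od with ⟨e, -⟩ | ⟨e, -⟩ | ⟨o, -⟩ | ⟨o, -⟩ | ⟨o, -⟩
  · have : d⁻¹ * d⁻¹ ∈ Q := by
      rw [← e, show x * d * x⁻¹ * (x * d * x⁻¹) = x * (d * x⁻¹ * d⁻¹) * (d * (x * d * x⁻¹)) by group, e,
        mul_inv_cancel, mul_one]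
      exact mul_mem hx (Normal.conj_mem inferInstance _ (inv_mem hx) d)
    have := eq_one_of_coprime_order q this (by
      rw [← sq, Nat.Coprime.orderOf_pow (by rw [orderOf_inv, od]; decide), orderOf_inv, od]; decide)
    rw [← sq, ← orderOf_dvd_iff_pow_eq_one, orderOf_inv, od] at this
    exact absurd this (by decide)
  · exact absurd (mul_inv_eq_iff_eq_mul.1 e) n
  · exact k _ oc o
  · exact k _ ((orderOf_inv _).trans oc) o
  · obtain ⟨φ, hφ, -⟩ := f.gold oc od o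
    exact absurd (Group.isSolvable_of_isSolvable_injective hφ) not_solvable_SL25

theorem q8_index (q : GQ Q a b 1) [Q.Normal] : C[Q].index ∣ 24 := by
  obtain ⟨f, hf⟩ := q8_hom q
  have n : ∀ x : G, x ∈ N[Q] := fun x => (top_le_norm_iff.2 inferInstance) (mem_top x)
  let f' := f.comp ((MonoidHom.id G).codRestrict _ n)
  rw [← show f'.ker = C[Q] from Subgroup.ext fun x => hf ⟨x, n x⟩, index_ker, ← card_S4]
  exact card_subgroup_dvd_card _

/-- an element of order four. -/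
def s5i : SL25 := ⟨!![2, 0; 0, 3], by decide⟩

omit [Finite G] in
theorem ker_conjNormal [A.Normal] : (MulAut.conjNormal (H := A)).ker = C[A] := by
  ext g
  rw [MonoidHom.mem_ker, mem_centralizer_iff]
  exact ⟨fun h a ha => (mul_inv_eq_iff_eq_mul.1 (show g * a * g⁻¹ = a from
    (congrArg Subtype.val (DFunLike.congr_fun h ⟨a, ha⟩) :))).symm,
    fun h => MulEquiv.ext fun a => Subtype.ext (mul_inv_eq_iff_eq_mul.2 (h a a.2).symm)⟩

omit [Finite G] in
theorem equiv_prod2 {A B : Subgroup G} (c : B ≤ C[A]) (d : A ⊓ B = ⊥) (s : A ⊔ B = ⊤) :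
    Nonempty (G ≃* A × B) := by
  have cm : ∀ (a : A) (b : B), Commute (A.subtype a) (B.subtype b) := fun a b => c b.2 a a.2
  have i := (MonoidHom.noncommCoprod_injective _ _ cm).2 ⟨A.subtype_injective, B.subtype_injective,
    by simpa [disjoint_iff] using d⟩
  have r := MonoidHom.noncommCoprod_range _ _ cm
  rw [range_subtype, range_subtype, s] at r
  exact ⟨(MulEquiv.ofBijective _ ⟨i, MonoidHom.range_eq_top.1 r⟩).symm⟩

theorem exists_index_two (hn : NPC 2 (⊤ : Subgroup G)) (h : 2 ∣ Nat.card G) :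
    ∃ N : Subgroup G, N.Normal ∧ N.index = 2 := by
  haveI : O[{2}ᶜ, (⊤ : Subgroup G)].Normal := top_le_norm_iff.1 le_norm_piCoreOf
  obtain ⟨k, hk⟩ := (piN_singleton Nat.prime_two (Nat.card_pos (α := G ⧸ O[{2}ᶜ, (⊤ : Subgroup G)])).ne').1
    (by have := hn.hall.pi'; rwa [compl_compl, relIndex_top_right] at this)
  rcases k with _ | k
  · rw [← O[{2}ᶜ, (⊤ : Subgroup G)].card_mul_index, index_eq_card, hk, pow_zero, mul_one] at h
    exact absurd rfl (piN_piCoreOf 2 Nat.prime_two h)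
  obtain ⟨K, hK⟩ := Sylow.exists_subgroup_card_pow_prime 2 (hk ▸ pow_dvd_pow 2 k.le_succ)
  have := K.card_mul_index
  rw [hK, hk, pow_succ, mul_right_inj' (by positivity),
    ← K.index_comap_of_surjective (QuotientGroup.mk'_surjective _)] at this
  exact ⟨_, normal_of_index_eq_two this, this⟩

variable [Finite V]

omit [Finite G] in
theorem exists_min_iv (i : Iv A W) (h0 : W ≠ ⊥) : ∃ U ≤ W, U ≠ ⊥ ∧ Iv A U ∧
    ∀ X ≤ U, Iv A X → X = ⊥ ∨ X = U := by
  obtain ⟨U, l, m⟩ := exists_minimal_le_of_wellFoundedLT (fun X : AddSubgroup V => X ≠ ⊥ ∧ Iv A X) W ⟨h0, i⟩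
  exact ⟨U, l, m.1.1, m.1.2, fun X hX iX => or_iff_not_imp_left.2 fun e => le_antisymm hX (m.2 ⟨e, iX⟩ hX)⟩

omit [Finite G] in
theorem sq_le_of_tr (tr : ∀ v w : V, v ≠ 0 → w ≠ 0 → ∃ g : G, g • v = w) [A.Normal] (n : ¬ Irr V A) :
    ∃ U : AddSubgroup V, U ≠ ⊥ ∧ Iv A U ∧ Nat.card U ^ 2 ≤ Nat.card V := by
  obtain ⟨W, i, h⟩ : ∃ W : AddSubgroup V, Iv A W ∧ W ≠ ⊥ ∧ W ≠ ⊤ := by simpa [Irr, not_or] using n
  obtain ⟨U, l, h0, iU, m⟩ := exists_min_iv i h.1
  obtain ⟨v, hv, v0⟩ := (AddSubgroup.bot_or_exists_ne_zero U).resolve_left h0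
  obtain ⟨w, -, hw⟩ := SetLike.exists_of_lt (h.2.lt_top : W < ⊤)
  obtain ⟨g, rfl⟩ := tr v w v0 fun e => hw (e ▸ W.zero_mem)
  let X := U.comap (DistribSMul.toAddMonoidHom V g)
  have : U ⊓ X = ⊥ := (m _ inf_le_left fun a ha u hu => ⟨iU a ha u hu.1, by
    change g • a • u ∈ U
    rw [show g • a • u = (g * a * g⁻¹) • g • u by simp [mul_smul]]
    exact iU _ (Normal.conj_mem inferInstance a ha g) _ hu.2⟩).resolve_right
      fun e => hw (l (e.ge hv).2)
  refine ⟨U, h0, iU, ?_⟩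
  rw [sq, ← Nat.card_prod]
  refine Nat.card_le_card_of_injective (fun x => x.1.1 + g⁻¹ • x.2.1) fun x y e => ?_
  have e1 : x.1.1 - y.1.1 = g⁻¹ • (y.2.1 - x.2.1) := by
    rw [smul_sub, sub_eq_sub_iff_add_eq_add, add_comm (g⁻¹ • _)]; exact e
  have e2 : x.1.1 - y.1.1 = 0 := this.le ⟨U.sub_mem x.1.2 y.1.2, by
    change g • _ ∈ U
    rw [e1, smul_inv_smul]; exact sub_mem y.2.2 x.2.2⟩
  rw [e2, eq_comm, smul_eq_zero_iff_eq, sub_eq_zero] at e1
  exact Prod.ext (Subtype.ext (sub_eq_zero.1 e2)) (Subtype.ext e1.symm)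

/-- `G` is regular on the non-zero elements of the elementary abelian group `V`. -/
structure ST (p : ℕ) (G V : Type*) [Group G] [AddCommGroup V] [DistribMulAction G V] : Prop where
  hp : p.Prime
  ex : ∀ v : V, p • v = 0
  fr : Free G V
  tr : ∀ v w : V, v ≠ 0 → w ≠ 0 → ∃ g : G, g • v = w
  nt : Nontrivial V

namespace ST

theorem fc (h : ST p G V) : FC ℂ G := haveI := h.nt; h.fr.fc

theorem card (h : ST p G V) : Nat.card G + 1 = Nat.card V := by
  haveI := h.nt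
  obtain ⟨v, hv⟩ := exists_ne (0 : V)
  apply le_antisymm
  · simpa using h.fr.le (K := ⊤) (W := ⊤) (fun _ _ _ _ => trivial) top_ne_bot
  rw [← Finite.card_option]
  refine Nat.card_le_card_of_surjective (fun o => o.elim 0 (· • v)) fun w => ?_
  by_cases e : w = 0
  · exact ⟨none, e.symm⟩
  · obtain ⟨g, hg⟩ := h.tr v w hv e
    exact ⟨some g, hg⟩

omit [Finite G] in
theorem prime_eq (h : ST p G V) {q : ℕ} (hq : q.Prime) (d : q ∣ Nat.card V) : q = p := by
  haveI := Fact.mk hq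
  obtain ⟨v, hv⟩ := exists_prime_addOrderOf_dvd_card' (G := V) q d
  exact (Nat.prime_dvd_prime_iff_eq hq h.hp).1 (hv ▸ addOrderOf_dvd_of_nsmul_eq_zero (h.ex v))

theorem cent_lt (h : ST p G V) (hA : MxA A) (n : ¬ Irr V A) : A < C[A] ∧ ¬ Ab[C[A]] := by
  haveI := hA.nor
  suffices s : A < C[A] from ⟨s, fun e => s.not_ge (hA.le e le_rfl)⟩
  refine lt_of_le_of_ne (le_cent_self hA.ab) fun e => ?_
  obtain ⟨U, h0, i, l⟩ := sq_le_of_tr h.tr n
  haveI := h.fc.cyc_ab hA.ab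
  have i1 : C[A].index ≤ o[A] := by
    rw [← ker_conjNormal, index_ker]
    exact (card_le_card_group _).trans (IsCyclic.card_mulAut (G := A) ▸ Nat.totient_le _)
  have := h.fr.le i h0
  have c := A.card_mul_index
  have := h.card
  have := Nat.card_pos (α := A)
  rw [← e] at i1
  nlinarith

theorem core (h : ST p G V) (ha : a ∈ N) (hb : b ∈ N) (oz : orderOf (a * a) = 2) (e : b * b = a * a)
    (i : b * a * b⁻¹ = a⁻¹) : ∃ U : AddSubgroup V, Iv C[N] U ∧ Nat.card V = Nat.card U ^ 2 ∧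
      Nat.card U % 2 = 1 ∧ 1 < Nat.card U ∧
      ∃ t, Nat.card U = o[C[N]] * t + 1 ∧ C[N].index = t * (Nat.card U + 1) := by
  haveI := h.nt
  have c := h.card
  have o : ¬ 2 ∣ Nat.card V := fun d => by
    have := oz ▸ orderOf_dvd_natCard (a * a); omega
  obtain ⟨h1, h2, h3⟩ := h.fr.quat oz e i
  obtain ⟨U, hU, iU⟩ := sq_base h1 h2 h3 h.hp (fun e => o (by
    have := h.prime_eq (Nat.minFac_prime (Finite.one_lt_card (α := V)).ne') (Nat.minFac_dvd _)
    exact e ▸ this ▸ Nat.minFac_dvd _)) h.ex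
  have iv : Iv C[N] U := fun g hg => iU (DistribMulAction.toAddMonoidEnd G V g)
    (by rw [← map_mul, ← map_mul, hg a ha]) (by rw [← map_mul, ← map_mul, hg b hb])
  obtain ⟨t, ht⟩ := h.fr.card_dvd iv
  have l : 1 < Nat.card U := (Nat.one_lt_pow_iff two_ne_zero).1 (hU ▸ Finite.one_lt_card)
  have e1 : Nat.card U = o[C[N]] * t + 1 := by omega
  refine ⟨U, iv, hU, Nat.two_dvd_ne_zero.1 fun d => o (hU ▸ d.trans (dvd_pow_self _ two_ne_zero)), l, t,
    e1, Nat.eq_of_mul_eq_mul_left (Nat.card_pos (α := C[N])) ?_⟩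
  rw [card_mul_index]
  rw [hU, e1] at c
  rw [e1]; nlinarith

theorem q8 (h : ST p G V) (q : GQ N a b 1) [N.Normal] : ∃ U : AddSubgroup V, Iv C[N] U ∧
    Nat.card V = Nat.card U ^ 2 ∧ Nat.card U ∈ ({3, 5, 7, 11, 23} : Set ℕ) ∧
      ∃ t, Nat.card U = o[C[N]] * t + 1 ∧ C[N].index = t * (Nat.card U + 1) := by
  obtain ⟨U, h1, h2, h3, h4, t, h5, h6⟩ := h.core q.amem q.bmem (sq a ▸ q.ord_t)
    (by rw [← sq, ← sq]; exact q.sq') q.inv
  refine ⟨U, h1, h2, ?_, t, h5, h6⟩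
  have d := (Dvd.intro_left _ h6.symm).trans (q8_index q)
  have := Nat.le_of_dvd (by decide) d
  generalize Nat.card U = r at *
  have : r < 24 := by omega
  interval_cases r <;> simp_all (decide := true)

theorem s5 (h : ST p G V) {φ : SL25 →* G} (hφ : Injective φ) [φ.range.Normal] :
    ∃ U : AddSubgroup V, Iv C[φ.range] U ∧
    Nat.card V = Nat.card U ^ 2 ∧ Nat.card U ∈ ({11, 19, 29, 59} : Set ℕ) ∧
      ∃ t, Nat.card U = o[C[φ.range]] * t + 1 ∧ C[φ.range].index = t * (Nat.card U + 1) := by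
  obtain ⟨U, h1, h2, h3, h4, t, h5, h6⟩ := h.core (N := φ.range) (a := φ s5i)
    (b := φ s5w) ⟨_, rfl⟩ ⟨_, rfl⟩ (by rw [← map_mul, show s5i * s5i = -1 by decide, FC.ord_neg hφ])
    (by rw [← map_mul, ← map_mul]; congr 1; decide)
    (by rw [← map_inv, ← map_inv, ← map_mul, ← map_mul]; congr 1; decide)
  refine ⟨U, h1, h2, ?_, t, h5, h6⟩
  obtain ⟨f, k, -⟩ := s5_hom hφ
  have d : Nat.card U + 1 ∣ 120 := (Dvd.intro_left _ h6.symm).trans (by
    rw [← k, index_ker]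
    exact (card_subgroup_dvd_card _).trans (by rw [Nat.card_perm, Nat.card_fin]; rfl))
  have d2 : 120 ∣ Nat.card U ^ 2 - 1 := by
    rw [← h2, ← h.card, ← card_SL25]; exact card_dvd_of_injective φ hφ
  have n : Nat.card U ≠ 119 := fun e => absurd ((h.prime_eq (q := 7) (by decide) (by
    rw [h2, e]; decide)).trans (h.prime_eq (q := 17) (by decide) (by rw [h2, e]; decide)).symm) (by decide)
  have := Nat.le_of_dvd (by decide) d
  generalize Nat.card U = r at *
  have k : ∀ r : Fin 120, r.1 + 1 ∣ 120 → 1 < r.1 → 120 ∣ r.1 ^ 2 - 1 → r.1 ≠ 119 →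
      r.1 = 11 ∨ r.1 = 19 ∨ r.1 = 29 ∨ r.1 = 59 := by decide +kernel
  exact k ⟨r, by omega⟩ d h4 d2 n

theorem irr (h : ST p G V) (e : Nat.card V = Nat.card U ^ 2) (hp : (Nat.card U).Prime) (na : ¬ Ab[N]) :
    Irr V N := fun W i => by
  obtain ⟨k, hk, c⟩ := (Nat.dvd_prime_pow hp).1 (e ▸ W.card_addSubgroup_dvd_card)
  interval_cases k
  · exact Or.inl (AddSubgroup.eq_bot_of_card_eq _ c)
  · exact absurd (h.fr.ab i (by rwa [c, pow_one])) na
  · exact Or.inr (AddSubgroup.eq_top_of_card_eq _ (c.trans e.symm))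

theorem min_irr (h : ST p G V) (hA : MxA A) [N.Normal] (l : N ≤ C[A]) (na : ¬ Ab[N])
    (mn : ∀ M : Subgroup G, M.Normal → M ≤ N → ¬ Ab[M] → M = N) : Irr V N ∧ C[N] = A := by
  obtain ⟨U, i, e, hp⟩ : ∃ U : AddSubgroup V, Iv C[N] U ∧ Nat.card V = Nat.card U ^ 2 ∧
      (Nat.card U).Prime := by
    rcases h.fc.min_na hA l na mn with ⟨a, b, q⟩ | ⟨φ, hφ, rfl⟩
    · obtain ⟨U, h1, h2, h3, -⟩ := h.q8 q
      exact ⟨U, h1, h2, by rcases h3 with e | e | e | e | e <;> rw [e] <;> decide⟩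
    · obtain ⟨U, h1, h2, h3, -⟩ := h.s5 hφ
      exact ⟨U, h1, h2, by rcases h3 with e | e | e | e <;> rw [e] <;> norm_num⟩
  exact ⟨h.irr e hp na, hA.max _ inferInstance (h.fr.ab i hp) (le_centralizer_iff.1 l)⟩

theorem sol_deg (h : ST p G V) [Group.IsSolvable G]
    (hI : ∀ A : Subgroup G, A.Normal → Cyc[A] → ¬ Irr V A) :
    Nat.card V = 25 ∨ Nat.card V = 49 ∨ Nat.card V = 121 ∨ Nat.card V = 529 := by
  obtain ⟨A, hA⟩ := exists_mxA (G := G)
  haveI := hA.nor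
  obtain ⟨N, l, ⟨n, na⟩, mn⟩ := exists_minimal_le (fun M : Subgroup G => M.Normal ∧ ¬ Ab[M]) (H := C[A])
    ⟨inferInstance, (h.cent_lt hA (hI A hA.nor (h.fc.cyc_ab hA.ab))).2⟩
  rcases h.fc.min_na hA l na fun M h1 h2 h3 => mn M ⟨h1, h3⟩ h2 with ⟨a, b, q⟩ | ⟨φ, hφ, -⟩
  · obtain ⟨U, -, e, h3, -⟩ := h.q8 q
    rcases h3 with c | c | c | c | c <;> rw [c] at e <;> try simp [e]
    have t : N = ⊤ := eq_top_of_card_eq _ (by have := h.card; rw [q.card]; omega)
    refine (hI (zpowers a) (top_le_norm_iff.1 (t ▸ q.le_norm)) inferInstance fun W i => ?_).elim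
    obtain ⟨k, hk, c⟩ := (Nat.dvd_prime_pow Nat.prime_three).1 (e ▸ W.card_addSubgroup_dvd_card)
    interval_cases k
    · exact Or.inl (AddSubgroup.eq_bot_of_card_eq _ c)
    · have := h.fr.card_dvd i
      rw [c, Nat.card_zpowers, q.ord] at this
      exact absurd this (by decide)
    · exact Or.inr (AddSubgroup.eq_top_of_card_eq _ (c.trans e.symm))
  · exact absurd (Group.isSolvable_of_isSolvable_injective hφ) not_solvable_SL25

theorem nonsol (h : ST p G V) (hs : ¬ Group.IsSolvable G) :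
    (Nat.card V = 121 ∧ Nonempty (G ≃* SL25)) ∨
    (Nat.card V = 841 ∧ Nonempty (G ≃* SL25 × Multiplicative (ZMod 7))) ∨
    (Nat.card V = 3481 ∧ Nonempty (G ≃* SL25 × Multiplicative (ZMod 29))) := by
  obtain ⟨φ, M, hφ, n, -, l, d, -, c, -, i⟩ := h.fc.nonsol hs
  obtain ⟨U, -, e, h3, -⟩ := h.s5 hφ
  let e1 := (MonoidHom.ofInjective hφ).symm
  have c1 := (φ.range ⊔ M).card_mul_index
  rw [card_sup_of_disj (.inr (l.trans (centralizer_le_normalizer _))) d, Nat.card_congr e1.toEquiv,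
    card_SL25] at c1
  have c2 := h.card
  have k : ∀ {r}, r.Prime → o[M] = r → (φ.range ⊔ M).index = 1 →
      Nonempty (G ≃* SL25 × Multiplicative (ZMod r)) := fun {r} hr c i =>
    haveI := Fact.mk hr
    (equiv_prod2 l d (index_eq_one.1 i)).map fun e => e.trans (e1.prodCongr
      (mulEquivOfPrimeCardEq c (by simp)))
  rcases h3 with r | r | r | r <;> rw [r] at e <;> rcases i with i | i <;> rw [i] at c1 <;> try omega
  · exact Or.inl ⟨e, ⟨(MulEquiv.ofBijective φ (hφ.bijective_of_nat_card_le (by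
      rw [card_SL25]; omega))).symm⟩⟩
  · rw [show o[M] = 3 by omega] at c
    exact absurd c (by decide)
  · exact Or.inr (Or.inl ⟨e, k (by decide) (by omega) i⟩)
  · exact Or.inr (Or.inr ⟨e, k (by norm_num) (by omega) i⟩)

theorem idx_two (h : ST p G V) [Group.IsSolvable G] (p2 : p ≠ 2) :
    (∃ N : Subgroup G, N.Normal ∧ N.index = 2) ∨ (Nat.card V = 25 ∧ Nonempty (G ≃* SL23)) ∨
      (Nat.card V = 121 ∧ Nonempty (G ≃* SL23 × Multiplicative (ZMod 5))) := by
  have c2 := h.card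
  by_cases hn : NPC 2 (⊤ : Subgroup G)
  · have := mt (h.prime_eq Nat.prime_two) p2.symm
    exact Or.inl (exists_index_two hn (by omega))
  obtain ⟨a, b, q, g, h1, h2⟩ := h.fc.sol_q8 hn
  set Q := O[{2}, (⊤ : Subgroup G)]
  haveI : Q.Normal := top_le_norm_iff.1 le_norm_piCoreOf
  obtain ⟨f, k, d⟩ := q8_hom' q h1 h2
  rcases alt_or_top f (mul_dvd_mul_left 2 (k ▸ d)) with ⟨f', s, k'⟩ | s
  swap
  · have : ((alternatingGroup (Fin 4)).comap f).index = 2 := by
      rw [index_comap_of_surjective _ s, alternatingGroup.index_eq_two]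
    exact Or.inl ⟨_, inferInstance, this⟩
  have i := index_of_surj s
  rw [k', k, card_A4] at i
  obtain ⟨U, iU, e, h3, t, h4, h5⟩ := h.q8 q
  have c1 := C[Q].card_mul_index
  rw [i] at h5 c1
  obtain ⟨d, od⟩ := exists_prime_orderOf_dvd_card' (G := G) 3 (by omega)
  have m : ¬ 3 ∣ o[C[Q]] → _ := fun n => h.fc.sl23 q.pg od fun e => n (od ▸ orderOf_dvd_of_mem e)
  rcases h3 with r | r | r | r | r <;> rw [r] at e h4 h5 <;> try omega
  · obtain ⟨φ, hφ, -⟩ := m (by omega)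
    exact Or.inr (Or.inl ⟨e, ⟨(MulEquiv.ofBijective φ (hφ.bijective_of_nat_card_le (by
      rw [card_SL23]; omega))).symm⟩⟩)
  obtain ⟨φ, hφ, l⟩ := m (by omega)
  have c : o[C[Q]] = 10 := by omega
  haveI := h.fc.cyc_ab (h.fr.ab iU (by rw [r]; decide))
  obtain ⟨x, hx, ox⟩ := exists_prime_order_mem (H := C[Q]) (p := 5) (by decide) (by omega)
  have l' : zpowers x ≤ C[φ.range] := le_centralizer_iff.1 ((l C[C[Q]] fun y oy => by
    rw [← ker_conjNormal, MonoidHom.mem_ker, ← orderOf_eq_one_iff]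
    have := orderOf_dvd_natCard (MulAut.conjNormal (H := C[Q]) y)
    rw [IsCyclic.card_mulAut, c] at this
    exact Nat.eq_one_of_dvd_coprimes (show Nat.Coprime 3 (Nat.totient 10) by decide)
      (oy ▸ orderOf_map_dvd _ y) this).trans (cent_anti (zpowers_le.2 hx)))
  let e1 := (MonoidHom.ofInjective hφ).symm
  have c3 := (Nat.card_congr e1.toEquiv).trans card_SL23
  have d : φ.range ⊓ zpowers x = ⊥ := inf_eq_bot_of_coprime' (by rw [c3, Nat.card_zpowers, ox]; decide)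
  exact Or.inr (Or.inr ⟨e, (equiv_prod2 l' d (eq_top_of_card_eq _ (by
    rw [card_sup_of_disj (.inr (l'.trans (centralizer_le_normalizer _))) d, c3, Nat.card_zpowers, ox]
    omega))).map fun e => e.trans (e1.prodCongr (mulEquivOfPrimeCardEq
      ((Nat.card_zpowers x).trans ox) (by simp)))⟩)

end ST

end CfsgH8.FC
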