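import Cfsg.Agent.H8.FC8

/-! Translation of regular linear groups over prime fields. -/

set_option autoImplicit false
open Subgroup Function

namespace CfsgH8.FC

variable {p : ℕ} [hp : Fact p.Prime] {V : Type*} [AddCommGroup V] [Module (ZMod p) V]

theorem ex_zmod {p : ℕ} {V : Type*} [AddCommGroup V] [Module (ZMod p) V] (v : V) : p • v = 0 := by
  rw [← Nat.cast_smul_eq_nsmul (ZMod p), ZMod.natCast_self, zero_smul]

instance finLin [Finite V] : Finite (V ≃ₗ[ZMod p] V) :=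
  .of_injective (fun f => (f : V → V)) DFunLike.coe_injective

theorem st_of_reg {H : Subgroup (V ≃ₗ[ZMod p] V)} [Nontrivial V]
    (h : ∀ v w : V, v ≠ 0 → w ≠ 0 → ∃! h : H, (h : V ≃ₗ[ZMod p] V) v = w) : ST p H V :=
  ⟨hp.out, ex_zmod, fun _ v e => or_iff_not_imp_right.2 fun h0 => (h v v h0 h0).unique e rfl,
    fun v w h1 h2 => (h v w h1 h2).exists, inferInstance⟩

theorem irr_iff {G : Type*} [Group G] [DistribMulAction G V] {A : Subgroup G} : Irr V A ↔
    ∀ W : Submodule (ZMod p) V, (∀ a ∈ A, ∀ v ∈ W, a • v ∈ W) → W = ⊥ ∨ W = ⊤ :=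
  ⟨fun h W i => (h W.toAddSubgroup i).imp (fun e => Submodule.toAddSubgroup_injective e)
    fun e => Submodule.toAddSubgroup_injective e, fun h W i => (h (W.toZModSubmodule p) i).imp
      (congrArg Submodule.toAddSubgroup) (congrArg Submodule.toAddSubgroup)⟩

theorem not_irr {G : Type*} [Group G] [DistribMulAction G V] {A : Subgroup G}
    (h : ∃ W : Submodule (ZMod p) V, W ≠ ⊥ ∧ W ≠ ⊤ ∧ ∀ a ∈ A, ∀ v ∈ W, a • v ∈ W) : ¬ Irr V A :=
  fun i => let ⟨W, h1, h2, h3⟩ := h; (irr_iff.1 i W h3).elim h1 h2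

theorem nt_of_ne {W : Submodule (ZMod p) V} (h : W ≠ ⊥) : Nontrivial V :=
  let ⟨v, _, hv⟩ := W.exists_mem_ne_zero_of_ne_bot h; ⟨v, 0, hv⟩

end CfsgH8.FC
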