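import Mathlib
import Cfsg.Agent.H8.SL2n

/-! Sylow subgroups of `GL₂` in defining characteristic. -/

set_option autoImplicit false
set_option linter.unusedSectionVars false

open Matrix

namespace CfsgH8

variable {F : Type*} [Field F] [Fintype F]

local notation "SL2" => Matrix.SpecialLinearGroup (Fin 2) F
local notation "toGL" => Matrix.SpecialLinearGroup.toGL
local notation "q" => Fintype.card F

theorem exists_toGL_of_pow (p : ℕ) [hp : Fact p.Prime] [CharP F p] {g : GL (Fin 2) F} {k : ℕ}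
    (h : g ^ p ^ k = 1) : ∃ s : SL2, toGL s = g := by
  refine exists_toGL_eq ?_
  have h1 := congrArg (fun x : GL (Fin 2) F => x.1.det) h
  simp only [Units.val_pow_eq_pow_val, Matrix.det_pow, Units.val_one, Matrix.det_one] at h1
  have h2 : (g.1.det - 1) ^ p ^ k = 0 := by rw [sub_pow_char_pow, h1, one_pow, sub_self]
  exact sub_eq_zero.1 (pow_eq_zero_iff (pow_ne_zero _ hp.1.ne_zero) |>.1 h2)

theorem isConj_tri_of_pow (p : ℕ) [hp : Fact p.Prime] [CharP F p] {g : GL (Fin 2) F} {k : ℕ}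
    (h : g ^ p ^ k = 1) (h1 : g ≠ 1) : IsConj g (tri 1 1 1) := by
  obtain ⟨s, rfl⟩ := exists_toGL_of_pow p h
  rw [← map_pow, ← map_one (toGL : SL2 →* GL (Fin 2) F), Matrix.SpecialLinearGroup.toGL_inj] at h
  obtain ⟨x, hx⟩ := exists_conj_mem_US (trace_of_pow_char p h)
  obtain ⟨t, ht⟩ := mem_US.1 hx
  refine ((toGL : SL2 →* GL (Fin 2) F).map_isConj (isConj_iff.2 ⟨x, ht⟩)).trans ?_
  rw [toGL_triS, inv_one]
  refine isConj_tri_unip _ ?_ one_ne_zero
  rintro rfl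
  exact h1 (by rw [show s = 1 by simpa [triS_one] using ht, map_one])

variable (F) in
/-- The unitriangular subgroup of `GL₂`. -/
noncomputable def UG : Subgroup (GL (Fin 2) F) := (US F).map toGL

theorem mem_UG {g : GL (Fin 2) F} : g ∈ UG F ↔ ∃ t, g = tri 1 t 1 := by
  constructor
  · rintro ⟨_, h, rfl⟩
    obtain ⟨t, rfl⟩ := mem_US.1 h
    exact ⟨t, by rw [toGL_triS, inv_one]⟩
  · rintro ⟨t, rfl⟩
    exact ⟨_, triS_mem_US t, by rw [toGL_triS, inv_one]⟩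

theorem conj_mem_UG {x u : GL (Fin 2) F} (hx : x ∈ Cfsg.upperTriangularGL 2 F) (hu : u ∈ UG F) :
    x * u * x⁻¹ ∈ UG F := by
  obtain ⟨a, d, e⟩ := exists_eq_tri (mem_B2.1 hx)
  obtain ⟨t, rfl⟩ := mem_UG.1 hu
  refine mem_UG.2 ⟨a * t / d, ?_⟩
  rw [e, mul_inv_eq_iff_eq_mul, tri_mul, tri_mul, tri_inj]
  simp [add_comm]

theorem mem_B2_of_conj_UG {x u : GL (Fin 2) F} (hu : u ∈ UG F) (h1 : u ≠ 1)
    (h : x * u * x⁻¹ ∈ UG F) : x ∈ Cfsg.upperTriangularGL 2 F := by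
  obtain ⟨t, rfl⟩ := mem_UG.1 hu
  obtain ⟨s, e⟩ := mem_UG.1 h
  exact mem_B2_of_conj (by rintro rfl; exact h1 tri_one) (e ▸ tri_mem_B2 _ _ _)

theorem normalizer_UG : Subgroup.normalizer (UG F : Set (GL (Fin 2) F)) =
    Cfsg.upperTriangularGL 2 F := by
  refine le_antisymm (fun x hx => mem_B2_of_conj_UG (mem_UG.2 ⟨1, rfl⟩)
    (by rw [← tri_one, ne_eq, tri_inj]; simp) ((hx _).1 (mem_UG.2 ⟨1, rfl⟩)))
    fun x hx u => ⟨conj_mem_UG hx, fun h => ?_⟩
  simpa [mul_assoc] using conj_mem_UG (inv_mem hx) h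

theorem sylow_eq_UG (p : ℕ) [Fact p.Prime] [CharP F p] (P : Sylow p (GL (Fin 2) F)) :
    ∃ s : GL (Fin 2) F, (P : Subgroup (GL (Fin 2) F)) = (UG F).map (MulAut.conj s).toMonoidHom := by
  obtain ⟨s, hs⟩ := exists_conj_le_US p
    (P.isPGroup'.comap_of_injective _ Matrix.SpecialLinearGroup.toGL_injective)
  refine ⟨(toGL s)⁻¹, (P.is_maximal' (((isPGroup_US p).map _).map _) fun x hx => ?_).symm⟩
  obtain ⟨k, hk⟩ := P.isPGroup' ⟨x, hx⟩
  obtain ⟨y, rfl⟩ := exists_toGL_of_pow p (congrArg Subtype.val hk)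
  exact ⟨_, ⟨_, hs y hx, rfl⟩, by simp [mul_assoc]⟩

theorem card_normalizer_sylow_GL2 (p : ℕ) [Fact p.Prime] [CharP F p] (P : Sylow p (GL (Fin 2) F)) :
    Nat.card (Subgroup.normalizer ((P : Subgroup (GL (Fin 2) F)) : Set (GL (Fin 2) F))) =
      (q - 1) * (q * (q - 1)) := by
  obtain ⟨s, hs⟩ := sylow_eq_UG p P
  rw [hs, ← Subgroup.map_equiv_normalizer_eq, normalizer_UG,
    Subgroup.card_map_of_injective (MulAut.conj s).injective, card_B2]

end CfsgH8
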