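import Cfsg.Agent.H7.Gol.Tr2
import Cfsg.Agent.H1.St4

/-! Invariant families of subsets of the 24 points. -/

set_option autoImplicit false
set_option maxRecDepth 100000

namespace CfsgH8.GolW

open CfsgH7 CfsgH7.Gol Cfsg Finset MulAction
open scoped Pointwise

theorem smul_sd (c : M24) (s t : Finset GolayPt) : c • symmDiff s t = symmDiff (c • s) (c • t) := by
  ext p
  simp only [← Finset.inv_smul_mem_iff, Finset.mem_symmDiff]

structure Cl (W : Set (Finset GolayPt)) : Prop where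
  xor : ∀ s ∈ W, ∀ t ∈ W, symmDiff s t ∈ W
  smul : ∀ c : M24, ∀ s ∈ W, c • s ∈ W

variable {W : Set (Finset GolayPt)}

theorem Cl.back (h : Cl W) (c : M24) {s : Finset GolayPt} (hs : c • s ∈ W) : s ∈ W := by
  simpa using h.smul c⁻¹ _ hs

theorem Cl.of_oct (h : Cl W) {o : Finset GolayPt} (ho : o ∈ octads) (hW : o ∈ W) : U ⊆ W := by
  have a : ∀ o' ∈ octads, o' ∈ W := fun o' ho' => by
    obtain ⟨c, rfl⟩ := oct_tr ho
    obtain ⟨d, rfl⟩ := oct_tr ho'
    exact h.smul _ _ (h.back c hW)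
  have b : ∀ x y, isOct x = true → isOct y = true → S (Nat.xor x y) ∈ W := fun x y hx hy => by
    have := h.xor _ (a _ (oct_of hx)) _ (a _ (oct_of hy))
    rwa [msk_symmDiff] at this
  have c16 : (S 0x82402f)ᶜ ∈ W := cO0 ▸ b 0x149f00 0x6920d0 (by decide +kernel) (by decide +kernel)
  intro s hs
  rcases wt hs with e | e | e | e | e
  · rw [card_eq_zero.1 e, ← bot_eq_empty, ← symmDiff_self o]
    exact h.xor _ hW _ hW
  · exact a s (mem_oct.2 ⟨hs, e⟩)
  · obtain ⟨c, rfl⟩ := dod_tr (mem_dod.2 ⟨hs, e⟩)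
    exact h.smul _ _ (b 0x10132b 0x152074 (by decide +kernel) (by decide +kernel))
  · obtain ⟨c, hc⟩ := oct_tr (mem_oct.2 ⟨U_compl hs, by rw [card_compl, cardP, e]⟩)
    rw [← compl_compl s, ← hc, ← smul_compl]
    exact h.smul _ _ c16
  · rw [(card_eq_iff_eq_univ s).1 (e.trans cardP.symm), ← top_eq_univ, ← symmDiff_compl_self (S 0x82402f)]
    exact h.xor _ (a _ oct0) _ c16

theorem Cl.of_U (h : Cl W) {s : Finset GolayPt} (hs : s ∈ U) (hW : s ∈ W) (h0 : s ≠ ∅) (h1 : s ≠ univ) : U ⊆ W := by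
  rcases wt hs with e | e | e | e | e
  · exact absurd (card_eq_zero.1 e) h0
  · exact h.of_oct (mem_oct.2 ⟨hs, e⟩) hW
  · obtain ⟨c, rfl⟩ := dod_tr (mem_dod.2 ⟨hs, e⟩)
    obtain ⟨d, hd⟩ := dod_tr (dod_of (a := 0x37313a) (by decide +kernel))
    have := h.xor _ (h.back c hW) _ (h.smul d _ (h.back c hW))
    rw [hd, msk_symmDiff] at this
    exact h.of_oct (oct_of (by decide +kernel)) this
  · obtain ⟨c, hc⟩ := oct_tr (mem_oct.2 ⟨U_compl hs, by rw [card_compl, cardP, e]⟩)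
    rw [← compl_compl s, ← hc, ← smul_compl] at hW
    obtain ⟨d, hd⟩ := oct_tr (oct_of (a := 0x320265) (by decide +kernel))
    have := h.xor _ (h.back c hW) _ (h.smul d _ (h.back c hW))
    rw [smul_compl, hd, compl_symmDiff_compl, msk_symmDiff] at this
    exact h.of_oct (oct_of (by decide +kernel)) this
  · exact absurd ((card_eq_iff_eq_univ s).1 (e.trans cardP.symm)) h1

theorem two_of {X : Finset GolayPt} {a b : GolayPt} {c : Finset GolayPt}
    (h : ∀ p ∈ c, ∀ q ∈ c, p ≠ q → ∃ g : M24, g • X = c ∧ g • a = p ∧ g • b = q) {p q r : GolayPt}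
    (hp : p ∈ c) (hq : q ∈ c) (hr : r ∈ c) (h1 : p ≠ q) (h2 : p ≠ r) :
    ∃ σ : M24, σ • c = c ∧ σ • p = p ∧ σ • q = r := by
  obtain ⟨g, a1, a2, a3⟩ := h p hp q hq h1
  obtain ⟨k, b1, b2, b3⟩ := h p hp r hr h2
  refine ⟨k * g⁻¹, ?_, ?_, ?_⟩
  · rw [mul_smul, inv_smul_eq_iff.2 a1.symm, b1]
  · rw [mul_smul, inv_smul_eq_iff.2 a2.symm, b2]
  · rw [mul_smul, inv_smul_eq_iff.2 a3.symm, b3]

theorem two {c : Finset GolayPt} (hc : c ∈ U) {p q r : GolayPt}
    (hp : p ∈ c) (hq : q ∈ c) (hr : r ∈ c) (h1 : p ≠ q) (h2 : p ≠ r) :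
    ∃ σ : M24, σ • c = c ∧ σ • p = p ∧ σ • q = r := by
  rcases wt hc with e | e | e | e | e
  · simp [card_eq_zero.1 e] at hp
  · exact two_of (fun p hp q hq h => opts2 (mem_oct.2 ⟨hc, e⟩) hp hq h) hp hq hr h1 h2
  · refine two_of (X := S 0x5335f) (a := px 0) (b := px 1) (fun p hp q hq h => ?_) hp hq hr h1 h2
    simpa [and_comm] using dpts td2 (mem_dod.2 ⟨hc, e⟩) [q, p] rfl (by simp [h.symm]) (by simp [hp, hq])
  · refine two_of (X := (S 0x82402f)ᶜ) (a := px 4) (b := px 6) (fun p hp q hq h => ?_) hp hq hr h1 h2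
    obtain ⟨g, hg⟩ := oct_tr (mem_oct.2 ⟨U_compl hc, by rw [card_compl, cardP, e]⟩)
    have e2 : g • S 0x7dbfd0 = c := by rw [← cO0, smul_compl, hg, compl_compl]
    obtain ⟨k, -, k1, k2⟩ := tc2.lift (a := S 0x7dbfd0) (fun x hx => cO0 ▸ stab_compl hx)
      (stab_inv fun x hx => cO0 ▸ stab_compl hx) g [q, p] rfl (by simp [h.symm])
      (fun x hx => Finset.inv_smul_mem_iff.2 (by rw [e2]; revert x; simp [hp, hq]))
    refine ⟨g * k, by rw [cO0, k1, e2], ?_⟩
    simpa [and_comm] using k2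
  · rw [(card_eq_iff_eq_univ c).1 (e.trans cardP.symm)]
    refine two_of (X := univ) (a := px 23) (b := px 0) (fun p _ q _ h => ?_) (mem_univ _) (mem_univ _) (mem_univ _) h1 h2
    obtain ⟨g, hg⟩ := pts2 h
    exact ⟨g, by simp, hg⟩

theorem mv {c : Finset GolayPt} (hc : c ∈ U) {t : Finset GolayPt} (h0 : t ≠ ∅) (h4 : t.card ≤ 4) :
    ∃ σ : M24, σ • c = c ∧ symmDiff t (σ • t) ≠ ∅ ∧ (symmDiff t (σ • t)).card ≤ 6 := by
  have key : ∀ D ∈ U, ∀ p ∈ D, ∀ q ∈ D, p ≠ q → q ∈ t → (t.card ≤ 3 ∨ p ∈ t) →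
      ∃ σ : M24, σ • D = D ∧ symmDiff t (σ • t) ≠ ∅ ∧ (symmDiff t (σ • t)).card ≤ 6 := by
    intro D hD p hp q hq hpq hqt h
    have h8 : 8 ≤ D.card := by have := card_pos.2 ⟨p, hp⟩; rcases wt hD with e | e | e | e | e <;> omega
    obtain ⟨r, hr, hr'⟩ := exists_mem_notMem_of_card_lt_card (s := insert p t) (t := D)
      (by have := card_insert_le p t; omega)
    rw [mem_insert, not_or] at hr'
    obtain ⟨σ, a1, a2, a3⟩ := two hD hp hq hr hpq (Ne.symm hr'.1)
    refine ⟨σ, a1, fun e => hr'.2 ?_, ?_⟩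
    · rw [symmDiff_eq_bot.1 e, ← a3]; exact smul_mem_smul_finset hqt
    · have := card_symmDiff t (σ • t)
      rw [card_smul_finset] at this
      rcases h with h | h
      · omega
      · have := card_pos.2 ⟨p, mem_inter.2 ⟨h, a2 ▸ smul_mem_smul_finset (a := σ) h⟩⟩
        omega
  have key2 : ∀ D ∈ U, (t.card ≤ 3 ∧ (t ∩ D).Nonempty ∨ 1 < (t ∩ D).card) →
      ∃ σ : M24, σ • D = D ∧ symmDiff t (σ • t) ≠ ∅ ∧ (symmDiff t (σ • t)).card ≤ 6 := by
    rintro D hD (⟨h3, q, hq⟩ | h)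
    · have h8 : 1 < D.card := by
        have := card_pos.2 ⟨q, (mem_inter.1 hq).2⟩; rcases wt hD with e | e | e | e | e <;> omega
      obtain ⟨p, hp, hpq⟩ := exists_mem_ne h8 q
      exact key D hD p hp q (mem_inter.1 hq).2 hpq (mem_inter.1 hq).1 (Or.inl h3)
    · obtain ⟨p, hp, q, hq, hpq⟩ := one_lt_card.1 h
      exact key D hD p (mem_inter.1 hp).2 q (mem_inter.1 hq).2 hpq (mem_inter.1 hq).1 (Or.inr (mem_inter.1 hp).1)
  have e : (t ∩ c).card + (t ∩ cᶜ).card = t.card := by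
    rw [← sdiff_eq_inter_compl, card_inter_add_card_sdiff]
  have h1 := card_pos.2 (nonempty_iff_ne_empty.2 h0)
  by_cases h : t.card ≤ 3 ∧ 0 < (t ∩ c).card ∨ 1 < (t ∩ c).card
  · exact key2 c hc (by rwa [← card_pos])
  · obtain ⟨σ, a, b⟩ := key2 cᶜ (U_compl hc) (by rw [← card_pos]; omega)
    exact ⟨σ, by simpa using stab_compl a, b⟩

theorem fix4 {t : Finset GolayPt} (ht : t.card = 4) {a q : GolayPt} (ha : a ∉ t) (hq : q ∉ t) :
    ∃ σ : M24, (∀ x ∈ t, σ • x = x) ∧ σ • a = q := by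
  obtain ⟨g, hg⟩ := pts tt5 (a :: t.toList) (by simp [ht]) (by simp [ha, nodup_toList])
  obtain ⟨k, hk⟩ := pts tt5 (q :: t.toList) (by simp [ht]) (by simp [hq, nodup_toList])
  have : (a :: t.toList).map ((k * g⁻¹) • ·) = q :: t.toList := by
    rw [← hg, ← hk, List.map_map]
    simp [Function.comp_def, mul_smul]
  rw [List.map_cons, List.cons.injEq] at this
  refine ⟨_, fun x hx => ?_, this.1⟩
  exact List.map_inj_left.1 (this.2.trans (List.map_id _).symm) x (mem_toList.2 hx)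

theorem Cl.even (h : Cl W) {s : Finset GolayPt} (hs : s ∈ W) (hU : s ∉ U) :
    ∀ x : Finset GolayPt, Even x.card → x ∈ W := by
  have h2 : ∀ r ∈ W, r.card = 2 → ∀ x : Finset GolayPt, Even x.card → x ∈ W := by
    rintro r hr e x ⟨n, hn⟩
    have a : ∀ y : Finset GolayPt, y.card = 2 → y ∈ W := fun y hy => by
      obtain ⟨c, rfl⟩ := sets2 e
      obtain ⟨d, rfl⟩ := sets2 hy
      exact h.smul _ _ (h.back c hr)
    induction n generalizing x with
    | zero =>
      rw [card_eq_zero.1 hn, ← bot_eq_empty, ← symmDiff_self r]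
      exact h.xor _ hr _ hr
    | succ n ih =>
      obtain ⟨y, hy, hy'⟩ := exists_subset_card_eq (s := x) (n := 2) (by omega)
      have := h.xor _ (a y hy') _ (ih (symmDiff y x) (by
        have := card_symmDiff y x
        rw [inter_eq_left.2 hy] at this
        omega))
      rwa [symmDiff_symmDiff_cancel_left] at this
  have h4 : ∀ r ∈ W, r.card = 4 → ∀ x : Finset GolayPt, Even x.card → x ∈ W := by
    intro r hr e
    obtain ⟨c, rfl⟩ := sets4 e
    obtain ⟨d, hd⟩ := sets4 (s := S 0x80000b) (by rw [card_S]; decide +kernel)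
    have := h.xor _ (h.back c hr) _ (h.smul d _ (h.back c hr))
    rw [hd, msk_symmDiff] at this
    exact h2 _ this (by rw [card_S]; decide +kernel)
  obtain ⟨t, t4, ht⟩ := reduce s
  obtain ⟨σ, a1, a2, a3⟩ := mv ht (t := t) (by rintro rfl; exact hU (by rwa [← bot_eq_empty, symmDiff_bot] at ht)) t4
  have b : symmDiff t (σ • t) ∈ W := by
    have := h.xor _ hs _ (h.smul σ _ hs)
    rw [smul_sd] at a1
    have e : σ • s = symmDiff (symmDiff s t) (σ • t) := by rw [← a1, symmDiff_symmDiff_cancel_right]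
    rwa [e, symmDiff_assoc, symmDiff_symmDiff_cancel_left] at this
  have c := card_symmDiff t (σ • t)
  rw [card_smul_finset] at c
  have d := card_pos.2 (nonempty_iff_ne_empty.2 a2)
  generalize symmDiff t (σ • t) = r at *
  obtain e | e | e : r.card = 2 ∨ r.card = 4 ∨ r.card = 6 := by omega
  · exact h2 r b e
  · exact h4 r b e
  · obtain ⟨y, hy, hy'⟩ := exists_subset_card_eq (s := r) (n := 4) (by omega)
    obtain ⟨a, ha, ha'⟩ := exists_mem_notMem_of_card_lt_card (s := y) (t := r) (by omega)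
    obtain ⟨q, -, hq⟩ := exists_mem_notMem_of_card_lt_card (s := r) (t := univ) (by rw [card_univ, cardP]; omega)
    obtain ⟨τ, b1, b2⟩ := fix4 hy' ha' (fun h => hq (hy h))
    have f1 := card_symmDiff r (τ • r)
    rw [card_smul_finset] at f1
    have f2 : y.card ≤ (r ∩ τ • r).card := card_le_card fun x hx =>
      mem_inter.2 ⟨hy hx, b1 x hx ▸ smul_mem_smul_finset (a := τ) (hy hx)⟩
    have f3 : 0 < (symmDiff r (τ • r)).card :=
      card_pos.2 ⟨q, mem_symmDiff.2 (Or.inr ⟨b2 ▸ smul_mem_smul_finset (a := τ) ha, hq⟩)⟩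
    have f4 := h.xor _ b _ (h.smul τ _ b)
    obtain e | e : (symmDiff r (τ • r)).card = 2 ∨ (symmDiff r (τ • r)).card = 4 := by omega
    exacts [h2 _ f4 e, h4 _ f4 e]

theorem Cl.of_sub {V : Submodule (ZMod 2) (GolayPt → ZMod 2)}
    (hV : ∀ σ ∈ M24, ∀ w ∈ V, (fun p => w (σ.symm p)) ∈ V) : Cl (supports (V : Set (GolayPt → ZMod 2))) where
  xor := fun _ hs _ ht => CfsgH1.Un.sup_xor hs ht
  smul := fun c s hs => by
    rw [mem_supports] at hs ⊢
    exact (ind_smul c.1 s).symm ▸ hV c.1 c.2 _ hs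

theorem sub_code {V : Submodule (ZMod 2) (GolayPt → ZMod 2)}
    (hV : ∀ σ ∈ M24, ∀ w ∈ V, (fun p => w (σ.symm p)) ∈ V) (hle : V ≤ golayCode) :
    V = ⊥ ∨ V = Submodule.span (ZMod 2) {fun _ => (1 : ZMod 2)} ∨ V = golayCode := by
  by_cases h : ∀ w ∈ V, w = 0 ∨ w = 1
  · by_cases h1 : (1 : GolayPt → ZMod 2) ∈ V
    · refine Or.inr (Or.inl (le_antisymm (fun w hw => ?_) ((Submodule.span_singleton_le_iff_mem _ _).2 h1)))
      rcases h w hw with rfl | rfl
      exacts [zero_mem _, Submodule.mem_span_singleton_self _]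
    · exact Or.inl (eq_bot_iff.2 fun w hw => (h w hw).resolve_right fun e => h1 (e ▸ hw))
  · push Not at h
    obtain ⟨w, hw, h0, h1⟩ := h
    refine Or.inr (Or.inr (le_antisymm hle fun x hx => supp_mem.1 ((Cl.of_sub hV).of_U (supp_mem.2 (hle hw))
      (supp_mem.2 hw) (fun e => h0 ?_) (fun e => h1 ?_) (supp_mem.2 hx))))
    · rw [← ind_supp w, e, ind_empty]
    · rw [← ind_supp w, e, ind_univ]

end CfsgH8.GolW
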