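import Cfsg.Agent.H8.Mono

/-! The hexacode, parametrised. -/

set_option autoImplicit false
set_option maxRecDepth 100000

namespace CfsgH8.Hex

open Cfsg Equiv

variable {F : Type*} [Field F] {ω : F}

theorem mem_iff (t2 : (2 : F) = 0) (hω : ω ^ 2 + ω + 1 = 0) (x : Fin 6 → F) : x ∈ hexacode F ω ↔
    x 3 = x 0 + x 1 + x 2 ∧ x 4 = ω * (ω * x 0) + ω * x 1 + x 2 ∧ x 5 = ω * x 0 + ω * (ω * x 1) + x 2 := by
  rw [hexacode, Submodule.mem_span_triple]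
  constructor
  · rintro ⟨a, b, c, rfl⟩
    simp
    grind
  · rintro ⟨h1, h2, h3⟩
    refine ⟨ω * x 0 + ω ^ 2 * x 1, ω ^ 2 * x 0 + ω ^ 2 * x 1 + x 2, x 1 + x 2, funext fun i => ?_⟩
    fin_cases i <;> simp <;> grind

def io (ω : F) (k : Fin 4) : F := ![0, 1, ω, ω ^ 2] k
def ad (a b : Fin 4) : Fin 4 := ![![0, 1, 2, 3], ![1, 0, 3, 2], ![2, 3, 0, 1], ![3, 2, 1, 0]] a b
def mw (a : Fin 4) : Fin 4 := ![0, 2, 3, 1] a

theorem io_ad (t2 : (2 : F) = 0) (hω : ω ^ 2 + ω + 1 = 0) (a b : Fin 4) : io ω (ad a b) = io ω a + io ω b := by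
  fin_cases a <;> fin_cases b <;> simp [io, ad] <;> grind

theorem io_mw (hω : ω ^ 2 + ω + 1 = 0) (a : Fin 4) : io ω (mw a) = ω * io ω a := by
  fin_cases a <;> simp [io, mw] <;> grind

theorem io_zero (hω : ω ^ 2 + ω + 1 = 0) (a : Fin 4) : io ω a = 0 ↔ a = 0 := by
  have : ω ≠ 0 := by rintro rfl; simp at hω
  fin_cases a <;> simp [io, this]

theorem io_inj (t2 : (2 : F) = 0) (hω : ω ^ 2 + ω + 1 = 0) : Function.Injective (io ω) := fun a b h => by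
  have h1 : ∀ a b, ad a b = 0 → a = b := by decide
  refine h1 a b ((io_zero hω _).1 ?_)
  rw [io_ad t2 hω, h, ← two_mul, t2, zero_mul]

abbrev V : Type := Fin 4 × Fin 4 × Fin 4

def Wk (v : V) : Fin 6 → Fin 4 := ![v.1, v.2.1, v.2.2, ad (ad v.1 v.2.1) v.2.2, ad (ad (mw (mw v.1)) (mw v.2.1)) v.2.2,
  ad (ad (mw v.1) (mw (mw v.2.1))) v.2.2]

def W (ω : F) (v : V) : Fin 6 → F := fun i => io ω (Wk v i)

theorem W_inj (t2 : (2 : F) = 0) (hω : ω ^ 2 + ω + 1 = 0) : Function.Injective (W ω) := fun _ _ h =>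
  Prod.ext (io_inj t2 hω (congrFun h 0)) (Prod.ext (io_inj t2 hω (congrFun h 1)) (io_inj t2 hω (congrFun h 2)))

theorem W_mem (t2 : (2 : F) = 0) (hω : ω ^ 2 + ω + 1 = 0) (v : V) : W ω v ∈ hexacode F ω := by
  rw [mem_iff t2 hω]
  simp [W, Wk, io_ad t2 hω, io_mw hω]

variable [Fintype F]

theorem two (hF : Fintype.card F = 4) : (2 : F) = 0 := by
  haveI : CharP F 2 := charP_of_card_eq_prime_pow (f := 2) hF
  exact CharTwo.two_eq_zero

theorem mem_W (hF : Fintype.card F = 4) (hω : ω ^ 2 + ω + 1 = 0) (x : Fin 6 → F) :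
    x ∈ hexacode F ω ↔ ∃ v, W ω v = x := by
  have t2 := two hF
  refine ⟨fun h => ?_, fun ⟨v, h⟩ => h ▸ W_mem t2 hω v⟩
  have s := ((Fintype.bijective_iff_injective_and_card _).2 ⟨io_inj t2 hω, by simp [hF]⟩).2
  obtain ⟨a, ha⟩ := s (x 0)
  obtain ⟨b, hb⟩ := s (x 1)
  obtain ⟨c, hc⟩ := s (x 2)
  obtain ⟨h1, h2, h3⟩ := (mem_iff t2 hω x).1 h
  refine ⟨(a, b, c), funext fun i => ?_⟩
  fin_cases i <;> simp [W, Wk, io_ad t2 hω, io_mw hω, ha, hb, hc, h1, h2, h3]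

omit [Fintype F] in
theorem wt_W [DecidableEq F] (hω : ω ^ 2 + ω + 1 = 0) (v : V) :
    (Finset.univ.filter fun i => W ω v i ≠ 0) = Finset.univ.filter fun i => Wk v i ≠ 0 := by
  simp [W, io_zero hω]

theorem ncard_eq [DecidableEq F] (hF : Fintype.card F = 4) (hω : ω ^ 2 + ω + 1 = 0) (k : ℕ) :
    {x | x ∈ hexacode F ω ∧ (Finset.univ.filter fun i => x i ≠ 0).card = k}.ncard =
      (Finset.univ.filter fun v => (Finset.univ.filter fun i => Wk v i ≠ 0).card = k).card := by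
  rw [← Set.ncard_coe_finset, ← Set.ncard_image_of_injective _ (W_inj (two hF) hω)]
  congr 1
  ext x
  simp only [Set.mem_ofPred_eq, mem_W hF hω, Set.mem_image, Finset.coe_filter, Finset.mem_univ, true_and, ← wt_W hω]
  exact ⟨fun ⟨⟨v, h⟩, h'⟩ => ⟨v, h ▸ h', h⟩, fun ⟨v, h, h'⟩ => ⟨⟨v, h'⟩, h' ▸ h⟩⟩

theorem wt [DecidableEq F] (hF : Fintype.card F = 4) (hω : ω ^ 2 + ω + 1 = 0) (x : Fin 6 → F) (hx : x ∈ hexacode F ω)
    (h0 : x ≠ 0) : (Finset.univ.filter fun i => x i ≠ 0).card = 4 ∨ (Finset.univ.filter fun i => x i ≠ 0).card = 6 := by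
  obtain ⟨v, rfl⟩ := (mem_W hF hω x).1 hx
  have : ∀ v : V, (∀ i, Wk v i = 0) ∨ (Finset.univ.filter fun i => Wk v i ≠ 0).card = 4 ∨
    (Finset.univ.filter fun i => Wk v i ≠ 0).card = 6 := by decide +kernel
  rw [wt_W hω]
  exact (this v).resolve_left fun h => h0 (funext fun i => (io_zero hω _).2 (h i))

end CfsgH8.Hex
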