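import Cfsg.Agent.H8.HsG
import Cfsg.Agent.S0414
import Cfsg.Agent.S0428

/-! The stabiliser of the extra vertex of the point-block graph. -/

set_option autoImplicit false
open Cfsg
open scoped Pointwise

namespace CfsgH8.HsG

variable {α : Type*} [DecidableEq α] {B : Set (Finset α)}

theorem mem_iff (σ : setSystemAut B) (b : Finset α) : b ∈ B ↔ σ.1 • b ∈ B := by
  have := Set.smul_mem_smul_set_iff (a := σ.1) (s := B) (x := b)
  rw [show σ.1 • B = B from σ.2] at this
  exact this.symm

/-- The permutation of the vertices. -/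
def upE (σ : setSystemAut B) : Equiv.Perm (Option (α ⊕ B)) :=
  Equiv.optionCongr (Equiv.sumCongr σ.1 (Equiv.subtypeEquiv (MulAction.toPerm σ.1) (mem_iff σ)))

theorem up_rel (σ : setSystemAut B) (x y : Option (α ⊕ B)) :
    pointBlockRel B (upE σ x) (upE σ y) ↔ pointBlockRel B x y := by
  rcases x with _ | a | b <;> rcases y with _ | c | d
  all_goals first
    | exact Iff.rfl
    | exact Finset.smul_mem_smul_finset_iff (a := σ.1)
    | (show Disjoint (σ.1 • b.1) (σ.1 • d.1) ↔ Disjoint b.1 d.1
       rw [← Finset.disjoint_coe, Finset.coe_smul_finset, Finset.coe_smul_finset, Set.disjoint_smul_set, Finset.disjoint_coe])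

/-- The graph automorphism. -/
def up (σ : setSystemAut B) : pointBlockGraph B ≃g pointBlockGraph B :=
  ⟨upE σ, fun {x y} => by
    simp only [pointBlockGraph, SimpleGraph.fromRel_adj, up_rel, (upE σ).injective.ne_iff]⟩

omit [DecidableEq α] in
theorem adj_none {v : Option (α ⊕ B)} : (pointBlockGraph B).Adj none v ↔ ∃ a, v = some (Sum.inl a) := by
  rcases v with _ | a | b <;> simp [pointBlockGraph, pointBlockRel]

omit [DecidableEq α] in
theorem adj_pb {a : α} {b : B} : (pointBlockGraph B).Adj (some (Sum.inl a)) (some (Sum.inr b)) ↔ a ∈ b.1 := by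
  simp [pointBlockGraph, pointBlockRel]

theorem card_stab [Finite α] : Nat.card (MulAction.stabilizer (pointBlockGraph B ≃g pointBlockGraph B)
    (none : Option (α ⊕ B))) = Nat.card (setSystemAut B) := by
  refine (Nat.card_eq_of_bijective (fun σ => ⟨up σ, rfl⟩) ⟨fun σ τ e => ?_, fun φ => ?_⟩).symm
  · refine Subtype.ext (Equiv.ext fun a => ?_)
    have := congrArg (fun φ : MulAction.stabilizer (pointBlockGraph B ≃g pointBlockGraph B)
      (none : Option (α ⊕ B)) => φ.1 (some (Sum.inl a))) e
    exact Sum.inl_injective (Option.some_injective _ this)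
  obtain ⟨φ, hφ⟩ := φ
  have h0 : φ none = none := hφ
  have h1 : ∀ v, (∃ a, φ v = some (Sum.inl a)) ↔ ∃ a, v = some (Sum.inl a) := fun v => by
    rw [← adj_none, ← adj_none, ← φ.map_adj_iff (v := none) (w := v), h0]
  choose f hf using fun a => (h1 _).2 ⟨a, rfl⟩
  have hi : Function.Injective f := fun a b e => Sum.inl_injective (Option.some_injective _
    (φ.injective (by rw [hf, hf, e])))
  let σ : Equiv.Perm α := Equiv.ofBijective f hi.bijective_of_finite
  have h2 : ∀ b : B, ∃ c : B, φ (some (Sum.inr b)) = some (Sum.inr c) ∧ c.1 = σ • b.1 := fun b => by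
    rcases e : φ (some (Sum.inr b)) with _ | a | c
    · exact absurd (φ.injective (e.trans h0.symm)) (by simp)
    · exact absurd ((h1 _).1 ⟨a, e⟩) (by simp)
    · refine ⟨c, rfl, ?_⟩
      ext x
      obtain ⟨a, rfl⟩ := σ.surjective x
      rw [show σ a = σ • a from rfl, Finset.smul_mem_smul_finset_iff, ← adj_pb, ← adj_pb, ← φ.map_adj_iff (v := some (Sum.inl a)),
        hf, e]
      rfl
  have h3 : σ • B = B := by
    refine Set.eq_of_subset_of_ncard_le ?_ (Set.ncard_smul_set _ _).ge
    rintro _ ⟨b, hb, rfl⟩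
    obtain ⟨c, -, e⟩ := h2 ⟨b, hb⟩
    show σ • b ∈ B
    rw [show σ • b = c.1 from e.symm]
    exact c.2
  refine ⟨⟨σ, h3⟩, Subtype.ext (RelIso.ext ?_)⟩
  rintro (_ | a | b)
  · exact h0.symm
  · exact (hf a).symm
  · obtain ⟨c, e1, e⟩ := h2 b
    rw [e1]
    exact congrArg (fun t => some (Sum.inr t)) (Subtype.ext e.symm)

theorem card_aut [Fintype α] (hα : Fintype.card α = 22) (hB : IsSteinerSystem 3 6 B)
    (hc : Nat.card (Option (α ⊕ B)) = 100)
    (ht : ∀ x y, ∃ φ : pointBlockGraph B ≃g pointBlockGraph B, φ x = y) :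
    Nat.card (pointBlockGraph B ≃g pointBlockGraph B) = 88704000 := by
  haveI : MulAction.IsPretransitive (pointBlockGraph B ≃g pointBlockGraph B) (Option (α ⊕ B)) := ⟨ht⟩
  rw [← (MulAction.stabilizer (pointBlockGraph B ≃g pointBlockGraph B) (none : Option (α ⊕ B))).card_mul_index,
    MulAction.index_stabilizer_of_transitive, card_stab, hc, (Cfsg.Agent.S0414.result hα hB).1]

end CfsgH8.HsG
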