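import Mathlib

/-! Triangle-free rank three graphs on 100 vertices of valency 22. -/

set_option autoImplicit false

namespace CfsgH8.HsG

theorem cn {V : Type*} [Fintype V] {G : SimpleGraph V} [DecidableRel G.Adj] (φ : G ≃g G) (v w : V) :
    Fintype.card (G.commonNeighbors (φ v) (φ w)) = Fintype.card (G.commonNeighbors v w) :=
  (Fintype.card_congr (Equiv.subtypeEquiv φ.toEquiv fun x => by
    simp only [SimpleGraph.mem_commonNeighbors]
    exact and_congr φ.map_adj_iff.symm φ.map_adj_iff.symm)).symm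

theorem srg {V : Type*} [Fintype V] {G : SimpleGraph V} [DecidableRel G.Adj] (hV : Fintype.card V = 100) (x : V)
    (ht : ∀ y, ∃ φ : G ≃g G, φ x = y) (hd : {y | G.Adj x y}.ncard = 22)
    (h3 : ∀ y z, y ≠ x → z ≠ x → ¬ G.Adj x y → ¬ G.Adj x z → ∃ φ : G ≃g G, φ x = x ∧ φ y = z)
    (h0 : ∀ u v w, G.Adj u v → G.Adj u w → ¬ G.Adj v w) : G.IsSRGWith 100 22 0 6 := by
  classical
  have hx : G.degree x = 22 := by
    rw [← hd, ← SimpleGraph.card_neighborSet_eq_degree, ← Nat.card_eq_fintype_card]; rfl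
  obtain ⟨y, y1, y2⟩ : ∃ y, y ≠ x ∧ ¬ G.Adj x y := by
    by_contra hc
    push Not at hc
    have := Finset.card_le_card (show Finset.univ.erase x ⊆ G.neighborFinset x from fun y hy =>
      (G.mem_neighborFinset x y).2 (hc y (Finset.ne_of_mem_erase hy)))
    rw [Finset.card_erase_of_mem (Finset.mem_univ _), Finset.card_univ, hV, SimpleGraph.card_neighborFinset_eq_degree, hx] at this
    omega
  have h : G.IsSRGWith 100 22 0 (Fintype.card (G.commonNeighbors x y)) := by
    refine ⟨hV, fun v => ?_, fun v w e => Fintype.card_eq_zero_iff.2 ⟨fun u => h0 v w u e u.2.1 u.2.2⟩, fun v w vw e => ?_⟩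
    · obtain ⟨φ, rfl⟩ := ht v
      rw [φ.degree_eq, hx]
    · obtain ⟨φ, rfl⟩ := ht v
      obtain ⟨w, rfl⟩ := φ.surjective w
      obtain ⟨ψ, e1, rfl⟩ := h3 y w y1 (fun e => vw (congrArg φ e.symm)) y2 fun e' => e (φ.map_adj_iff.2 e')
      rw [cn]
      conv_lhs => rw [← e1]
      exact cn ψ x y
  have := h.param_eq G (by norm_num)
  rwa [show Fintype.card (G.commonNeighbors x y) = 6 by omega] at h

/-- Transport of graph automorphisms along an isomorphism. -/
def tr {V W : Type*} {G : SimpleGraph V} {H : SimpleGraph W} (e : G ≃g H) : (G ≃g G) →* (H ≃g H) where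
  toFun σ := (e.symm.trans σ).trans e
  map_one' := RelIso.ext fun x => by simp
  map_mul' σ τ := RelIso.ext fun x => by simp

theorem tr_inj {V W : Type*} {G : SimpleGraph V} {H : SimpleGraph W} (e : G ≃g H) : Function.Injective (tr e) :=
  fun σ τ h => RelIso.ext fun x => by simpa [tr] using congrArg (fun φ : H ≃g H => φ (e x)) h

end CfsgH8.HsG
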