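import Cfsg.Agent.H8.HsA
import Cfsg.Agent.H7.Lee.Cfg
import Cfsg.Agent.S0428
import Cfsg.Agent.S0430

/-! The graph on a hundred minimal vectors of the lattice. -/

set_option autoImplicit false
open Cfsg CfsgH7 CfsgH7.Lee

namespace CfsgH8.HsG

/-- The graph on the hundred vectors. -/
def gr : SimpleGraph HS.T where
  Adj x y := dotInt ((x : Λ) : V) ((y : Λ) : V) = 8
  symm := ⟨fun x y h => (dot_comm _ _).trans h⟩
  loopless := ⟨fun x h => by
    have e : sqNorm ((x : Λ) : V) = 32 := x.2.1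
    rw [sq_eq, h] at e
    exact absurd e (by decide)⟩

/-- The action on the graph. -/
noncomputable def act : KH →* (gr ≃g gr) where
  toFun k := ⟨⟨fun x => ⟨(k : Co0) • x.1, HS.inv k.2 _ x.2⟩, fun x => ⟨(k : Co0)⁻¹ • x.1, HS.inv (KH.inv_mem k.2) _ x.2⟩,
    fun x => Subtype.ext (inv_smul_smul _ _), fun x => Subtype.ext (smul_inv_smul _ _)⟩,
    fun {x y} => by
      show dotInt (((k : Co0) • x.1 : Λ) : V) (((k : Co0) • y.1 : Λ) : V) = 8 ↔ _
      rw [g_dot]; rfl⟩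
  map_one' := RelIso.ext fun x => Subtype.ext (one_smul _ _)
  map_mul' a b := RelIso.ext fun x => Subtype.ext (mul_smul _ _ _)

theorem act_inj : Function.Injective act := by
  haveI := simH
  rcases (inferInstance : act.ker.Normal).eq_bot_or_eq_top with e | e
  · exact (MonoidHom.ker_eq_bot_iff _).1 e
  · obtain ⟨k, hk, -, h⟩ := fpf
    have : act ⟨k, hk⟩ = 1 := (show ⟨k, hk⟩ ∈ act.ker from e ▸ Subgroup.mem_top _)
    exact absurd (congrArg (fun φ : gr ≃g gr => (φ ⟨xH, mH⟩).1) this) (h xH mH)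

theorem gr_srg [Fintype HS.T] [DecidableRel gr.Adj] : gr.IsSRGWith 100 22 0 6 := by
  refine srg (by rw [← Nat.card_eq_fintype_card]; exact HS.cT) ⟨xH, mH⟩ (fun y => ?_) ?_
    (fun y z y1 z1 y2 z2 => ?_) fun u v w h1 h2 h3 => ?_
  · obtain ⟨k, hk, e⟩ := trH xH mH y y.2
    exact ⟨act ⟨k, hk⟩, Subtype.ext e⟩
  · rw [← cH1, ← Set.ncard_image_of_injective _ Subtype.val_injective]
    congr 1
    ext y
    exact ⟨by rintro ⟨z, hz, rfl⟩; exact ⟨z.2, hz⟩, fun h => ⟨⟨y, h.1⟩, h.2, rfl⟩⟩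
  · obtain ⟨k, hk, e⟩ := tH y y.2 z z.2 (fun e => y1 (Subtype.ext e)) (fun e => z1 (Subtype.ext e)) (iff_of_false y2 z2)
    exact ⟨act ⟨k, hk.1⟩, Subtype.ext hk.2, Subtype.ext e⟩
  · have a1 : dotInt ((u : Λ) : V) ((v : Λ) : V) = 8 := h1
    have a2 : dotInt ((u : Λ) : V) ((w : Λ) : V) = 8 := h2
    have a3 : dotInt ((v : Λ) : V) ((w : Λ) : V) = 8 := h3
    have b1 : sqNorm ((u : Λ) : V) = 32 := u.2.1
    have b2 : sqNorm ((v : Λ) : V) = 32 := v.2.1
    have b3 : sqNorm ((w : Λ) : V) = 32 := w.2.1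
    have c1 : sqNorm ((uV : V) + (uV : V) + (uW : V)) = 160 := by decide +kernel
    have e : sqNorm ((uV : V) + (uV : V) + (uW : V) - (((u : Λ) : V) + ((v : Λ) : V) + ((w : Λ) : V))) = 16 := by
      rw [sq_sub, c1]
      simp only [sq_add, add_dot, dot_add, a1, a2, a3, b1, b2, b3, u.2.2.1, u.2.2.2, v.2.2.1, v.2.2.2, w.2.2.1, w.2.2.2]
      norm_num
    have := min32 (x := (uV : V) + (uV : V) + (uW : V) - (((u : Λ) : V) + ((v : Λ) : V) + ((w : Λ) : V)))
      (uV + uV + uW - ((u : Λ) + (v : Λ) + (w : Λ)) : Λ).2 fun e' => by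
        rw [e'] at e
        simp [sqNorm] at e
    omega

theorem gr_tr (x y : HS.T) : ∃ φ : gr ≃g gr, φ x = y := by
  obtain ⟨k, hk, e⟩ := trH x x.2 y y.2
  exact ⟨act ⟨k, hk⟩, Subtype.ext e⟩

theorem iso_gr {W : Type*} [Fintype W] {H : SimpleGraph W} [DecidableRel H.Adj] (h : H.IsSRGWith 100 22 0 6) :
    Nonempty (gr ≃g H) := by
  classical
  haveI : Fintype HS.T := (Set.finite_of_ncard_ne_zero (by rw [HS.cT]; norm_num)).fintype
  exact Cfsg.Agent.S0430.result gr_srg h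

theorem tr_card {V W : Type*} {G : SimpleGraph V} {H : SimpleGraph W} (e : G ≃g H) :
    Nat.card (G ≃g G) = Nat.card (H ≃g H) :=
  Nat.card_eq_of_bijective (tr e) ⟨tr_inj e, fun σ => ⟨tr e.symm σ, RelIso.ext fun x => by simp [tr]⟩⟩

theorem card_pb {α : Type*} [Fintype α] [DecidableEq α] (hα : Fintype.card α = 22) {B : Set (Finset α)}
    (hB : IsSteinerSystem 3 6 B) : Nat.card (pointBlockGraph B ≃g pointBlockGraph B) = 88704000 := by
  classical
  haveI : Fintype B := Fintype.ofFinite B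
  have h := Cfsg.Agent.S0428.result hα hB
  obtain ⟨e⟩ := iso_gr h
  refine card_aut hα hB (Nat.card_eq_fintype_card.trans h.card) fun x y => ?_
  obtain ⟨φ, hφ⟩ := gr_tr (e.symm x) (e.symm y)
  exact ⟨tr e φ, by simp [tr, hφ]⟩

end CfsgH8.HsG
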