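import Cfsg.Agent.H8.HsG

/-! Rank three graphs on 100 vertices of valency 22. -/

set_option autoImplicit false

namespace CfsgH8.HsG

variable {V : Type*} [Fintype V] {G : SimpleGraph V} [DecidableRel G.Adj]

theorem no74 (h : G.IsSRGWith 100 22 7 4) : False := by
  classical
  let J : Matrix V V (ZMod 3) := Matrix.of fun _ _ => 1
  have hA : G.adjMatrix (ZMod 3) * G.adjMatrix (ZMod 3) = J := by
    rw [← sq, h.matrix_eq]
    ext i j
    simp only [Matrix.add_apply, Matrix.smul_apply, Matrix.one_apply, SimpleGraph.adjMatrix_apply, SimpleGraph.compl_adj, J,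
      Matrix.of_apply]
    by_cases e : i = j
    · subst e; simp; decide
    · by_cases e' : G.Adj i j <;> simp [e, e'] <;> decide
  have hAJ : G.adjMatrix (ZMod 3) * J = J := by
    ext i j
    simp [J, h.regular.degree_eq]; decide
  have hJA : J * G.adjMatrix (ZMod 3) = J := by
    ext i j
    simp [J, h.regular.degree_eq]; decide
  have hJJ : J * J = J := by
    ext i j
    simp [J, Matrix.mul_apply, h.card]; decide
  have := (Matrix.isNilpotent_trace_of_isNilpotent (M := G.adjMatrix (ZMod 3) - J)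
    ⟨2, by simp [sq, sub_mul, mul_sub, hA, hAJ, hJA, hJJ]⟩).eq_zero
  rw [Matrix.trace_sub, SimpleGraph.trace_adjMatrix] at this
  simp [J, Matrix.trace, h.card] at this
  exact absurd this (by decide)

instance fact23 : Fact (Nat.Prime 23) := ⟨by norm_num⟩

theorem no210 (h : G.IsSRGWith 100 22 21 0) : False := by
  classical
  have hA : (G.adjMatrix (ZMod 23) + 1) ^ 2 = 0 := by
    rw [sq, add_mul, mul_add, mul_add, ← sq, h.matrix_eq]
    ext i j
    simp only [Matrix.mul_one, Matrix.one_mul, Matrix.add_apply, Matrix.smul_apply, Matrix.one_apply,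
      SimpleGraph.adjMatrix_apply, SimpleGraph.compl_adj, Matrix.zero_apply]
    by_cases e : i = j
    · subst e; simp; decide
    · by_cases e' : G.Adj i j <;> simp [e, e']
      decide
  have := (Matrix.isNilpotent_trace_of_isNilpotent ⟨2, hA⟩).eq_zero
  rw [Matrix.trace_add, SimpleGraph.trace_adjMatrix, Matrix.trace_one, h.card] at this
  exact absurd (show (0 : ZMod 23) + ((100 : ℕ) : ZMod 23) = 0 from this) (by decide)

theorem no142 (h : G.IsSRGWith 100 22 14 2) : False := by
  classical
  obtain ⟨x⟩ : Nonempty V := Fintype.card_pos_iff.1 (by rw [h.card]; norm_num)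
  have hd : ∀ v, (G.neighborFinset v).card = 22 := fun v => h.regular.degree_eq v
  have hc : ∀ v w, (G.neighborFinset v ∩ G.neighborFinset w).card = Fintype.card (G.commonNeighbors v w) := fun v w => by
    rw [← Set.toFinset_card]
    congr 1
    ext u
    simp [SimpleGraph.mem_commonNeighbors]
  obtain ⟨u, hu⟩ := Finset.card_pos.1 (by rw [hd x]; norm_num : 0 < (G.neighborFinset x).card)
  have h1 := (hc x u).trans (h.of_adj _ _ ((G.mem_neighborFinset _ _).1 hu))
  obtain ⟨v, hv, hv'⟩ := Finset.exists_mem_notMem_of_card_lt_card (s := insert u (G.neighborFinset x ∩ G.neighborFinset u))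
    (t := G.neighborFinset x) ((Finset.card_insert_le _ _).trans_lt (by rw [h1, hd]; norm_num))
  simp only [Finset.mem_insert, Finset.mem_inter, hv, true_and, not_or, SimpleGraph.mem_neighborFinset] at hv'
  have h2 := (hc x v).trans (h.of_adj _ _ ((G.mem_neighborFinset _ _).1 hv))
  have h3 := (hc u v).trans (h.of_not_adj (Ne.symm hv'.1) fun e => hv'.2 (by simpa using e))
  have h4 := Finset.card_union_add_card_inter (G.neighborFinset x ∩ G.neighborFinset u) (G.neighborFinset x ∩ G.neighborFinset v)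
  have h5 := Finset.card_le_card (show G.neighborFinset x ∩ G.neighborFinset u ∪ G.neighborFinset x ∩ G.neighborFinset v ⊆
    G.neighborFinset x from Finset.union_subset Finset.inter_subset_left Finset.inter_subset_left)
  have h6 := Finset.card_le_card (show G.neighborFinset x ∩ G.neighborFinset u ∩ (G.neighborFinset x ∩ G.neighborFinset v) ⊆
    G.neighborFinset u ∩ G.neighborFinset v from Finset.inter_subset_inter Finset.inter_subset_right Finset.inter_subset_right)
  rw [hd] at h5
  omega

theorem srg3 (hV : Fintype.card V = 100) (x : V)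
    (ht : ∀ y, ∃ φ : G ≃g G, φ x = y) (hd : {y | G.Adj x y}.ncard = 22)
    (h3 : ∀ y z, y ≠ x → z ≠ x → (G.Adj x y ↔ G.Adj x z) → ∃ φ : G ≃g G, φ x = x ∧ φ y = z) : G.IsSRGWith 100 22 0 6 := by
  classical
  have hx : G.degree x = 22 := by
    rw [← hd, ← SimpleGraph.card_neighborSet_eq_degree, ← Nat.card_eq_fintype_card]; rfl
  obtain ⟨y, y1, y2⟩ : ∃ y, y ≠ x ∧ ¬ G.Adj x y := by
    by_contra hc
    push Not at hc
    have := Finset.card_le_card (show Finset.univ.erase x ⊆ G.neighborFinset x from fun y hy =>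
      (G.mem_neighborFinset x y).2 (hc y (Finset.ne_of_mem_erase hy)))
    rw [Finset.card_erase_of_mem (Finset.mem_univ _), Finset.card_univ, hV, SimpleGraph.card_neighborFinset_eq_degree, hx] at this
    omega
  obtain ⟨z, hz⟩ := (G.degree_pos_iff_exists_adj x).1 (by omega)
  have key : ∀ u v w, u ≠ x → v ≠ w → (G.Adj x u ↔ G.Adj v w) →
      Fintype.card (G.commonNeighbors v w) = Fintype.card (G.commonNeighbors x u) := fun u v w h1 vw e => by
    obtain ⟨φ, rfl⟩ := ht v
    obtain ⟨w, rfl⟩ := φ.surjective w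
    obtain ⟨ψ, e1, rfl⟩ := h3 u w h1 (fun e => vw (congrArg φ e.symm)) (e.trans φ.map_adj_iff)
    rw [cn]
    conv_lhs => rw [← e1]
    exact cn ψ x u
  have h : G.IsSRGWith 100 22 (Fintype.card (G.commonNeighbors x z)) (Fintype.card (G.commonNeighbors x y)) := by
    refine ⟨hV, fun v => ?_, fun v w e => key z v w hz.ne' e.ne (iff_of_true hz e),
      fun v w vw e => key y v w y1 vw (iff_of_false y2 e)⟩
    obtain ⟨φ, rfl⟩ := ht v
    rw [φ.degree_eq, hx]
  have h1 := h.param_eq G (by norm_num)
  have h2 := hz.card_commonNeighbors_lt_degree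
  rw [hx] at h2
  generalize Fintype.card (G.commonNeighbors x z) = l at h h1 h2
  generalize Fintype.card (G.commonNeighbors x y) = m at h h1
  obtain ⟨rfl, rfl⟩ | ⟨rfl, rfl⟩ | ⟨rfl, rfl⟩ | ⟨rfl, rfl⟩ :
    l = 0 ∧ m = 6 ∨ l = 7 ∧ m = 4 ∨ l = 14 ∧ m = 2 ∨ l = 21 ∧ m = 0 := by omega
  exacts [h, (no74 h).elim, (no142 h).elim, (no210 h).elim]

end CfsgH8.HsG
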