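import Cfsg.Agent.H8.Hup2
import Cfsg.Agent.H9.Cp6
import Cfsg.Agent.H1.HH

/-! Huppert's theorem on solvable linear groups transitive on the non-zero vectors. -/

set_option autoImplicit false
open Subgroup Cfsg CfsgH2 CfsgH1 CfsgH3 CfsgH4 Function Module MulAction
open scoped commutatorElement

namespace CfsgH8.Hu
open FC

theorem key_amb {X : Type*} [Group X] [Finite X] {V U T E : Subgroup X} {q u r : ℕ} [hq : Fact q.Prime]
    [hu : Fact u.Prime] [hr : Fact r.Prime] (hV : IsElementaryAbelian q V) [V.Normal] (v0 : V ≠ ⊥) (uq : q ≠ u)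
    (rq : q ≠ r) (ru : u ≠ r) (hU : Cyc[U]) (pU : IsPGroup u U) (l : T ≤ U) (o : o[T] = u) (pE : IsPGroup r E)
    (n : U ≤ N[E]) (f : E ⊓ C[V] = ⊥) (f0 : V ⊓ C[T] = ⊥) (fr : ∀ x ∈ E ⊓ C[T], x ≠ 1 → V ⊓ C1[x] = ⊥)
    (nc : ¬ T ≤ C[E]) : r = 2 ∧ o[U] = u ∧ ∃ m D, u = 2 ^ m + 1 ∧ o[V] = q ^ D ∧ 2 ^ m ∣ D := by
  have nV : ∀ H : Subgroup X, H ≤ N[V] := fun H => le_normalizer_of_normal
  obtain ⟨P, l1, ⟨n1, n2⟩, mn⟩ := exists_minimal_le (fun P => U ≤ N[P] ∧ ¬ T ≤ C[P]) (H := E) ⟨n, nc⟩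
  have pP := pE.to_le l1
  have ur : ¬ r ∣ u := fun e => ru ((Nat.prime_dvd_prime_iff_eq hr.out hu.out).1 e).symm
  obtain ⟨-, h2, h3, h4, -⟩ := hh_reduction pP n1 l (le_normalizer.trans (norm_le_norm_of_cyclic hU l))
    (o ▸ ur) n2 fun W a b => by_contra fun e => a.ne (mn W ⟨b, e⟩ a.le)
  have p0 : P ≠ ⊥ := fun e => n2 (by rw [e, cent_bot]; exact le_top)
  have fP : P ⊓ C[V] = ⊥ := le_bot_iff.1 ((inf_le_inf_right _ l1).trans f.le)
  have na : ¬ (P ⊓ C[T] = ⊥) := fun e => by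
    refine p0 (le_bot_iff.1 (fP ▸ le_inf le_rfl (bg33 (frob_of_prime (o ▸ hu.out) (l.trans n1) p0 e) (nV _)
      (isSolvable_of_pgroup (elem_pgroup hV)) (coprime_of_not_dvd (fun d => ?_) (elem_pgroup hV)) f0)))
    rcases hq.out.dvd_mul.1 (d.trans (CfsgH2.card_sup_dvd (.inr (l.trans n1)))) with d | d
    · obtain ⟨k, hk⟩ := exists_card_eq_pow pP
      exact rq ((Nat.prime_dvd_prime_iff_eq hq.out hr.out).1 (hq.out.dvd_of_dvd_pow (hk ▸ d)))
    · exact uq ((Nat.prime_dvd_prime_iff_eq hq.out hu.out).1 (o ▸ d))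
  obtain ⟨z1, z2⟩ := h4.resolve_left fun e => na (h2.trans (phi_eq_bot e))
  rw [z1] at h2
  have z0 := center_ne_bot pP p0
  have frz : ∀ x ∈ Z[P], x ≠ 1 → V ⊓ C1[x] = ⊥ := fun x hx => fr x (inf_le_inf_right _ l1 (h2.ge hx))
  have cz : Cyc[Z[P]] := (fc_of_frob (k := ℂ) ⟨nV _, rfl, v0, z0, frz⟩).cyc (isMulComm_cent_inf P).1.1
  have ez : IsElementaryAbelian r Z[P] := ⟨isMulComm_cent_inf P, z2 ▸ exp_commutator_self
    (z2.le.trans inf_le_right) fun a ha => h3 (pow_mem_phi pP ha)⟩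
  have w : Wx r P := ⟨pP, ((Nat.dvd_prime hr.out).1 (card_dvd_of_elem_cyclic ez cz)).resolve_left
    fun e => z0 (card_eq_one.1 e), z2.le⟩
  obtain ⟨rfl, m, e1, e2⟩ := CfsgCP.wx_fpf w (fun e => z0 (z2 ▸ comm_self_eq_bot_iff.2 e)) o ru (l.trans n1) h2 hV
    (nV _) rq uq fP f0
  obtain ⟨x, x1, x2⟩ := exists_ne_one z0
  obtain ⟨D, d1, d2⟩ := CfsgCP.wx_dim w e2 hV (nV _) rq
    (le_bot_iff.1 ((inf_le_inf_left _ (cent_le_cent1 x1)).trans (frz x x1 x2).le))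
  refine ⟨rfl, ?_, m, D, e1, d1, d2⟩
  obtain ⟨k, hk⟩ := exists_card_eq_pow pU
  have := CfsgCP.semi_dvd w e2 hU (hk ▸ ((Nat.coprime_primes hu.out hr.out).2 ru).pow_left k) n1 fun y y1 y2 => by
    refine le_antisymm ((inf_le_inf_left _ ?_).trans h2.le) (le_inf inf_le_left (le_cent1_iff.2 ?_))
    · rw [← cent_zpowers]
      exact CfsgH2.cent_anti (le_of_card_dvd_of_cyclic hU l (zpowers_le.2 y1) (o ▸ dvd_card_of_pgroup
        (pU.to_le (zpowers_le.2 y1)) (by simpa using y2)))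
    · obtain ⟨s, hs⟩ := (Nat.card_eq_two_iff' (1 : Z[P])).1 w.cardZ
      refine mem_cent_iff.2 fun z hz => (mul_inv_eq_iff_eq_mul.1 ?_).symm
      by_cases z1 : z = 1
      · simp [z1]
      · exact congrArg Subtype.val ((hs.2 ⟨_, conj_mem_of_norm (norm_le_norm_center (n1 y1)) hz⟩
          (by simpa using z1)).trans (hs.2 ⟨z, hz⟩ (by simpa using z1)).symm)
  have d : u ∣ o[U] := o ▸ card_dvd_of_le l
  rcases this with h | h
  · exact Nat.dvd_antisymm (e1 ▸ h) d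
  · have h1 := Nat.one_le_two_pow (n := m)
    rcases (by omega : 2 ^ m - 1 = 0 ∨ 0 < 2 ^ m - 1) with z | z
    · exact absurd (by omega : u = 2) ru
    · have := Nat.le_of_dvd z (d.trans h); omega

theorem good {q n : ℕ} (hq : q.Prime) (q2 : q ≠ 2) (n3 : 3 ≤ n) (h : ¬ (q = 3 ∧ n = 4)) : ∃ u : ℕ, u.Prime ∧
    orderOf (q : ZMod u) = n ∧ ((∃ m, u = 2 ^ m + 1 ∧ 2 ^ m ∣ n) → u ^ 2 ∣ q ^ n - 1) := by
  by_contra! H
  have D : ∀ u : ℕ, u.Prime → orderOf (q : ZMod u) = n → (∃ m, n = 2 ^ m) ∧ u = n + 1 ∧ ¬ u ^ 2 ∣ q ^ n - 1 :=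
    fun u hu o => by
      obtain ⟨⟨m, e, d⟩, k⟩ := H u hu o
      have := ord_dvd_sub hu (a := q) (by omega)
      rw [o, e, Nat.add_sub_cancel] at this
      have := Nat.dvd_antisymm this d
      exact ⟨⟨m, this⟩, by omega, k⟩
  obtain ⟨u, hu, o⟩ := zsig hq.one_lt (by omega : 1 < n) (fun e => q2 e.1) (fun e => by omega)
  obtain ⟨⟨m, rfl⟩, e, -⟩ := D u hu o
  obtain ⟨m, rfl⟩ : ∃ l, m = l + 2 := ⟨m - 2, by
    have : ¬ m ≤ 1 := fun l => by have := Nat.pow_le_pow_right two_pos l; omega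
    omega⟩
  obtain ⟨t, ht, t2⟩ : ∃ t, q ^ 2 ^ (m + 1) + 1 = 2 * t ∧ ¬ 2 ∣ t := by
    obtain ⟨s, hs⟩ := (hq.odd_of_ne_two q2).pow (n := 2 ^ m)
    exact ⟨2 * s * s + 2 * s + 1, by rw [pow_succ 2 m, pow_mul, hs]; ring,
      by rw [mul_assoc]; omega⟩
  have dt : t ∣ q ^ 2 ^ (m + 2) - 1 := (Dvd.intro_left 2 ht.symm).trans
    ⟨_, by rw [pow_succ 2 (m + 1), pow_mul, ← Nat.sq_sub_sq, one_pow]⟩
  have k : ∀ s : ℕ, s.Prime → s ∣ t → s = u ∧ ¬ s ^ 2 ∣ t := fun s hs d => by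
    haveI := Fact.mk hs
    have e1 : (q : ZMod s) ^ 2 ^ (m + 1) = -1 := eq_neg_of_add_eq_zero_left (by
      exact_mod_cast (ZMod.natCast_eq_zero_iff _ s).2 (ht ▸ d.mul_left 2))
    haveI : Fact (2 < s) := ⟨lt_of_le_of_ne hs.two_le fun e => t2 (e ▸ d)⟩
    obtain ⟨-, e2, e3⟩ := D s hs (orderOf_eq_prime_pow (by rw [e1]; exact ZMod.neg_one_ne_one)
      (by rw [pow_succ 2 (m + 1), pow_mul, e1, neg_one_sq]))
    exact ⟨e2.trans e.symm, fun d => e3 (d.trans dt)⟩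
  obtain ⟨j, hj⟩ : ∃ j, t = u ^ j := ⟨_, Nat.eq_prime_pow_of_unique_prime_dvd (by omega) fun {s} hs d => (k s hs d).1⟩
  have l : t ≤ u := by
    rcases Nat.lt_or_ge j 2 with l | l
    · exact hj ▸ (Nat.pow_le_pow_right hu.pos (by omega : j ≤ 1)).trans_eq (pow_one u)
    · exact absurd (hj ▸ pow_dvd_pow u l) (k u hu (hj ▸ dvd_pow_self u (by omega))).2
  rw [pow_succ 2 (m + 1)] at e h
  have k2 : 2 ≤ 2 ^ (m + 1) := Nat.le_self_pow (by omega) 2
  generalize 2 ^ (m + 1) = k at *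
  have g : ∀ a i, 3 ≤ a → 2 ≤ i → 4 * i + 1 ≤ a ^ i := fun a i h1 h2 => by
    refine le_trans ?_ (Nat.pow_le_pow_left h1 i)
    induction i, h2 using Nat.le_induction with
    | base => norm_num
    | succ i _ ih => rw [pow_succ]; omega
  have q3 := hq.two_le
  rcases (by omega : k = 2 ∨ 3 ≤ k) with rfl | k3
  · have : 4 ≤ q := by omega
    nlinarith
  · obtain ⟨k, rfl⟩ : ∃ l, k = l + 1 := ⟨k - 1, by omega⟩
    have := g q k (by omega) (by omega)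
    rw [pow_succ] at ht
    nlinarith

variable {G : Type*} [Group G] [Finite G] {q : ℕ} {V : Type*} [AddCommGroup V] [DistribMulAction G V] [Finite V]

theorem TR.hup (h : TR q G V) [Group.IsSolvable G] :
    SL1 G V ∨ Nat.card V ∈ ({9, 25, 49, 121, 529, 81} : Set ℕ) := by
  haveI := h.nt
  haveI := Fact.mk h.hq
  obtain ⟨n, n0, e⟩ := h.card
  by_cases n1 : n = 1
  · exact .inl (dim1 (by rw [e, n1, pow_one]; exact h.hq))
  by_cases q2 : q = 2
  · subst q2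
    by_cases n6 : n = 6
    · exact .inl (h.d64 (n6 ▸ e))
    obtain ⟨u, hu, o⟩ := zsig one_lt_two (by omega : 1 < n) (fun e => n6 e.2) fun ⟨_, m, e⟩ => by
      have : (2 + 1) % 2 = 2 ^ m % 2 := by rw [e]
      rcases m with _ | m
      · omega
      · rw [pow_succ] at this; omega
    exact .inl (h.ppd e (by omega) hu o fun _ _ _ _ _ _ _ e => absurd rfl e)
  by_cases n2 : n = 2
  · subst n2
    refine (h.dim2 e).imp_right fun d => ?_
    have := Nat.le_of_dvd (by norm_num) d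
    have l : q < 24 := by omega
    have := h.hq.two_le
    rw [e]
    interval_cases q <;> simp at d q2 ⊢
  by_cases n4 : q = 3 ∧ n = 4
  · exact .inr (by rw [e, n4.1, n4.2]; simp)
  obtain ⟨u, hu, o, g⟩ := good h.hq q2 (by omega) n4
  haveI := Fact.mk hu
  refine .inl (h.ppd e (by omega) hu o fun U T hU cU l oT f _ => by_contra fun nc => ?_)
  have d : u ∣ Nat.card V - 1 := e ▸ (dvd_iff_ord h.hq.pos).2 o.dvd
  obtain ⟨X, _, _, M, _, j, hj, eM, oM, c, k⟩ := amb (G := G) h.ex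
  have fr : ∀ g ∈ C[T], g ≠ 1 → M ⊓ C1[j g] = ⊥ := fun g h1 h2 => by
    rw [← cent_zpowers, ← MonoidHom.map_zpowers]
    exact k _ (eq_bot_iff.2 fun v hv => (f g h1 v (hv g (Subgroup.mem_zpowers g))).resolve_left h2)
  obtain ⟨t, t1, t2⟩ := exists_ne_one (ne_bot_of_card_prime (oT ▸ hu))
  obtain ⟨-, oU, m, D, e1, e2, e3⟩ := key_amb (U := map j U) (T := map j T) (E := map j O[{2}, ⊤]) (u := u) (r := 2) eM
    (fun z => (Finite.one_lt_card (α := V)).ne' (by rw [← oM, z, card_bot])) (h.ne d) q2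
    (by
      rintro rfl
      have := Nat.le_of_dvd (by omega) (ord_dvd_sub hu (a := q) (by omega)); omega)
    ((inj_isCyclic hj).2 cU) (hU.pg.map j) (map_mono l) ((card_map_of_injective hj).trans oT) (isPGroup_piCoreOf.map j)
    (map_le_norm_map j le_normalizer_of_normal) (eq_bot_iff.2 (by
      rintro _ ⟨⟨g, -, rfl⟩, e⟩
      rw [h.fa g (c g e), map_one]; exact one_mem _))
    (le_bot_iff.1 ((inf_le_inf_left _ (cent_le_cent1 (mem_map_of_mem j t1))).trans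
      (fr t (le_cent_self (isMulComm_of_le (IsCyclic.isMulCommutative (α := U)) l) t1) t2).le))
    (by
      rintro _ ⟨⟨g, -, rfl⟩, e⟩ g1
      exact fr g ((inj_mem_cent hj).1 e) fun e => g1 (by rw [e, map_one]))
    (mt (inj_le_cent hj).1 nc)
  rw [oM, e] at e2
  obtain rfl := Nat.pow_right_injective h.hq.two_le e2
  have := hU.pow_dvd (card_top (G := G) ▸ (e ▸ g ⟨m, e1, e3⟩).trans h.card_dvd)
  rw [← card_map_of_injective hj, oU] at this
  have := Nat.le_of_dvd hu.pos this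
  nlinarith [hu.two_le]

end CfsgH8.Hu
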