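import Mathlib
import Cfsg.Prelude.Def_SporadicCombinatorics

/-! Monomial automorphisms of codes, and sifting through a base. -/

set_option autoImplicit false

namespace CfsgH8.Mono

open Cfsg Equiv

section gen
variable {α F : Type*} [Field F] (C : Submodule F (α → F))

def Pres (σ : Perm α) (c : α → Fˣ) : Prop := ∀ x ∈ C, monomialMap σ c x ∈ C

variable {C}

theorem mm_mul (σ τ : Perm α) (c d : α → Fˣ) (x : α → F) :
    monomialMap σ c (monomialMap τ d x) = monomialMap (σ * τ) (fun i => c i * d (σ.symm i)) x := by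
  funext i
  simp [monomialMap, mul_assoc, Perm.mul_def]

theorem mm_inj (σ : Perm α) (c : α → Fˣ) : Function.Injective (monomialMap σ c : (α → F) → _) := by
  intro x y h
  funext i
  simpa [monomialMap] using congrFun h (σ i)

theorem Pres.surj [Finite α] [Finite F] {σ : Perm α} {c : α → Fˣ} (h : Pres C σ c) (x : α → F) (hx : x ∈ C) :
    ∃ z ∈ C, monomialMap σ c z = x := by
  obtain ⟨z, hz⟩ := Finite.injective_iff_surjective.1
    (show Function.Injective (fun z : C => (⟨_, h z.1 z.2⟩ : C)) from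
      fun a b e => Subtype.ext (mm_inj σ c (congrArg Subtype.val e))) ⟨x, hx⟩
  exact ⟨z.1, z.2, congrArg Subtype.val hz⟩

theorem Pres.div [Finite α] [Finite F] {σ : Perm α} {c d : α → Fˣ} (h : Pres C σ c) (h' : Pres C σ d) :
    Pres C 1 (c / d) := by
  intro x hx
  obtain ⟨z, hz, rfl⟩ := h'.surj x hx
  convert h z hz using 1
  funext i
  simp [monomialMap, Perm.one_def, ← mul_assoc]

theorem Pres.mul {σ τ : Perm α} {c d : α → Fˣ} (h : Pres C σ c) (h' : Pres C τ d) :
    Pres C (σ * τ) (fun i => c i * d (σ.symm i)) := fun x hx => mm_mul σ τ c d x ▸ h _ (h' x hx)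

variable (C)

def PP [Finite α] [Finite F] : Subgroup (Perm α) where
  carrier := {σ | ∃ c, Pres C σ c}
  mul_mem' := fun ⟨_, h⟩ ⟨_, h'⟩ => ⟨_, h.mul h'⟩
  one_mem' := ⟨1, fun x hx => by
    convert hx
    funext i
    simp [monomialMap, Perm.one_def]⟩
  inv_mem' := fun {σ} ⟨c, h⟩ => ⟨fun i => (c (σ i))⁻¹, fun x hx => by
    obtain ⟨z, hz, rfl⟩ := h.surj x hx
    convert hz
    funext i
    simp [monomialMap, Perm.inv_def]⟩

theorem card_M [Finite α] [Finite F] :
    Nat.card {f : Perm α × (α → Fˣ) // ∀ x ∈ C, monomialMap f.1 f.2 x ∈ C} =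
      Nat.card (PP C) * Nat.card {c : α → Fˣ // Pres C 1 c} := by
  have : ∀ σ : PP C, ∃ c, Pres C σ c := fun σ => σ.2
  choose s hs using this
  rw [← Nat.card_prod]
  refine Nat.card_congr
    { toFun := fun f => (⟨f.1.1, f.1.2, f.2⟩, ⟨f.1.2 / s ⟨f.1.1, f.1.2, f.2⟩, Pres.div f.2 (hs ⟨f.1.1, f.1.2, f.2⟩)⟩)
      invFun := fun g => ⟨(g.1, g.2.1 * s g.1), by have := g.2.2.mul (hs g.1); rw [one_mul] at this; exact this⟩
      left_inv := fun f => Subtype.ext (Prod.ext rfl (div_mul_cancel _ _))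
      right_inv := fun g => Prod.ext rfl (Subtype.ext (mul_div_cancel_right _ _)) }

variable {C}

theorem diag [Fintype α] [DecidableEq F] {d : ℕ}
    (hmin : ∀ x ∈ C, x ≠ 0 → d ≤ (Finset.univ.filter fun i => x i ≠ 0).card) {c : α → Fˣ} (h : Pres C 1 c)
    {x : α → F} (hx : x ∈ C) (hd : (Finset.univ.filter fun i => x i ≠ 0).card = d) {p q : α} (hp : x p ≠ 0)
    (hq : x q ≠ 0) : c p = c q := by
  have h1 : monomialMap 1 c x - (c p : F) • x = 0 := by
    by_contra h0
    refine (hmin _ (C.sub_mem (h x hx) (C.smul_mem _ hx)) h0).not_gt (hd ▸ Finset.card_lt_card ⟨fun i => ?_, fun h => ?_⟩)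
    · simp only [Finset.mem_filter, Finset.mem_univ, true_and]
      exact fun h1 h2 => h1 (by simp [monomialMap, Perm.one_def, h2])
    · exact (Finset.mem_filter.1 (h (Finset.mem_filter.2 ⟨Finset.mem_univ p, hp⟩))).2 (by simp [monomialMap, Perm.one_def])
  have h2 := congrFun h1 q
  simp only [monomialMap, Perm.one_def, Equiv.refl_symm, Equiv.refl_apply, Pi.sub_apply, Pi.smul_apply, smul_eq_mul,
    Pi.zero_apply, sub_eq_zero] at h2
  exact (Units.ext (mul_right_cancel₀ hq h2)).symm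

theorem card_diag [Nonempty α] (h : ∀ c : α → Fˣ, Pres C 1 c → ∀ i j, c i = c j) :
    Nat.card {c : α → Fˣ // Pres C 1 c} = Nat.card Fˣ := by
  obtain ⟨a⟩ := ‹Nonempty α›
  exact Nat.card_congr
    { toFun := fun c => c.1 a
      invFun := fun u => ⟨fun _ => u, fun x hx => C.smul_mem (u : F) hx⟩
      left_inv := fun c => Subtype.ext (funext fun i => h _ c.2 _ _)
      right_inv := fun _ => rfl }

end gen

section sift
variable {α : Type*}

def ev (gs : List (Perm α)) (w : List ℕ) : Perm α := (w.map fun i => gs.getD i 1).prod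

theorem ev_mem {P : Subgroup (Perm α)} {gs : List (Perm α)} (h : ∀ g ∈ gs, g ∈ P) (w : List ℕ) : ev gs w ∈ P := by
  refine P.list_prod_mem fun x hx => ?_
  obtain ⟨i, -, rfl⟩ := List.mem_map.1 hx
  rw [List.getD_eq_getElem?_getD]
  cases e : gs[i]? with
  | none => exact P.one_mem
  | some g => exact h g (List.mem_of_getElem? e)

theorem sift {A P : Subgroup (Perm α)} (hPA : P ≤ A) {gs : List (Perm α)} (h : ∀ g ∈ gs, g ∈ P) (l : List α) (b : α)
    (W : List (List ℕ)) (hb : b ∉ l)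
    (h2 : ∀ y, y ∈ l ∨ ∃ w ∈ W, (∀ x ∈ l, ev gs w x = x) ∧ ev gs w b = y)
    (h1 : ∀ σ ∈ A, (∀ x ∈ b :: l, σ x = x) → σ ∈ P) : ∀ σ ∈ A, (∀ x ∈ l, σ x = x) → σ ∈ P := by
  intro σ hσ hl
  rcases h2 (σ b) with h3 | ⟨w, -, h3, h4⟩
  · exact absurd (σ.injective (hl _ h3) ▸ h3) hb
  · have h5 := ev_mem h w
    have := P.mul_mem h5 (h1 ((ev gs w)⁻¹ * σ) (A.mul_mem (A.inv_mem (hPA h5)) hσ) fun x hx => ?_)
    · simpa using this
    · rw [Perm.mul_apply, Perm.inv_eq_iff_eq]
      rcases List.mem_cons.1 hx with rfl | hx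
      · exact h4.symm
      · rw [hl x hx, h3 x hx]

end sift

end CfsgH8.Mono
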