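import Mathlib
import Cfsg.Agent.H8.PrimeDegree2

set_option autoImplicit false

namespace CfsgH8

open MulAction

section
variable {G α : Type*} [Group G] [MulAction G α] {p : ℕ} [Fact p.Prime]

theorem coord_zpow (e : α ≃ ZMod p) {σ : G} (hσ : ∀ x, e (σ • x) = e x + 1) (k : ℤ) (x : α) :
    e (σ ^ k • x) = e x + k := by
  induction k using Int.induction_on generalizing x with
  | zero => simp
  | succ k ih => rw [zpow_add_one, mul_smul, ih, hσ]; push_cast; ring
  | pred k ih =>
    rw [zpow_sub_one, mul_smul, ih]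
    have := hσ (σ⁻¹ • x)
    rw [smul_inv_smul] at this
    rw [this]; push_cast; ring

/-- An element normalising the translation group acts as an affine map. -/
theorem affine_of_normalizes (e : α ≃ ZMod p) {σ : G} (hσ : ∀ x, e (σ • x) = e x + 1) {t : G}
    {i : ℤ} (ht : t * σ * t⁻¹ = σ ^ i) (x : α) :
    e (t • x) = i * e x + e (t • e.symm 0) := by
  have h1 : ∀ (k : ℤ) x, e (t • σ ^ k • x) = e (t • x) + i * k := by
    intro k x
    have : t * σ ^ k = σ ^ (i * k) * t := by
      rw [zpow_mul, ← ht, conj_zpow]; group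
    rw [← mul_smul, this, mul_smul, coord_zpow e hσ]; push_cast; ring
  have h2 : x = σ ^ ((e x).val : ℤ) • e.symm 0 := by
    apply e.injective
    rw [coord_zpow e hσ]; simp
  conv_lhs => rw [h2, h1]
  simp [add_comm]

theorem sylow_eq_zpowers_of_prime_degree [Fintype α] [Finite G] [FaithfulSMul G α]
    [IsPretransitive G α] (hα : Fintype.card α = p) (P : Sylow p G) :
    ∃ σ : G, orderOf σ = p ∧ (P : Subgroup G) = Subgroup.zpowers σ := by
  classical
  have hp : p.Prime := Fact.out
  have hdvd : Nat.card G ∣ p.factorial := by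
    have := Subgroup.card_dvd_of_injective (toPermHom G α) toPerm_injective
    rwa [Nat.card_perm, Nat.card_eq_fintype_card (α := α), hα] at this
  obtain ⟨σ, hσ⟩ := exists_orderOf_eq_of_prime_degree (G := G) hα
  have hfac : (Nat.card G).factorization p = 1 := by
    apply le_antisymm
    · have h1 : (p.factorial).factorization p = 1 := by
        obtain ⟨k, rfl⟩ := Nat.exists_eq_add_of_le' hp.one_le
        rw [Nat.factorial_succ, Nat.factorization_mul (by omega) (Nat.factorial_ne_zero _),
          Finsupp.add_apply, hp.factorization_self, Nat.factorization_eq_zero_of_not_dvd]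
        rw [hp.dvd_factorial]; omega
      rw [← h1]
      exact (Nat.factorization_le_iff_dvd Nat.card_pos.ne' (Nat.factorial_ne_zero _)).mpr hdvd p
    · exact (hp.dvd_iff_one_le_factorization Nat.card_pos.ne').mp (hσ ▸ orderOf_dvd_natCard σ)
  have hc : Nat.card (P : Subgroup G) = p := by rw [P.card_eq_multiplicity, hfac, pow_one]
  obtain ⟨x, hx⟩ := exists_prime_orderOf_dvd_card' (G := (P : Subgroup G)) p hc.symm.dvd
  refine ⟨x, by rw [Subgroup.orderOf_coe, hx], ?_⟩
  symm
  apply Subgroup.eq_of_le_of_card_ge (by simp)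
  rw [Nat.card_zpowers, Subgroup.orderOf_coe, hx, hc]

/-- coordinates in which the Sylow `p`-subgroup acts by translations and an involution of its
normaliser acts as `x ↦ b - x`. -/
theorem exists_coord_involution [Fintype α] [Finite G] [FaithfulSMul G α]
    [IsPretransitive G α] (hα : Fintype.card α = p) (hp2 : p ≠ 2) (P : Sylow p G)
    (heven : Even (Nat.card (Subgroup.normalizer ((P : Subgroup G) : Set G)))) :
    ∃ (e : α ≃ ZMod p) (σ t : G) (b : ZMod p), orderOf σ = p ∧ orderOf t = 2 ∧
      (∀ x, e (σ • x) = e x + 1) ∧ ∀ x, e (t • x) = b - e x := by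
  have hp : p.Prime := Fact.out
  obtain ⟨σ, hσ, hP⟩ := sylow_eq_zpowers_of_prime_degree hα P
  obtain ⟨e, he⟩ := exists_coord_of_prime_degree hα hσ
  have := Fact.mk Nat.prime_two
  obtain ⟨t, ht⟩ := exists_prime_orderOf_dvd_card' 2 heven.two_dvd
  have ht' : orderOf (t : G) = 2 := by rw [Subgroup.orderOf_coe, ht]
  have h1 : (t : G) * σ * (t : G)⁻¹ ∈ (P : Subgroup G) :=
    (Subgroup.mem_normalizer_iff.mp t.2 σ).mp (hP ▸ Subgroup.mem_zpowers σ)
  obtain ⟨i, hi⟩ := hP.le h1
  have h2 := affine_of_normalizes e he hi.symm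
  set b := e ((t : G) • e.symm 0)
  have htt : ∀ x : α, (t : G) • (t : G) • x = x := fun x => by
    rw [← mul_smul, ← pow_two, ← ht', pow_orderOf_eq_one, one_smul]
  have h3 : ∀ j : ZMod p, j = i * (i * j + b) + b := fun j => by
    have := h2 ((t : G) • e.symm j)
    rw [htt, h2] at this
    simpa using this
  have h4 := h3 0
  have h5 := h3 1
  have h6 : ((i : ZMod p) - 1) * (i + 1) = 0 := by linear_combination h4 - h5
  refine ⟨e, σ, t, b, hσ, ht', he, fun x => ?_⟩
  rcases mul_eq_zero.mp h6 with h | h
  · exfalso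
    have hi1 : (i : ZMod p) = 1 := sub_eq_zero.mp h
    have h2' : (2 : ZMod p) ≠ 0 := by
      intro h
      exact hp2 ((Nat.prime_dvd_prime_iff_eq hp Nat.prime_two).mp
        ((ZMod.natCast_eq_zero_iff 2 p).mp (by exact_mod_cast h)))
    have hb : b = 0 := by
      rw [hi1] at h4
      exact (mul_eq_zero.mp (show 2 * b = 0 by linear_combination -h4)).resolve_left h2'
    have : (t : G) = 1 := eq_of_smul_eq_smul (α := α) fun x => e.injective (by
      rw [h2, hi1, hb]; simp)
    rw [this] at ht'
    simp at ht'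
  · rw [h2, eq_neg_of_add_eq_zero_left h]; ring

end

end CfsgH8
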