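import Mathlib
import Cfsg.Agent.H1.Misc1
import Cfsg.Agent.H1.Prod
import Cfsg.Agent.H4.PPart

/-! Class sizes of p-singular elements. -/

set_option autoImplicit false

namespace CfsgH8.Psg
open Subgroup

variable {G : Type*} [Group G] [Finite G]

local notation "C[" a "]" => Subgroup.centralizer ({a} : Set G)

omit [Finite G] in
theorem mc {a g : G} : g ∈ C[a] ↔ Commute g a := mem_centralizer_singleton_iff

theorem cover (H K : Subgroup G) (h : ∀ g ∈ H, ∃ x ∈ H, x⁻¹ * g * x ∈ K) : H ≤ K := by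
  rw [← subgroupOf_eq_top]
  by_contra hne
  have : Nontrivial (H ⧸ K.subgroupOf H) := Finite.one_lt_card_iff_nontrivial.1 (one_lt_index_of_ne_top hne)
  obtain ⟨g, hg⟩ := CfsgH1.exists_derangement H (H ⧸ K.subgroupOf H)
  obtain ⟨x, hx, hx'⟩ := h g g.2
  exact hg ((⟨x, hx⟩ : H) : H ⧸ K.subgroupOf H) (by
    rw [MulAction.Quotient.smul_coe, smul_eq_mul, eq_comm, QuotientGroup.eq, ← mul_assoc]; exact hx')

omit [Finite G] in
theorem ncard_cl (a : G) : {y | IsConj a y}.ncard = C[a].index := by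
  have h := MulAction.index_stabilizer (ConjAct G) a
  have e : MulAction.stabilizer (ConjAct G) a = (show Subgroup (ConjAct G) from C[a]) := by
    ext g
    rw [MulAction.mem_stabilizer_iff, ConjAct.smul_def, mul_inv_eq_iff_eq_mul]
    exact mem_centralizer_singleton_iff.symm
  rw [e] at h
  refine Eq.trans ?_ h.symm
  congr 1
  ext y
  rw [ConjAct.mem_orbit_conjAct]; exact isConj_comm

theorem fac {A B : Subgroup G} (h : A.index.Coprime B.index) (g : G) : ∃ a ∈ A, ∃ b ∈ B, g = a * b :=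
  CfsgH1.fac_top_iff.mp (CfsgH1.fac_top_of_coprime_index h) g

theorem bhm {u v : G} (hc : C[u].index.Coprime C[v].index) (hd : C[v * u].index.Coprime C[v].index) :
    ∃ N : Subgroup G, Nat.card N ∣ C[u].index ∧ (∀ g, (g * v * g⁻¹)⁻¹ * v ∈ N) ∧
      (∀ n ∈ N, IsConj u (n * u)) ∧ ∀ n ∈ N, Commute n v := by
  have d1 : C[v * u].index ∣ C[u].index := by
    refine hd.dvd_of_dvd_mul_right ?_
    rw [← CfsgH1.index_inf_of_coprime hc]
    exact index_dvd_of_le fun g hg => mc.2 ((mc.1 hg.2).mul_right (mc.1 hg.1))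
  have key : ∀ h y, IsConj u y ↔ IsConj (v * u) (h * v * h⁻¹ * y) := by
    intro h
    have sub : (fun y => h * v * h⁻¹ * y) '' {y | IsConj u y} ⊆ {y | IsConj (v * u) y} := by
      rintro _ ⟨y, hy, rfl⟩
      obtain ⟨g, rfl⟩ := isConj_iff.1 hy
      obtain ⟨c, hc, d, hd, e⟩ := fac hc (g⁻¹ * h)
      have e' : h = g * c * d := by rw [mul_assoc, ← e]; group
      refine isConj_iff.2 ⟨g * c, ?_⟩
      have h1 : c * u * c⁻¹ = u := by rw [(mc.1 hc).eq]; group
      have h2 : d * v * d⁻¹ = v := by rw [(mc.1 hd).eq]; group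
      calc g * c * (v * u) * (g * c)⁻¹ = g * c * v * c⁻¹ * (c * u * c⁻¹) * g⁻¹ := by group
        _ = g * c * (d * v * d⁻¹) * c⁻¹ * u * g⁻¹ := by rw [h1, h2]
        _ = _ := by rw [e']; group
    have eq := Set.eq_of_subset_of_ncard_le sub (by
      rw [Set.ncard_image_of_injective _ (mul_right_injective _), ncard_cl, ncard_cl]
      exact Nat.le_of_dvd (Nat.pos_of_ne_zero index_ne_zero_of_finite) d1)
    intro y
    refine ⟨fun hy => sub ⟨y, hy, rfl⟩, fun hy => ?_⟩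
    have : h * v * h⁻¹ * y ∈ (fun y => h * v * h⁻¹ * y) '' {y | IsConj u y} := by rw [eq]; exact hy
    obtain ⟨y', hy', e⟩ := this
    rwa [← mul_left_cancel e]
  have inv : ∀ g y, IsConj u (g * y * g⁻¹) ↔ IsConj u y := fun g y =>
    ⟨fun h => h.trans (isConj_iff.2 ⟨g, rfl⟩).symm, fun h => h.trans (isConj_iff.2 ⟨g, rfl⟩)⟩
  let N : Subgroup G :=
    { carrier := {n | ∀ y, IsConj u y ↔ IsConj u (n * y)}
      one_mem' := fun y => by rw [one_mul]
      mul_mem' := fun {a b} ha hb y => by rw [mul_assoc, ← ha, ← hb]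
      inv_mem' := fun {a} ha y => by rw [ha (a⁻¹ * y), mul_inv_cancel_left] }
  haveI hN : N.Normal := ⟨fun n hn g y => by
    rw [← inv g⁻¹ y, hn, ← inv g]
    congr! 1
    group⟩
  have hcard : Nat.card N ∣ C[u].index := by
    let S : SubMulAction N G := ⟨{y | IsConj u y}, fun n y hy => (n.2 y).1 hy⟩
    have e := MulAction.selfEquivOrbitsQuotientProd (fun b : S => (by
      rw [eq_bot_iff]
      intro n hn
      have : (n : G) * b = b := congrArg Subtype.val (MulAction.mem_stabilizer_iff.1 hn)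
      exact Subtype.ext (mul_eq_right.1 this) : MulAction.stabilizer N b = ⊥))
    have h := Nat.card_congr e
    rw [Nat.card_prod] at h
    rw [← ncard_cl, ← Nat.card_coe_set_eq]
    exact Dvd.intro_left _ h.symm
  refine ⟨N, hcard, fun g y => ?_, fun n hn => (hn u).1 (IsConj.refl u), fun n hn => mc.1 ?_⟩
  · rw [key 1 y, key g ((g * v * g⁻¹)⁻¹ * v * y)]
    congr! 1
    group
  · refine (relIndex_eq_one.1 (Nat.eq_one_of_dvd_coprimes hc ((relIndex_dvd_card _ _).trans hcard) ?_)) hn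
    have h1 := relIndex_mul_index (inf_le_left : C[v] ⊓ N ≤ C[v])
    have h2 := relIndex_mul_index (inf_le_right : C[v] ⊓ N ≤ N)
    have h3 := relIndex_mul_index (le_sup_right : N ≤ C[v] ⊔ N)
    rw [inf_relIndex_left] at h1
    rw [inf_relIndex_right] at h2
    rw [relIndex_sup_right] at h3
    have h0 : N.relIndex C[v] ≠ 0 := index_ne_zero_of_finite
    refine ⟨(C[v] ⊔ N).index, Nat.eq_of_mul_eq_mul_left (Nat.pos_of_ne_zero h0) ?_⟩
    rw [h1, ← h2, ← h3]; ring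

theorem syl {p : ℕ} [hp : Fact p.Prime] {K A : Subgroup G} (hK : ¬ p ∣ K.index) (hA : A ≤ K) (h : IsPGroup p A) :
    ∃ P : Sylow p G, A ≤ P ∧ (P : Subgroup G) ≤ K := by
  obtain ⟨Q, hQ⟩ := (h.comap_subtype (K := K)).exists_le_sylow
  refine ⟨(Q.isPGroup'.map K.subtype).toSylow ?_, ?_, map_subtype_le _⟩
  · rw [index_map_subtype]
    exact fun h => (hp.out.dvd_mul.1 h).elim Q.not_dvd_index hK
  · exact fun a ha => ⟨⟨a, hA ha⟩, hQ ha, rfl⟩

theorem sylc {p : ℕ} [Fact p.Prime] {K : Subgroup G} {P P' : Sylow p G} (h : (P : Subgroup G) ≤ K)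
    (h' : (P' : Subgroup G) ≤ K) : ∃ x ∈ K, ∀ z, z ∈ (P' : Subgroup G) ↔ x⁻¹ * z * x ∈ (P : Subgroup G) := by
  obtain ⟨x, hx⟩ := MulAction.exists_smul_eq K (P.subtype h) (P'.subtype h')
  rw [Sylow.smul_subtype] at hx
  have e : (x : G) • P = P' := Sylow.subtype_injective hx
  refine ⟨x, x.2, fun z => ?_⟩
  rw [← e, Sylow.coe_subgroup_smul, mem_pointwise_smul_iff_inv_smul_mem]
  simp

omit [Finite G] in
theorem npow {p : ℕ} {g v : G} (hv : v ^ p = 1) (h : Commute ((g * v * g⁻¹)⁻¹ * v) v) :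
    ((g * v * g⁻¹)⁻¹ * v) ^ p = 1 := by
  have h2 : Commute (g * v * g⁻¹)⁻¹ v := by
    have := h.mul_left (Commute.refl v).inv_left
    rwa [mul_inv_cancel_right] at this
  rw [h2.mul_pow, hv, inv_pow, conj_pow, hv]; simp

omit [Finite G] in
theorem ix1 {a : G} (h : ∀ g : G, (g * a * g⁻¹)⁻¹ * a = 1) : C[a].index = 1 := by
  rw [index_eq_one, eq_top_iff]
  intro g _
  have := inv_mul_eq_one.1 (h g)
  exact mem_centralizer_singleton_iff.2 (mul_inv_eq_iff_eq_mul.1 this)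

/-- elements acting on `P` like an element of `P` with a given property -/
def lk (P R : Subgroup G) (hR : R ≤ P) : Subgroup G where
  carrier := {h | ∃ u ∈ R, ∀ z ∈ P, h * z * h⁻¹ = u * z * u⁻¹}
  one_mem' := ⟨1, R.one_mem, fun _ _ => rfl⟩
  mul_mem' := by
    rintro a b ⟨u, hu, ha⟩ ⟨v, hv, hb⟩
    refine ⟨u * v, R.mul_mem hu hv, fun z hz => ?_⟩
    have := ha _ (P.mul_mem (P.mul_mem (hR hv) hz) (P.inv_mem (hR hv)))
    calc a * b * z * (a * b)⁻¹ = a * (b * z * b⁻¹) * a⁻¹ := by group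
      _ = _ := by rw [hb z hz, this]; group
  inv_mem' := by
    rintro a ⟨u, hu, ha⟩
    refine ⟨u⁻¹, R.inv_mem hu, fun z hz => ?_⟩
    have := ha _ (P.mul_mem (P.mul_mem (P.inv_mem (hR hu)) hz) (hR hu))
    calc a⁻¹ * z * a⁻¹⁻¹ = a⁻¹ * (u * (u⁻¹ * z * u) * u⁻¹) * a := by group
      _ = _ := by rw [← this]; group

theorem main' {p : ℕ} [hp : Fact p.Prime] {a b : G} (ha : orderOf a = p) (hb : orderOf b = p)
    (ha1 : C[a].index ≠ 1) (hb1 : C[b].index ≠ 1) (hc : C[a].index.Coprime C[b].index) (hpb : ¬ p ∣ C[b].index)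
    (H : ∀ z : G, p ∣ orderOf z → C[z].index.Coprime C[a].index ∨ C[z].index.Coprime C[b].index)
    (P : Sylow p G) (hP : (P : Subgroup G) ≤ C[b]) (haP : a ∈ (P : Subgroup G)) : False := by
  have ap : a ^ p = 1 := ha ▸ pow_orderOf_eq_one a
  have bp : b ^ p = 1 := hb ▸ pow_orderOf_eq_one b
  have hab : Commute a b := mc.1 (hP haP)
  have ab1 : a * b ≠ 1 := fun e => ha1 (Nat.eq_one_of_dvd_coprimes hc dvd_rfl (index_dvd_of_le fun g hg =>
    mc.2 (by rw [eq_inv_of_mul_eq_one_left e]; exact (mc.1 hg).inv_right)))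
  have oab : orderOf (a * b) = p := orderOf_eq_prime (by rw [hab.mul_pow, ap, bp, one_mul]) ab1
  rcases H (a * b) (by rw [oab]) with h | h
  · obtain ⟨N, h1, h2, -, h4⟩ := bhm hc.symm h
    refine ha1 (ix1 fun g => ?_)
    by_contra hn
    exact hpb (((orderOf_eq_prime (npow ap (h4 _ (h2 g))) hn) ▸ N.orderOf_dvd_natCard (h2 g)).trans h1)
  rw [hab.eq] at h
  obtain ⟨N, h1, h2, h3, h4⟩ := bhm hc h
  have pa : p ∣ C[a].index := by
    by_contra hpa
    refine hb1 (ix1 fun g => ?_)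
    by_contra hn
    exact hpa (((orderOf_eq_prime (npow bp (h4 _ (h2 g))) hn) ▸ N.orderOf_dvd_natCard (h2 g)).trans h1)
  have hB : ∀ z : G, p ∣ orderOf z → ¬ p ∣ C[z].index ∨ C[z].index.Coprime C[b].index := fun z hz =>
    (H z hz).imp_left fun h h' => hp.out.ne_one (Nat.eq_one_of_dvd_coprimes h h' pa)
  have zp : ∀ w : G, (∃ k, orderOf w = p ^ k) → IsPGroup p (zpowers w) := fun w ⟨k, hk⟩ =>
    IsPGroup.of_card (n := k) (by rw [Nat.card_zpowers, hk])
  have hD : C[b] ≤ lk P P le_rfl := by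
    refine cover _ _ fun g hg => ?_
    have cb : Commute b (CfsgH4.rpart p g) := CfsgH4.commute_rpart p (mc.1 hg).symm
    have e : CfsgH4.ppart p (b * CfsgH4.rpart p g) = b :=
      CfsgH4.ppart_mul cb ⟨1, by rw [hb, pow_one]⟩ (CfsgH4.reg_rpart p g)
    have le : C[b * CfsgH4.rpart p g] ≤ C[b] := fun w hw => mc.2 (e ▸ CfsgH4.commute_ppart p (mc.1 hw))
    have pz : p ∣ orderOf (b * CfsgH4.rpart p g) := by
      by_contra hh
      rw [CfsgH4.ppart_of_reg hh] at e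
      rw [← e, orderOf_one] at hb
      exact hp.out.ne_one hb.symm
    have np := (hB _ pz).resolve_right fun h => hb1 (Nat.eq_one_of_dvd_coprimes h (index_dvd_of_le le) dvd_rfl)
    obtain ⟨P', h5, h6⟩ := syl np (A := zpowers (CfsgH4.ppart p g)) (zpowers_le.2 (mc.2
      ((CfsgH4.commute_ppart p (mc.1 hg).symm).symm.mul_right (CfsgH4.commute_ppart_rpart p g))))
      (zp _ (CfsgH4.pelt_ppart p g))
    obtain ⟨x, hx, hx'⟩ := sylc hP (h6.trans le)
    refine ⟨x, hx, x⁻¹ * CfsgH4.ppart p g * x, (hx' _).1 (h5 (mem_zpowers _)), fun z hz => ?_⟩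
    have m : x * z * x⁻¹ ∈ (P' : Subgroup G) := (hx' _).2 (by simpa [mul_assoc] using hz)
    have c1 : Commute (x * z * x⁻¹) (CfsgH4.rpart p g) := by
      have := (mc.1 (le (h6 m))).inv_right.mul_right (mc.1 (h6 m))
      rwa [inv_mul_cancel_left] at this
    have c2 : CfsgH4.rpart p g * (x * z * x⁻¹) * (CfsgH4.rpart p g)⁻¹ = x * z * x⁻¹ := by
      rw [← c1.eq, mul_inv_cancel_right]
    have e2 := CfsgH4.ppart_mul_rpart p g
    generalize CfsgH4.ppart p g = s at *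
    generalize CfsgH4.rpart p g = t at *
    calc x⁻¹ * g * x * z * (x⁻¹ * g * x)⁻¹ = x⁻¹ * s * (t * (x * z * x⁻¹) * t⁻¹) * s⁻¹ * x := by rw [← e2]; group
      _ = _ := by rw [c2]; group
  have uniq : ∀ w ∈ C[b], (∃ k, orderOf w = p ^ k) → w ∈ (P : Subgroup G) := fun w hw hk => by
    obtain ⟨P', h5, h6⟩ := syl hpb (zpowers_le.2 hw) (zp w hk)
    obtain ⟨x, hx, hx'⟩ := sylc hP h6
    obtain ⟨u, hu, hu'⟩ := hD hx
    have m := (hx' _).1 (h5 (mem_zpowers _))
    have := hu' _ m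
    rw [show x * (x⁻¹ * w * x) * x⁻¹ = w by group] at this
    rw [this]
    exact mul_mem (mul_mem hu m) (inv_mem hu)
  have oc : ∀ g w : G, orderOf (g * w * g⁻¹) = orderOf w := fun g w => (MulAut.conj g).orderOf_eq w
  have bgP : ∀ g, g * b * g⁻¹ ∈ (P : Subgroup G) := fun g => by
    refine uniq _ (mc.2 ?_) ⟨1, by rw [oc, hb, pow_one]⟩
    have := ((h4 _ (h2 g)).mul_left (Commute.refl b).inv_left).inv_left
    rwa [mul_inv_cancel_right, inv_inv] at this
  have po : ∀ z ∈ (P : Subgroup G), ∃ k, orderOf z = p ^ k := fun z hz => by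
    obtain ⟨k, hk⟩ := IsPGroup.iff_orderOf.1 P.isPGroup' ⟨z, hz⟩
    exact ⟨k, by rw [← hk, orderOf_mk]⟩
  have hB' : ∀ z ∈ (P : Subgroup G), ¬ p ∣ C[z].index ∨ C[z].index.Coprime C[b].index := fun z hz => by
    obtain ⟨k, hk⟩ := po z hz
    cases k with
    | zero =>
      rw [pow_zero, orderOf_eq_one_iff] at hk
      right
      rw [ix1 (a := z) (fun g => by simp [hk])]; simp
    | succ k => exact hB z (hk ▸ dvd_pow_self p k.succ_ne_zero)
  have Pc : ∀ z ∈ (P : Subgroup G), ∀ g, Commute z (g * b * g⁻¹) := fun z hz g => by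
    rcases hB' z hz with h | h
    · obtain ⟨P', -, h6⟩ := syl h bot_le IsPGroup.of_bot
      obtain ⟨x, -, hx'⟩ := sylc (K := ⊤) (P := P) (P' := P') le_top le_top
      refine (mc.1 (h6 ((hx' _).2 ?_))).symm
      have := bgP (x⁻¹ * g)
      rwa [show x⁻¹ * g * b * (x⁻¹ * g)⁻¹ = x⁻¹ * (g * b * g⁻¹) * x by group] at this
    · obtain ⟨c, hc, d, hd, rfl⟩ := fac h g
      rw [show c * d * b * (c * d)⁻¹ = c * (d * b) * d⁻¹ * c⁻¹ by group, (mc.1 hd).eq,
        show c * (b * d) * d⁻¹ * c⁻¹ = c * b * c⁻¹ by group]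
      exact ((mc.1 hc).symm.mul_right (mc.1 (hP hz))).mul_right (mc.1 hc).symm.inv_right
  have Pn : ∀ z ∈ (P : Subgroup G), ∀ g, g⁻¹ * z * g ∈ (P : Subgroup G) := fun z hz g => by
    refine uniq _ (mc.2 ?_) (by have := oc g⁻¹ z; rw [inv_inv] at this; rw [this]; exact po z hz)
    have := (Pc z hz g).conj g⁻¹
    rwa [inv_inv, show g⁻¹ * (g * b * g⁻¹) * g = b by group] at this
  obtain ⟨q, hq, hqb⟩ := Nat.exists_prime_and_dvd hb1
  haveI := Fact.mk hq
  obtain ⟨Q⟩ : Nonempty (Sylow q G) := inferInstance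
  have hE : (P : Subgroup G) ≤ lk P (P ⊓ centralizer (Q : Set G)) inf_le_left := by
    refine cover _ _ fun z hz => ?_
    rcases hB' z hz with h | h
    · obtain ⟨P', -, h6⟩ := syl h bot_le IsPGroup.of_bot
      obtain ⟨x, -, hx'⟩ := sylc (K := ⊤) (P := P) (P' := P') le_top le_top
      refine ⟨1, one_mem _, 1, one_mem _, fun w hw => ?_⟩
      have := (mc.1 (h6 ((hx' w).2 (Pn w hw x)))).eq
      simp [← this]
    · obtain ⟨Q', -, h6⟩ := syl (p := q) (K := C[z]) (fun h' => hq.ne_one (Nat.eq_one_of_dvd_coprimes h h' hqb))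
        bot_le IsPGroup.of_bot
      obtain ⟨x, -, hx'⟩ := sylc (K := ⊤) (P := Q) (P' := Q') le_top le_top
      obtain ⟨c, hc, d, hd, rfl⟩ := fac h x
      obtain ⟨u, hu, hu'⟩ := hD (inv_mem hd)
      have m0 : u⁻¹⁻¹ * z * u⁻¹ ∈ (P : Subgroup G) := mul_mem (mul_mem (inv_mem (inv_mem hu)) hz) (inv_mem hu)
      refine ⟨u⁻¹, inv_mem hu, _, ⟨m0, fun e he => ?_⟩, fun _ _ => rfl⟩
      rw [inv_inv, ← hu' z hz]
      have m : c * d * e * (c * d)⁻¹ ∈ (Q' : Subgroup G) := (hx' _).2 (by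
        rw [show (c * d)⁻¹ * (c * d * e * (c * d)⁻¹) * (c * d) = e by group]; exact he)
      have := ((mc.1 (h6 m)).conj (c * d)⁻¹).eq
      have hz' : c⁻¹ * z * c = z := by rw [mul_assoc, ← (mc.1 hc).eq]; group
      rwa [show (c * d)⁻¹ * (c * d * e * (c * d)⁻¹) * (c * d)⁻¹⁻¹ = e by group,
        show (c * d)⁻¹ * z * (c * d)⁻¹⁻¹ = d⁻¹ * (c⁻¹ * z * c) * d⁻¹⁻¹ by group, hz'] at this
  refine Q.not_dvd_index (hqb.trans (index_dvd_of_le fun e he => ?_))
  obtain ⟨g, hg⟩ := isConj_iff.1 (h3 _ (h2 e))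
  obtain ⟨d, hd, c, hc', rfl⟩ := fac hc.symm g
  obtain ⟨u, hu, hu'⟩ := hD hd
  obtain ⟨u1, hu1, e1⟩ := hE hu
  obtain ⟨a1, ha1', e2⟩ := hE haP
  obtain ⟨n, hn⟩ : ∃ n, n = (e * b * e⁻¹)⁻¹ * b := ⟨_, rfl⟩
  have np := npow bp (h4 _ (h2 e))
  rw [← hn] at hg np
  have en : n = u1 * (a1 * u1⁻¹ * a1⁻¹) := by
    have : c * a * c⁻¹ = a := by rw [(mc.1 hc').eq]; group
    rw [← e2 _ (inv_mem hu1.1), ← mul_assoc, ← mul_assoc, ← e1 a haP, ← hu' a haP, eq_mul_inv_iff_mul_eq, ← hg]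
    conv_rhs => rw [← this]
    group
  have cn : Commute e n := by
    have : n ∈ centralizer (Q : Set G) := by
      rw [en]; exact mul_mem hu1.2 (mul_mem (mul_mem ha1'.2 (inv_mem hu1.2)) (inv_mem ha1'.2))
    exact this e he
  have it : ∀ i : ℕ, e ^ i * b * (e ^ i)⁻¹ * n ^ i = b := by
    intro i
    induction i with
    | zero => simp
    | succ i ih =>
      have h0 : e * b * e⁻¹ * n = b := by rw [hn]; group
      have h5 : (e ^ i)⁻¹ * n * e ^ i = n := by rw [mul_assoc, ← (cn.pow_left i).eq]; group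
      calc e ^ (i + 1) * b * (e ^ (i + 1))⁻¹ * n ^ (i + 1)
          = e ^ i * (e * b * e⁻¹ * ((e ^ i)⁻¹ * n * e ^ i)) * (e ^ i)⁻¹ * n ^ i := by
            rw [pow_succ e, pow_succ' n]; group
        _ = b := by rw [h5, h0, ih]
  obtain ⟨k, hk⟩ := Q.isPGroup' ⟨e, he⟩
  have hk' : e ^ q ^ k = 1 := congrArg Subtype.val hk
  have h7 := it (q ^ k)
  rw [hk', one_mul, inv_one, mul_one, mul_eq_left] at h7
  have n1 : n = 1 := by
    rw [← orderOf_eq_one_iff]
    refine Nat.eq_one_of_dvd_coprimes (Nat.Coprime.pow_right k ((Nat.coprime_primes hp.out hq).2 ?_))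
      (orderOf_dvd_of_pow_eq_one np) (orderOf_dvd_of_pow_eq_one h7)
    rintro rfl
    exact hpb hqb
  rw [n1, eq_comm, inv_mul_eq_one, mul_inv_eq_iff_eq_mul] at hn
  exact mem_centralizer_singleton_iff.2 hn

theorem main {p : ℕ} [hp : Fact p.Prime] {a b : G} (ha : orderOf a = p) (hb : orderOf b = p)
    (ha1 : C[a].index ≠ 1) (hb1 : C[b].index ≠ 1) (hc : C[a].index.Coprime C[b].index) (hpb : ¬ p ∣ C[b].index)
    (H : ∀ z : G, p ∣ orderOf z → C[z].index.Coprime C[a].index ∨ C[z].index.Coprime C[b].index) : False := by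
  obtain ⟨P, -, hP⟩ := syl hpb bot_le IsPGroup.of_bot
  obtain ⟨P', hP'⟩ := (IsPGroup.of_card (n := 1) (by rw [Nat.card_zpowers, ha, pow_one]) :
    IsPGroup p (zpowers a)).exists_le_sylow
  obtain ⟨x, -, hx⟩ := sylc (K := ⊤) (P := P) (P' := P') le_top le_top
  have e : C[x⁻¹ * a * x].index = C[a].index := by
    rw [← ncard_cl, ← ncard_cl]
    congr 1
    ext y
    have : IsConj a (x⁻¹ * a * x) := isConj_iff.2 ⟨x⁻¹, by rw [inv_inv]⟩
    exact ⟨fun h => this.trans h, fun h => this.symm.trans h⟩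
  rw [← e] at ha1 hc H
  refine main' ?_ hb ha1 hb1 hc hpb H P hP ((hx a).1 (hP' (mem_zpowers a)))
  rw [← ha]
  simpa using (MulAut.conj x⁻¹).orderOf_eq a

end CfsgH8.Psg
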