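import Cfsg.Agent.H1.RS4

/-! Root subgroups `{1 + c N}` attached to square-zero elements of an algebra. -/

set_option autoImplicit false
set_option linter.unusedSectionVars false

namespace CfsgH8.RT

open Subgroup Cfsg CfsgH9 CfsgH1 Matrix
open scoped commutatorElement MatrixGroups

variable (K : Type*) {R G : Type*} [Field K] [Ring R] [Algebra K R] [Group G]

/-- The group of the `1 + c N`. -/
def T (ρ : G →* R) (N : R) : Subgroup G := closure {g | ∃ c : K, ρ g = 1 + c • N}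

/-- `N` is a root element. -/
structure Full (ρ : G →* R) (N : R) : Prop where
  ne : N ≠ 0
  sq : N * N = 0
  ex : ∀ c : K, ∃ g, ρ g = 1 + c • N

/-- Opposite root elements. -/
def Opp (N M : R) : Prop := ∃ c : K, c ≠ 0 ∧ N * M * N = c • N ∧ M * N * M = c • M

variable {K} {ρ : G →* R} {N M : R}

theorem Opp.symm (h : Opp K N M) : Opp K M N := by
  obtain ⟨c, h0, h1, h2⟩ := h
  exact ⟨c, h0, h2, h1⟩

theorem one_add_mul (hN : N * N = 0) (a b : K) : (1 + a • N) * (1 + b • N) = 1 + (a + b) • N := by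
  simp only [mul_add, add_mul, mul_one, one_mul, smul_mul_assoc, mul_smul_comm, hN, smul_zero]
  module

theorem rho_inv {g : G} {x : R} (h : ρ g * x = 1) : ρ g⁻¹ = x := by
  calc ρ g⁻¹ = ρ g⁻¹ * (ρ g * x) := by rw [h, mul_one]
    _ = x := by rw [← mul_assoc, ← map_mul, inv_mul_cancel, map_one, one_mul]

theorem rho_inv' (hN : N * N = 0) {g : G} {a : K} (h : ρ g = 1 + a • N) : ρ g⁻¹ = 1 + (-a) • N :=
  rho_inv (by rw [h, one_add_mul hN]; simp)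

theorem mem_T (hN : N * N = 0) {g : G} : g ∈ T K ρ N ↔ ∃ c : K, ρ g = 1 + c • N := by
  constructor
  · intro hg
    induction hg using Subgroup.closure_induction with
    | mem g hg => exact hg
    | one => exact ⟨0, by simp⟩
    | mul _ _ _ _ h1 h2 =>
      obtain ⟨s, h1⟩ := h1; obtain ⟨t, h2⟩ := h2
      exact ⟨s + t, by rw [map_mul, h1, h2, one_add_mul hN]⟩
    | inv _ _ h => obtain ⟨s, h⟩ := h; exact ⟨-s, rho_inv' hN h⟩
  · exact fun h => Subgroup.subset_closure h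

theorem T_smul {c : K} (hc : c ≠ 0) (N : R) : T K ρ (c • N) = T K ρ N := by
  unfold T
  congr 1
  ext g
  constructor
  · rintro ⟨a, h⟩; exact ⟨a * c, by rw [h, smul_smul]⟩
  · rintro ⟨a, h⟩; exact ⟨a / c, by rw [h, smul_smul, div_mul_cancel₀ _ hc]⟩

theorem Full.smul (h : Full K ρ N) {c : K} (hc : c ≠ 0) : Full K ρ (c • N) :=
  ⟨fun e => h.ne (by simpa [hc] using e), by simp [h.sq], fun a => by
    obtain ⟨g, hg⟩ := h.ex (a * c); exact ⟨g, by rw [hg, smul_smul]⟩⟩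

theorem comm_T (hρ : Function.Injective ρ) (hN : N * N = 0) (hM : M * M = 0) (h : N * M = M * N)
    {a b : G} (ha : a ∈ T K ρ N) (hb : b ∈ T K ρ M) : a * b = b * a := by
  obtain ⟨s, ha⟩ := (mem_T hN).1 ha
  obtain ⟨t, hb⟩ := (mem_T hM).1 hb
  apply hρ
  rw [map_mul, map_mul, ha, hb]
  simp only [mul_add, add_mul, mul_one, one_mul, smul_mul_assoc, mul_smul_comm, h]
  module

theorem comm_bot (hρ : Function.Injective ρ) (hN : N * N = 0) (hM : M * M = 0) (h : N * M = M * N) :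
    ⁅T K ρ N, T K ρ M⁆ = ⊥ := by
  rw [eq_bot_iff, commutator_le]
  intro a ha b hb
  rw [mem_bot, commutatorElement_eq_one_iff_mul_comm]
  exact comm_T hρ hN hM h ha hb

theorem Full.ne_bot (h : Full K ρ N) : T K ρ N ≠ ⊥ := by
  obtain ⟨g, hg⟩ := h.ex 1
  intro e
  have : g ∈ T K ρ N := (mem_T h.sq).2 ⟨1, hg⟩
  rw [e, mem_bot] at this
  rw [this, map_one] at hg
  exact h.ne (by simpa using hg)

theorem conj_sq (hN : N * N = 0) (g : G) : ρ g * N * ρ g⁻¹ * (ρ g * N * ρ g⁻¹) = 0 := by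
  have : ρ g⁻¹ * ρ g = 1 := by rw [← map_mul, inv_mul_cancel, map_one]
  calc _ = ρ g * N * (ρ g⁻¹ * ρ g) * N * ρ g⁻¹ := by simp only [mul_assoc]
    _ = 0 := by rw [this, mul_one, mul_assoc (ρ g), hN]; simp

theorem cj_T (hN : N * N = 0) (g : G) : cj g (T K ρ N) = T K ρ (ρ g * N * ρ g⁻¹) := by
  have e1 : ρ g⁻¹ * ρ g = 1 := by rw [← map_mul, inv_mul_cancel, map_one]
  have e2 : ρ g * ρ g⁻¹ = 1 := by rw [← map_mul, mul_inv_cancel, map_one]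
  ext x
  rw [mem_cj, mem_T hN, mem_T (conj_sq hN g)]
  refine exists_congr fun c => ?_
  rw [map_mul, map_mul]
  constructor
  · intro h
    calc ρ x = ρ g * (ρ g⁻¹ * ρ x * ρ g) * ρ g⁻¹ := by
          rw [← mul_assoc, ← mul_assoc, e2, one_mul, mul_assoc, e2, mul_one]
      _ = _ := by rw [h, mul_add, add_mul, mul_one, e2, mul_smul_comm, smul_mul_assoc]
  · intro h
    rw [h, mul_add, add_mul, mul_one, e1, mul_smul_comm, smul_mul_assoc, ← mul_assoc, ← mul_assoc, e1,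
      one_mul, mul_assoc, e1, mul_one]

theorem exists_hom (hρ : Function.Injective ρ) (hN : Full K ρ N) (hM : Full K ρ M)
    (h1 : N * M * N = N) (h2 : M * N * M = M) :
    ∃ φ : SL(2, K) →* G, (∀ t, ρ (φ (sU t)) = 1 + t • N) ∧ ∀ t, ρ (φ (sL t)) = 1 + t • M := by
  classical
  let ψ : SL(2, K) → R := fun w =>
    1 + (w.1 0 0 - 1) • (N * M) + w.1 0 1 • N + w.1 1 0 • M + (w.1 1 1 - 1) • (M * N)
  have n2 : ∀ x, N * (N * x) = 0 := fun x => by rw [← mul_assoc, hN.sq, zero_mul]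
  have m2 : ∀ x, M * (M * x) = 0 := fun x => by rw [← mul_assoc, hM.sq, zero_mul]
  have a1 : N * (M * N) = N := by rw [← mul_assoc, h1]
  have a2 : M * (N * M) = M := by rw [← mul_assoc, h2]
  have hm : ∀ v w, ψ (v * w) = ψ v * ψ w := by
    intro v w
    simp only [ψ, sl2_mul, mul_add, add_mul, mul_one, one_mul, smul_mul_assoc, mul_smul_comm,
      mul_assoc, n2, m2, a1, a2, hN.sq, hM.sq, mul_zero, smul_zero]
    module
  have h1' : ψ 1 = 1 := by simp [ψ]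
  let H : Subgroup SL(2, K) :=
    { carrier := {w | ∃ g, ρ g = ψ w}
      one_mem' := ⟨1, by rw [map_one, h1']⟩
      mul_mem' := by
        rintro a b ⟨g, hg⟩ ⟨g', hg'⟩
        exact ⟨g * g', by rw [map_mul, hm, hg, hg']⟩
      inv_mem' := by
        rintro a ⟨g, hg⟩
        exact ⟨g⁻¹, rho_inv (by rw [hg, ← hm, mul_inv_cancel, h1'])⟩ }
  have eU : ∀ t, ψ (sU t) = 1 + t • N := fun t => by simp [ψ, sU_val]
  have eL : ∀ t, ψ (sL t) = 1 + t • M := fun t => by simp [ψ, sL_val]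
  have hH : H = ⊤ := sl2_le_of (fun t => by obtain ⟨g, hg⟩ := hN.ex t; exact ⟨g, by rw [hg, eU]⟩)
    (fun t => by obtain ⟨g, hg⟩ := hM.ex t; exact ⟨g, by rw [hg, eL]⟩)
  have hex : ∀ w, ∃ g, ρ g = ψ w := fun w => (hH ▸ mem_top w : w ∈ H)
  choose f hf using hex
  exact ⟨MonoidHom.mk' f fun v w => hρ (by rw [map_mul, hf, hf, hf, hm]),
    fun t => (hf _).trans (eU t), fun t => (hf _).trans (eL t)⟩

theorem exists_hom' (hρ : Function.Injective ρ) (hN : Full K ρ N) (hM : Full K ρ M)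
    {c : K} (hc : c ≠ 0) (h1 : N * M * N = c • N) (h2 : M * N * M = c • M) :
    ∃ φ : SL(2, K) →* G, (∀ t, ρ (φ (sU t)) = 1 + t • N) ∧ (∀ t, ρ (φ (sL t)) = 1 + (t / c) • M) ∧
      ¬ Commute (φ (sU 1)) (φ (sL 1)) := by
  obtain ⟨φ, hU, hL⟩ := exists_hom hρ hN (hM.smul (inv_ne_zero hc))
    (by rw [mul_smul_comm, smul_mul_assoc, h1, smul_smul, inv_mul_cancel₀ hc, one_smul])
    (by rw [mul_smul_comm, smul_mul_assoc, smul_mul_assoc, h2, smul_smul c⁻¹ c, inv_mul_cancel₀ hc,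
      one_smul])
  refine ⟨φ, hU, fun t => by rw [hL, smul_smul, div_eq_mul_inv], fun e => ?_⟩
  have e := congrArg ρ e.eq
  rw [map_mul, map_mul, hU, hL] at e
  simp only [mul_add, add_mul, mul_one, one_mul, smul_mul_assoc, mul_smul_comm, one_smul] at e
  have e' : N * M = M * N := by
    have : c⁻¹ • (N * M) = c⁻¹ • (M * N) := by linear_combination (norm := module) e
    exact smul_right_injective _ (inv_ne_zero hc) this
  rw [e', mul_assoc, hN.sq, mul_zero] at h1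
  exact hN.ne (by simpa [hc] using h1.symm)

theorem psl2 (hρ : Function.Injective ρ) (hN : Full K ρ N) (hM : Full K ρ M) (h : Opp K N M) :
    IsPSL2PairOver K (T K ρ N) (T K ρ M) ∧ RP (T K ρ N) (T K ρ M) := by
  obtain ⟨c, hc, h1, h2⟩ := h
  obtain ⟨φ, hU, hL, hn⟩ := exists_hom' hρ hN hM hc h1 h2
  have eU : (upperUnipotentSL2 K).map φ = T K ρ N := by
    ext g
    rw [mem_T hN.sq]
    constructor
    · rintro ⟨w, hw, rfl⟩
      obtain ⟨t, rfl⟩ := mem_upper.1 hw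
      exact ⟨t, hU t⟩
    · rintro ⟨t, ht⟩
      exact ⟨sU t, mem_upper.2 ⟨t, rfl⟩, hρ (by rw [hU, ht])⟩
  have eL : (lowerUnipotentSL2 K).map φ = T K ρ M := by
    ext g
    rw [mem_T hM.sq]
    constructor
    · rintro ⟨w, hw, rfl⟩
      obtain ⟨t, rfl⟩ := mem_lower.1 hw
      exact ⟨_, hL t⟩
    · rintro ⟨t, ht⟩
      exact ⟨sL (t * c), mem_lower.2 ⟨_, rfl⟩, hρ (by rw [hL, ht, mul_div_cancel_right₀ _ hc])⟩
  refine ⟨⟨φ, ?_, sl2_ker_le φ hn, eU, eL⟩, ?_⟩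
  · rw [← eU, ← eL, ← Subgroup.map_sup, upper_sup_lower, MonoidHom.range_eq_map]
  · rw [← eU, ← eL]
    refine RP.map φ sl2_rp fun e => hn ?_
    have a1 : φ (sU 1) ∈ (lowerUnipotentSL2 K).map φ := e ▸ mem_map_of_mem φ (mem_upper.2 ⟨1, rfl⟩)
    exact comm_of_mem (isComm_map φ lower_comm) a1 (mem_map_of_mem φ (mem_lower.2 ⟨1, rfl⟩))

theorem rho_comm (hN : N * N = 0) (hM : M * M = 0) (h1 : N * M * N = 0) (h2 : M * N * M = 0)
    {a b : G} {s t : K} (ha : ρ a = 1 + s • N) (hb : ρ b = 1 + t • M) :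
    ρ ⁅a, b⁆ = 1 + (s * t) • (N * M - M * N) := by
  have n2 : ∀ x, N * (N * x) = 0 := fun x => by rw [← mul_assoc, hN, zero_mul]
  have m2 : ∀ x, M * (M * x) = 0 := fun x => by rw [← mul_assoc, hM, zero_mul]
  have a1 : N * (M * N) = 0 := by rw [← mul_assoc, h1]
  have a2 : M * (N * M) = 0 := by rw [← mul_assoc, h2]
  rw [commutatorElement_def, map_mul, map_mul, map_mul, rho_inv' hN ha, rho_inv' hM hb, ha, hb]
  simp only [mul_add, add_mul, mul_one, one_mul, smul_mul_assoc, mul_smul_comm,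
      mul_assoc, n2, m2, a1, a2, hN, hM, mul_zero, zero_mul, smul_zero]
  module

theorem rc {S : Set (Subgroup G)} (hρ : Function.Injective ρ) (hN : Full K ρ N) (hM : Full K ρ M)
    (h1 : N * M * N = 0) (h2 : M * N * M = 0) (hC : Full K ρ (N * M - M * N))
    (hS : T K ρ (N * M - M * N) ∈ S) : RC S (T K ρ N) (T K ρ M) := by
  have k3 : ∀ a ∈ T K ρ N, a ≠ 1 → ∀ c ∈ T K ρ (N * M - M * N), ∃ b ∈ T K ρ M, ⁅a, b⁆ = c := by
    intro a ha a1 c hc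
    obtain ⟨s, ha⟩ := (mem_T hN.sq).1 ha
    obtain ⟨u, hc⟩ := (mem_T hC.sq).1 hc
    have hs : s ≠ 0 := by rintro rfl; exact a1 (hρ (by simpa using ha))
    obtain ⟨b, hb⟩ := hM.ex (u / s)
    exact ⟨b, (mem_T hM.sq).2 ⟨_, hb⟩, hρ (by
      rw [rho_comm hN.sq hM.sq h1 h2 ha hb, hc, mul_div_cancel₀ _ hs])⟩
  have k4 : ∀ b ∈ T K ρ M, b ≠ 1 → ∀ c ∈ T K ρ (N * M - M * N), ∃ a ∈ T K ρ N, ⁅a, b⁆ = c := by
    intro b hb b1 c hc
    obtain ⟨s, hb⟩ := (mem_T hM.sq).1 hb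
    obtain ⟨u, hc⟩ := (mem_T hC.sq).1 hc
    have hs : s ≠ 0 := by rintro rfl; exact b1 (hρ (by simpa using hb))
    obtain ⟨a, ha⟩ := hN.ex (u / s)
    exact ⟨a, (mem_T hN.sq).2 ⟨_, ha⟩, hρ (by
      rw [rho_comm hN.sq hM.sq h1 h2 ha hb, hc, div_mul_cancel₀ _ hs])⟩
  have e : ⁅T K ρ N, T K ρ M⁆ = T K ρ (N * M - M * N) := by
    apply le_antisymm
    · rw [commutator_le]
      intro a ha b hb
      obtain ⟨s, ha⟩ := (mem_T hN.sq).1 ha
      obtain ⟨t, hb⟩ := (mem_T hM.sq).1 hb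
      exact (mem_T hC.sq).2 ⟨_, rho_comm hN.sq hM.sq h1 h2 ha hb⟩
    · intro c hc
      obtain ⟨a, ha, a1⟩ := exists_ne_one hN.ne_bot
      obtain ⟨b, hb, rfl⟩ := k3 a ha a1 c hc
      exact commutator_mem_commutator ha hb
  refine RC.of (e ▸ hS) ?_ (e ▸ k3) (e ▸ k4)
  rw [e]
  intro c hc
  refine cm_sup (fun a ha => comm_T hρ hC.sq hN.sq ?_ hc ha) (fun b hb => comm_T hρ hC.sq hM.sq ?_ hc hb)
  · rw [sub_mul, mul_sub, h1, mul_assoc, hN.sq, ← mul_assoc, ← mul_assoc, hN.sq, h1]; simp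
  · rw [sub_mul, mul_sub, h2, mul_assoc, hM.sq, ← mul_assoc, ← mul_assoc, hM.sq, h2]; simp

variable (K) in
/-- A family of root elements. -/
structure Fam (ρ : G →* R) (𝒩 : Set R) : Prop where
  inj : Function.Injective ρ
  full : ∀ N ∈ 𝒩, Full K ρ N
  conj : ∀ N ∈ 𝒩, ∀ g, ρ g * N * ρ g⁻¹ ∈ 𝒩
  tri : ∀ N ∈ 𝒩, ∀ M ∈ 𝒩, N * M = M * N ∨ Opp K N M ∨
    (N * M * N = 0 ∧ M * N * M = 0 ∧ N * M - M * N ∈ 𝒩)

variable {𝒩 : Set R}

theorem Fam.krs (h : Fam K ρ 𝒩) (gen : (⨆ A ∈ T K ρ '' 𝒩, A) = ⊤) :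
    IsKRootSubgroupSet K (T K ρ '' 𝒩) := by
  have key : ∀ N ∈ 𝒩, ∀ M ∈ 𝒩, ⁅T K ρ N, T K ρ M⁆ = ⊥ ∨
      (IsPSL2PairOver K (T K ρ N) (T K ρ M) ∧ RP (T K ρ N) (T K ρ M)) ∨
      RC (T K ρ '' 𝒩) (T K ρ N) (T K ρ M) := by
    intro N hN M hM
    rcases h.tri N hN M hM with e | e | ⟨e1, e2, e3⟩
    · exact Or.inl (comm_bot h.inj (h.full N hN).sq (h.full M hM).sq e)
    · exact Or.inr (Or.inl (psl2 h.inj (h.full N hN) (h.full M hM) e))
    · exact Or.inr (Or.inr (rc h.inj (h.full N hN) (h.full M hM) e1 e2 (h.full _ e3) ⟨_, e3, rfl⟩))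
  refine ⟨⟨?_, ?_, gen, ?_, ?_⟩, ?_⟩
  · rintro _ ⟨N, hN, rfl⟩
    exact isComm_of fun a ha b hb => comm_T h.inj (h.full N hN).sq (h.full N hN).sq rfl ha hb
  · rintro _ ⟨N, hN, rfl⟩
    exact (h.full N hN).ne_bot
  · rintro _ ⟨N, hN, rfl⟩ g
    exact ⟨_, h.conj N hN g, (cj_T (h.full N hN).sq g).symm⟩
  · rintro _ ⟨N, hN, rfl⟩ _ ⟨M, hM, rfl⟩
    exact (key N hN M hM).imp_right (Or.imp_left And.right)
  · rintro _ ⟨N, hN, rfl⟩ _ ⟨M, hM, rfl⟩ r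
    rcases key N hN M hM with e | e | e
    · exact absurd e (RP.not_comm r)
    · exact e.1
    · exact (RS.rc_not_rp e r).elim

theorem Fam.deg (h : Fam K ρ 𝒩) (hd : ∀ N ∈ 𝒩, ∀ M ∈ 𝒩, N * M = M * N ∨ Opp K N M) :
    IsDegenerateRootSet (T K ρ '' 𝒩) := by
  rintro _ ⟨N, hN, rfl⟩ _ ⟨M, hM, rfl⟩ r
  rcases hd N hN M hM with e | e
  · obtain ⟨L, hL, e'⟩ := r.1
    rw [comm_bot h.inj (h.full N hN).sq (h.full M hM).sq e] at e'
    exact (h.full L hL).ne_bot e'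
  · exact RS.rc_not_rp r (psl2 h.inj (h.full N hN) (h.full M hM) e).2

variable (K) in
/-- Adjacency of root elements. -/
def Adj (𝒩 : Set R) (N M : R) : Prop := N ∈ 𝒩 ∧ M ∈ 𝒩 ∧ Opp K N M

theorem Adj.symm (h : Adj K 𝒩 N M) : Adj K 𝒩 M N := ⟨h.2.1, h.1, h.2.2.symm⟩

theorem Fam.conn (h : Fam K ρ 𝒩) (hc : ∀ N ∈ 𝒩, ∀ M ∈ 𝒩, Relation.ReflTransGen (Adj K 𝒩) N M) :
    IsConnectedFamily (FAdj (T K ρ '' 𝒩)) (T K ρ '' 𝒩) := by
  rintro _ ⟨N, hN, rfl⟩ _ ⟨M, hM, rfl⟩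
  refine Relation.ReflTransGen.lift (T K ρ) ?_ _ _ (hc N hN M hM)
  rintro a b ⟨ha, hb, e⟩
  exact ⟨⟨a, ha, rfl⟩, ⟨b, hb, rfl⟩, (psl2 h.inj (h.full a ha) (h.full b hb) e).2⟩

theorem class_of_conn {S : Set (Subgroup G)} (hn : S.Nonempty)
    (hc : IsConnectedFamily (FAdj S) S) : IsConjClassOfSubgroups S := by
  refine ⟨hn, fun A hA B hB => ?_⟩
  have := hc A hA B hB
  clear hB
  induction this with
  | refl => exact ⟨1, (cj_one A).symm⟩
  | tail _ r ih =>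
    obtain ⟨g, rfl⟩ := ih
    obtain ⟨x, -, rfl⟩ := mem_Om.1 (RP.right_mem r.2.2)
    exact ⟨x * g, cj_cj _ _ _⟩

theorem T_sub (hN : N * N = 0) (H : Subgroup G) :
    T K (ρ.comp H.subtype) N = (T K ρ N).subgroupOf H := by
  ext g
  rw [mem_T hN, mem_subgroupOf, mem_T hN]; rfl

theorem Fam.sub (h : Fam K ρ 𝒩) : Fam K (ρ.comp (⨆ A ∈ T K ρ '' 𝒩, A).subtype) 𝒩 := by
  refine ⟨h.inj.comp Subtype.val_injective, fun N hN => ⟨(h.full N hN).ne, (h.full N hN).sq, fun c => ?_⟩,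
    fun N hN g => h.conj N hN g.1, h.tri⟩
  obtain ⟨g, hg⟩ := (h.full N hN).ex c
  have : T K ρ N ≤ ⨆ A ∈ T K ρ '' 𝒩, A := le_iSup₂_of_le (T K ρ N) ⟨N, hN, rfl⟩ le_rfl
  exact ⟨⟨g, this ((mem_T (h.full N hN).sq).2 ⟨c, hg⟩)⟩, hg⟩

theorem Fam.sub_image (h : Fam K ρ 𝒩) (H : Subgroup G) :
    (fun A : Subgroup G => A.subgroupOf H) '' (T K ρ '' 𝒩) = T K (ρ.comp H.subtype) '' 𝒩 := by
  rw [Set.image_image]
  exact Set.image_congr fun N hN => (T_sub (h.full N hN).sq H).symm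

theorem Fam.sub_gen (h : Fam K ρ 𝒩) :
    (⨆ A ∈ T K (ρ.comp (⨆ A ∈ T K ρ '' 𝒩, A).subtype) '' 𝒩, A) = ⊤ := by
  rw [← h.sub_image]
  apply Subgroup.map_injective (Subgroup.subtype_injective _)
  rw [← MonoidHom.range_eq_map, Subgroup.range_subtype]
  apply le_antisymm (Subgroup.map_subtype_le _)
  refine iSup₂_le fun A hA => ?_
  have hle : A ≤ ⨆ A ∈ T K ρ '' 𝒩, A := le_iSup₂_of_le A hA le_rfl
  rw [← Subgroup.map_subgroupOf_eq_of_le hle]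
  exact Subgroup.map_mono (le_iSup₂_of_le _ ⟨A, hA, rfl⟩ le_rfl)

end CfsgH8.RT
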