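import Cfsg.Agent.H8.RT
import Cfsg.Agent.H5.Unit2
import Cfsg.Agent.H5.Symp2

/-! Transvection groups as root subgroups. -/

set_option autoImplicit false
set_option linter.unusedSectionVars false

namespace CfsgH8.RT

open Subgroup Cfsg CfsgH9 CfsgH1 CfsgH5 Matrix Module

universe u v

section Lin

variable {F : Type u} [Field F] {V : Type v} [AddCommGroup V] [Module F V] {G : Type*} [Group G]

/-- The rank one map `v ↦ α v • x`. -/
def r1 (x : V) (α : V →ₗ[F] F) : Module.End F V := α.smulRight x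

@[simp] theorem r1_apply (x : V) (α : V →ₗ[F] F) (v : V) : r1 x α v = α v • x := rfl

theorem r1_ne {x : V} {α : V →ₗ[F] F} (hx : x ≠ 0) (hα : α ≠ 0) : r1 x α ≠ 0 := by
  intro e
  apply hα
  ext v
  have := LinearMap.congr_fun e v
  simpa [hx] using this

theorem r1_mul (x y : V) (α β : V →ₗ[F] F) : r1 x α * r1 y β = r1 (α y • x) β := by
  ext v; simp [smul_smul, mul_comm]

variable (F V) in
/-- The rank one nilpotent maps. -/
def NL : Set (Module.End F V) := {N | ∃ x α, x ≠ 0 ∧ α ≠ 0 ∧ α x = 0 ∧ N = r1 x α}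

theorem r1_opp {x y : V} {α β : V →ₗ[F] F} (h1 : α y ≠ 0) (h2 : β x ≠ 0) :
    Opp F (r1 x α) (r1 y β) :=
  ⟨α y * β x, mul_ne_zero h1 h2, by ext v; simp [smul_smul]; congr 1; ring,
    by ext v; simp [smul_smul]; congr 1; ring⟩

theorem NL_tri : ∀ N ∈ NL F V, ∀ M ∈ NL F V, N * M = M * N ∨ Opp F N M ∨
    (N * M * N = 0 ∧ M * N * M = 0 ∧ N * M - M * N ∈ NL F V) := by
  rintro _ ⟨x, α, hx, hα, e, rfl⟩ _ ⟨y, β, hy, hβ, e', rfl⟩
  by_cases h1 : α y = 0 <;> by_cases h2 : β x = 0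
  · left; ext v; simp [h1, h2]
  · right; right
    refine ⟨by ext v; simp [h1], by ext v; simp [h1], -(β x • y), α, by simp [h2, hy], hα, by simp [h1],
      by ext v; simp [h1, smul_smul, mul_comm]⟩
  · right; right
    refine ⟨by ext v; simp [h2], by ext v; simp [h2], α y • x, β, by simp [h1, hx], hβ, by simp [h2],
      by ext v; simp [h2, smul_smul, mul_comm]⟩
  · exact Or.inr (Or.inl (r1_opp h1 h2))

theorem rho_cancel {ρ : G →* Module.End F V} (g : G) (v : V) : ρ g⁻¹ (ρ g v) = v := by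
  rw [← Module.End.mul_apply, ← map_mul, inv_mul_cancel, map_one, Module.End.one_apply]

theorem rho_cancel' {ρ : G →* Module.End F V} (g : G) (v : V) : ρ g (ρ g⁻¹ v) = v := by
  rw [← Module.End.mul_apply, ← map_mul, mul_inv_cancel, map_one, Module.End.one_apply]

theorem r1_conj {ρ : G →* Module.End F V} (g : G) (x : V) (α : V →ₗ[F] F) :
    ρ g * r1 x α * ρ g⁻¹ = r1 (ρ g x) (α ∘ₗ ρ g⁻¹) := by
  ext v; simp

theorem NL_fam {ρ : G →* Module.End F V} (hρ : Function.Injective ρ)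
    (hex : ∀ N ∈ NL F V, ∃ g, ρ g = 1 + N) : Fam F ρ (NL F V) := by
  refine ⟨hρ, ?_, ?_, NL_tri⟩
  · rintro _ ⟨x, α, hx, hα, e, rfl⟩
    refine ⟨r1_ne hx hα, by ext v; simp [e], fun c => ?_⟩
    by_cases hc : c = 0
    · exact ⟨1, by simp [hc]⟩
    · obtain ⟨g, hg⟩ := hex _ ⟨c • x, α, smul_ne_zero hc hx, hα, by simp [e], rfl⟩
      exact ⟨g, by rw [hg]; ext v; simp [smul_smul, mul_comm]⟩
  · rintro _ ⟨x, α, hx, hα, e, rfl⟩ g
    refine ⟨_, _, fun h => hx ?_, fun h => hα ?_, ?_, r1_conj g x α⟩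
    · rw [← rho_cancel (ρ := ρ) g x, h, map_zero]
    · ext v
      simpa [rho_cancel] using LinearMap.congr_fun h (ρ g v)
    · simp [rho_cancel, e]

theorem ex_two {W : Type*} [AddCommGroup W] {p q : W → Prop} (h1 : ∃ a, p a) (h2 : ∃ b, q b)
    (hp : ∀ a b, p a → ¬ p b → p (a + b)) (hq : ∀ a b, ¬ q a → q b → q (a + b)) :
    ∃ c, p c ∧ q c := by
  obtain ⟨a, ha⟩ := h1
  obtain ⟨b, hb⟩ := h2
  by_cases e1 : q a
  · exact ⟨a, ha, e1⟩
  by_cases e2 : p b
  · exact ⟨b, e2, hb⟩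
  exact ⟨a + b, hp a b ha e2, hq a b e1 hb⟩

theorem ex_vec {α : V →ₗ[F] F} (hα : α ≠ 0) : ∃ v, α v ≠ 0 := by
  by_contra h
  push Not at h
  exact hα (LinearMap.ext h)

theorem ex_fun {x : V} (hx : x ≠ 0) : ∃ α : V →ₗ[F] F, α x ≠ 0 := by
  by_contra h
  push Not at h
  exact hx ((Module.forall_dual_apply_eq_zero_iff F x).1 h)

theorem NL_conn1 {x x' : V} {α : V →ₗ[F] F} (hx : x ≠ 0) (hx' : x' ≠ 0) (hα : α ≠ 0) (e : α x = 0)
    (e' : α x' = 0) : Relation.ReflTransGen (Adj F (NL F V)) (r1 x α) (r1 x' α) := by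
  obtain ⟨y, hy⟩ := ex_vec hα
  obtain ⟨β, h1, h2⟩ := ex_two (p := fun β : V →ₗ[F] F => β x ≠ 0) (q := fun β => β x' ≠ 0)
    (ex_fun hx) (ex_fun hx') (fun a b ha hb => by push Not at hb; simpa [hb] using ha)
    (fun a b ha hb => by push Not at ha; simpa [ha] using hb)
  let γ : V →ₗ[F] F := β - (β y / α y) • α
  have g1 : γ x ≠ 0 := by simpa [γ, e] using h1
  have g2 : γ x' ≠ 0 := by simpa [γ, e'] using h2
  have hm : r1 y γ ∈ NL F V := ⟨y, γ, by rintro rfl; simp at hy, by intro h; simp [h] at g1,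
    by simp [γ, hy], rfl⟩
  exact (Relation.ReflTransGen.single ⟨⟨x, α, hx, hα, e, rfl⟩, hm, r1_opp hy g1⟩).tail
    ⟨hm, ⟨x', α, hx', hα, e', rfl⟩, r1_opp g2 hy⟩

theorem NL_conn2 {x : V} {α α' : V →ₗ[F] F} (hx : x ≠ 0) (hα : α ≠ 0) (hα' : α' ≠ 0) (e : α x = 0)
    (e' : α' x = 0) : Relation.ReflTransGen (Adj F (NL F V)) (r1 x α) (r1 x α') := by
  obtain ⟨β, hβ⟩ := ex_fun (F := F) hx
  obtain ⟨y, h1, h2⟩ := ex_two (p := fun y => α y ≠ 0) (q := fun y => α' y ≠ 0)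
    (ex_vec hα) (ex_vec hα') (fun a b ha hb => by push Not at hb; simpa [hb] using ha)
    (fun a b ha hb => by push Not at ha; simpa [ha] using hb)
  let z : V := y - (β y / β x) • x
  have g1 : α z ≠ 0 := by simpa [z, e] using h1
  have g2 : α' z ≠ 0 := by simpa [z, e'] using h2
  have hm : r1 z β ∈ NL F V := ⟨z, β, by intro h; simp [h] at g1, by rintro rfl; simp at hβ,
    by simp [z, hβ], rfl⟩
  exact (Relation.ReflTransGen.single ⟨⟨x, α, hx, hα, e, rfl⟩, hm, r1_opp g1 hβ⟩).tail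
    ⟨hm, ⟨x, α', hx, hα', e', rfl⟩, r1_opp hβ g2⟩

theorem NL_conn [FiniteDimensional F V] (h3 : 3 ≤ finrank F V) :
    ∀ N ∈ NL F V, ∀ M ∈ NL F V, Relation.ReflTransGen (Adj F (NL F V)) N M := by
  classical
  rintro _ ⟨x, α, hx, hα, e, rfl⟩ _ ⟨y, β, hy, hβ, e', rfl⟩
  have hlt : Submodule.span F ({x, y} : Set V) < ⊤ := by
    rw [lt_top_iff_ne_top]
    intro h
    have := finrank_span_finset_le_card (R := F) ({x, y} : Finset V)
    have h2 : ({x, y} : Finset V).card ≤ 2 := Finset.card_le_two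
    rw [Set.finrank, Finset.coe_pair, h, finrank_top] at this
    omega
  obtain ⟨γ, hγ, hk⟩ := Submodule.exists_le_ker_of_lt_top _ hlt
  have g1 : γ x = 0 := hk (Submodule.subset_span (by simp))
  have g2 : γ y = 0 := hk (Submodule.subset_span (by simp))
  exact ((NL_conn2 hx hα hγ e g1).trans (NL_conn1 hx hy hγ g1 g2)).trans (NL_conn2 hy hγ hβ g2 e')

end Lin

section Form

variable {F : Type u} [Field F] {P : FP F} {V : Type v} [AddCommGroup V] [Module F V]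
  {G : Type*} [Group G] {K : Type*} [Field K] [Algebra K F] [Module K V] [IsScalarTower K F V]

/-- The transvection data of a form. -/
def NF (f : CForm P V) (δ : F) : Set (Module.End F V) :=
  {N | ∃ p, p ≠ 0 ∧ f.Q p = 0 ∧ N = r1 p (δ • f.left p)}

variable {f : CForm P V} {δ : F}

theorem NF_opp (hδ : δ ≠ 0) (ht : P.t δ = 0) (hK : ∀ a, P.σ a = a → ∃ c : K, algebraMap K F c = a)
    {p r : V} (h : f.B p r ≠ 0) : Opp K (r1 p (δ • f.left p)) (r1 r (δ • f.left r)) := by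
  have h' : f.B r p ≠ 0 := fun e => h (f.B_zero_symm e)
  have e1 : P.σ δ = -(P.ε * δ) := by
    have := P.t_ker δ ht
    have e := P.εε
    linear_combination P.ε * this - P.σ δ * e
  obtain ⟨c, hc⟩ := hK (δ * δ * (f.B p r * f.B r p)) (by
    have e := P.εε
    rw [f.B_symm p r]
    simp only [map_mul, e1, FP.σε, FP.σσ']
    linear_combination (δ * δ * P.ε * f.B p r * P.σ (f.B p r)) * e)
  refine ⟨c, ?_, ?_, ?_⟩
  · rintro rfl
    rw [map_zero] at hc
    exact mul_ne_zero (mul_ne_zero hδ hδ) (mul_ne_zero h h') hc.symm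
  · ext v
    rw [LinearMap.smul_apply, ← algebraMap_smul F c, hc]
    simp [smul_smul, CForm.left_apply]; congr 1; ring
  · ext v
    rw [LinearMap.smul_apply, ← algebraMap_smul F c, hc]
    simp [smul_smul, CForm.left_apply]; congr 1; ring

theorem NF_di (hδ : δ ≠ 0) (ht : P.t δ = 0) (hK : ∀ a, P.σ a = a → ∃ c : K, algebraMap K F c = a) :
    ∀ N ∈ NF f δ, ∀ M ∈ NF f δ, N * M = M * N ∨ Opp K N M := by
  rintro _ ⟨p, hp, e, rfl⟩ _ ⟨r, hr, e', rfl⟩
  by_cases h : f.B p r = 0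
  · left; ext v; simp [CForm.left_apply, h, f.B_zero_symm h]
  · exact Or.inr (NF_opp hδ ht hK h)

theorem NF_fam (hf : f.Nondeg) (hδ : δ ≠ 0) (ht : P.t δ = 0)
    (hK : ∀ a, P.σ a = a → ∃ c : K, algebraMap K F c = a) {ρ : G →* Module.End F V}
    (hρ : Function.Injective ρ) (hB : ∀ g u v, f.B (ρ g u) (ρ g v) = f.B u v)
    (hQ : ∀ g v, f.Q (ρ g v) = f.Q v)
    (hex : ∀ p (c : K), f.Q p = 0 → ∃ g, ∀ v, ρ g v = v + (algebraMap K F c * δ * f.B v p) • p) :
    Fam K ρ (NF f δ) := by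
  refine ⟨hρ, ?_, ?_, fun N hN M hM => (NF_di hδ ht hK N hN M hM).imp_right Or.inl⟩
  · rintro _ ⟨p, hp, e, rfl⟩
    refine ⟨r1_ne hp (smul_ne_zero hδ fun h => hp (hf.left fun u => f.B_zero_symm ?_)),
      by ext v; simp [CForm.left_apply, f.B_self_of_Q_zero e], fun c => ?_⟩
    · exact LinearMap.congr_fun h u
    · obtain ⟨g, hg⟩ := hex p c e
      refine ⟨g, ?_⟩
      ext v
      rw [hg, LinearMap.add_apply, LinearMap.smul_apply, ← algebraMap_smul F c]
      simp [smul_smul, CForm.left_apply, mul_assoc]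
  · rintro _ ⟨p, hp, e, rfl⟩ g
    refine ⟨ρ g p, fun h => hp ?_, by rw [hQ, e], ?_⟩
    · rw [← rho_cancel (ρ := ρ) g p, h, map_zero]
    · rw [r1_conj]
      congr 1
      ext v
      simp only [LinearMap.comp_apply, LinearMap.smul_apply, CForm.left_apply]
      rw [← hB g, rho_cancel']

theorem NF_conn [FiniteDimensional F V] (hf : f.Nondeg) (hδ : δ ≠ 0) (ht : P.t δ = 0)
    (hK : ∀ a, P.σ a = a → ∃ c : K, algebraMap K F c = a) :
    ∀ N ∈ NF f δ, ∀ M ∈ NF f δ, Relation.ReflTransGen (Adj K (NF f δ)) N M := by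
  rintro _ ⟨p, hp, e, rfl⟩ _ ⟨r, hr, e', rfl⟩
  by_cases h : f.B p r = 0
  · obtain ⟨w, hw, h1, h2⟩ := CForm.exists_sing_nonperp hf e hp hr h
    have hm : r1 w (δ • f.left w) ∈ NF f δ := ⟨w, by rintro rfl; simp at h1, hw, rfl⟩
    exact (Relation.ReflTransGen.single (Adj.symm ⟨hm, ⟨p, hp, e, rfl⟩, NF_opp hδ ht hK h1⟩)).tail
      ⟨hm, ⟨r, hr, e', rfl⟩, NF_opp hδ ht hK h2⟩
  · exact Relation.ReflTransGen.single ⟨⟨p, hp, e, rfl⟩, ⟨r, hr, e', rfl⟩, NF_opp hδ ht hK h⟩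

theorem mem_T_NF {ρ : G →* Module.End F V} {p : V} (e : f.Q p = 0) {g : G} :
    g ∈ T K ρ (r1 p (δ • f.left p)) ↔
      ∃ c : K, ∀ v, ρ g v = v + (algebraMap K F c * δ * f.B v p) • p := by
  rw [mem_T (by ext v; simp [CForm.left_apply, f.B_self_of_Q_zero e])]
  refine exists_congr fun c => ?_
  rw [LinearMap.ext_iff]
  refine forall_congr' fun v => ?_
  rw [LinearMap.add_apply, LinearMap.smul_apply, ← algebraMap_smul F c]
  simp [smul_smul, CForm.left_apply, mul_assoc]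

end Form

/-- A matrix representation as endomorphisms. -/
noncomputable def toEnd {ι : Type} [Fintype ι] [DecidableEq ι] {F : Type u} [Field F] {H : Type*}
    [Group H] (toMat : H →* Matrix ι ι F) : H →* Module.End F (ι → F) :=
  (Matrix.toLinAlgEquiv' : Matrix ι ι F ≃ₐ[F] _).toMonoidHom.comp toMat

theorem toEnd_apply {ι : Type} [Fintype ι] [DecidableEq ι] {F : Type u} [Field F] {H : Type*}
    [Group H] (toMat : H →* Matrix ι ι F) (h : H) (v : ι → F) : toEnd toMat h v = toMat h *ᵥ v := rfl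

theorem toEnd_inj {ι : Type} [Fintype ι] [DecidableEq ι] {F : Type u} [Field F] {H : Type*}
    [Group H] {toMat : H →* Matrix ι ι F} (h : Function.Injective toMat) :
    Function.Injective (toEnd toMat) :=
  (Matrix.toLinAlgEquiv' : Matrix ι ι F ≃ₐ[F] _).injective.comp h

end CfsgH8.RT
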