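import Cfsg.Agent.H8.RT2
import Cfsg.Agent.H5.SLBasic

/-! Transvection groups of the special linear group; root involutions. -/

set_option autoImplicit false
set_option linter.unusedSectionVars false

namespace CfsgH8.RT

open Subgroup Cfsg CfsgH9 CfsgH1 CfsgH5 Matrix Module
open scoped commutatorElement MatrixGroups

universe u

section SL

variable {F : Type u} [Field F] {n : ℕ}

variable (F n) in
/-- The natural representation of `SL`. -/
noncomputable abbrev rSL : SpecialLinearGroup (Fin n) F →* Module.End F (Fin n → F) :=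
  toEnd (slToMat n F)

/-- The elementary nilpotent map. -/
def Eij (F : Type u) [Field F] {n : ℕ} (i j : Fin n) : Module.End F (Fin n → F) :=
  r1 (Pi.single i 1) (LinearMap.proj j)

theorem proj_ne (j : Fin n) : (LinearMap.proj j : (Fin n → F) →ₗ[F] F) ≠ 0 := fun h => by
  simpa using LinearMap.congr_fun h (Pi.single j 1)

theorem Eij_mem {i j : Fin n} (h : i ≠ j) : Eij F i j ∈ NL F (Fin n → F) :=
  ⟨_, _, by simp, proj_ne j, by simp [h.symm], rfl⟩

theorem rSL_eq_iff {i j : Fin n} {t : SpecialLinearGroup (Fin n) F} {c : F} :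
    rSL F n t = 1 + c • Eij F i j ↔ (t : Matrix (Fin n) (Fin n) F) = Matrix.transvection i j c := by
  have : (Matrix.toLinAlgEquiv' (Matrix.transvection i j c) : Module.End F (Fin n → F)) =
      1 + c • Eij F i j := by
    refine LinearMap.ext fun v => ?_
    change Matrix.transvection i j c *ᵥ v = _
    ext k
    simp [Matrix.transvection, add_mulVec, Matrix.single_mulVec, Eij, Pi.single_apply, Function.update_apply]
  rw [← this]
  exact (Matrix.toLinAlgEquiv' : Matrix (Fin n) (Fin n) F ≃ₐ[F] _).injective.eq_iff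

theorem SL_fam : Fam F (rSL F n) (NL F (Fin n → F)) := by
  refine NL_fam (toEnd_inj Subtype.val_injective) ?_
  rintro _ ⟨x, α, -, -, e, rfl⟩
  refine ⟨⟨LinearMap.toMatrix' (LinearMap.transvection α x), by
    rw [LinearMap.det_toMatrix', LinearMap.transvection.det, e, add_zero]⟩, LinearMap.ext fun v => ?_⟩
  exact LinearMap.toMatrix'_mulVec (LinearMap.transvection α x) v

theorem SL_gen : (⨆ A ∈ T F (rSL F n) '' NL F (Fin n → F), A) = ⊤ := by
  refine SL_eq_top_of_transvections _ fun i j h c => ?_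
  refine (le_iSup₂_of_le (f := fun A _ => A) _ ⟨_, Eij_mem h, rfl⟩ le_rfl : T F (rSL F n) _ ≤ _) ?_
  exact (mem_T (SL_fam.full _ (Eij_mem h)).sq).2 ⟨c, rSL_eq_iff.2 rfl⟩

theorem SL_conn : IsConnectedFamily (FAdj (T F (rSL F (n + 3)) '' NL F (Fin (n + 3) → F)))
    (T F (rSL F (n + 3)) '' NL F (Fin (n + 3) → F)) :=
  SL_fam.conn (NL_conn (by simp))

theorem SL_class : IsConjClassOfSubgroups (T F (rSL F (n + 3)) '' NL F (Fin (n + 3) → F)) :=
  class_of_conn ⟨_, _, Eij_mem (i := 0) (j := 1) (by simp), rfl⟩ SL_conn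

end SL

section Inv

variable {K R G : Type*} [Field K] [Ring R] [Algebra K R] [Group G] {ρ : G →* R} {𝒩 : Set R}

theorem Fam.order_two [CharP K 2] (h : Fam K ρ 𝒩) {N : R} (hN : N ∈ 𝒩) {a : G} (ha : ρ a = 1 + N) :
    orderOf a = 2 := by
  refine orderOf_eq_prime (h.inj ?_) fun e => (h.full N hN).ne ?_
  · have := one_add_mul (K := K) (h.full N hN).sq 1 1
    rw [CharTwo.add_self_eq_zero, zero_smul, one_smul, add_zero] at this
    rw [sq, map_mul, ha, this, map_one]
  · rw [e, map_one] at ha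
    simpa using ha

theorem Fam.pair [CharP K 2] [Finite G] (h : Fam K ρ 𝒩) {N M : R} (hN : N ∈ 𝒩) (hM : M ∈ 𝒩) {a b : G}
    (ha : ρ a = 1 + N) (hb : ρ b = 1 + M) :
    a * b = b * a ∨ (Odd (orderOf (a * b)) ∧ ((∀ c : K, c ≠ 0 → c = 1) → (a * b) ^ 3 = 1)) ∨
      (orderOf (a * b) = 4 ∧ ∃ L ∈ 𝒩, ρ ((a * b) ^ 2) = 1 + L) := by
  have a2 : a * a = 1 := by rw [← sq, ← h.order_two hN ha, pow_orderOf_eq_one]
  have b2 : b * b = 1 := by rw [← sq, ← h.order_two hM hb, pow_orderOf_eq_one]
  have ai : a⁻¹ = a := inv_eq_of_mul_eq_one_right a2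
  have bi : b⁻¹ = b := inv_eq_of_mul_eq_one_right b2
  rcases h.tri N hN M hM with e | ⟨c, hc, e1, e2⟩ | ⟨e1, e2, e3⟩
  · left
    apply h.inj
    rw [map_mul, map_mul, ha, hb]
    simp only [mul_add, add_mul, mul_one, one_mul, e]
    abel
  · right; left
    obtain ⟨φ, hU, hL, hn⟩ := exists_hom' h.inj (h.full N hN) (h.full M hM) hc e1 e2
    have eU : φ (sU 1) = a := h.inj (by rw [hU, ha, one_smul])
    have eL : φ (sL c) = b := h.inj (by rw [hL, hb, div_self hc, one_smul])
    have m1 : (-1 : SL(2, K)) = 1 := by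
      apply sl2_ext <;> simp [CharTwo.neg_eq]
    have hφ : Function.Injective φ := by
      rw [← MonoidHom.ker_eq_bot_iff, eq_bot_iff]
      intro w hw
      rcases sl2_center (sl2_ker_le φ hn hw) with e | e
      · exact e
      · rw [m1] at e; exact e
    refine ⟨?_, fun h1 => ?_⟩
    · rw [← Nat.not_even_iff_odd]
      rintro ⟨m, hm⟩
      have hpos := orderOf_pos (a * b)
      have z2 : (a * b) ^ m * (a * b) ^ m = 1 := by rw [← pow_add, ← hm, pow_orderOf_eq_one]
      have z1 : (a * b) ^ m ≠ 1 := pow_ne_one_of_lt_orderOf (by omega) (by omega)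
      have c1 : a * (a * b) ^ m * a⁻¹ = ((a * b) ^ m)⁻¹ := by
        rw [← conj_pow, ← inv_pow, _root_.mul_inv_rev, ai, bi, ← mul_assoc, a2, one_mul]
      have c2 : b * (a * b) ^ m * b⁻¹ = ((a * b) ^ m)⁻¹ := by
        rw [← conj_pow, ← inv_pow, _root_.mul_inv_rev, ai, bi, mul_assoc, mul_assoc, b2, mul_one]
      rw [inv_eq_of_mul_eq_one_right z2, mul_inv_eq_iff_eq_mul, ← eU, ← eL, ← map_mul, ← map_pow,
        ← map_mul, ← map_mul] at c1 c2
      rw [← eU, ← eL, ← map_mul, ← map_pow] at z1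
      generalize (sU 1 * sL c) ^ m = w at *
      have c1 := hφ c1
      have c2 := hφ c2
      apply z1
      have d1 := congrArg (fun g : SL(2, K) => g.1 0 0) c1
      have d2 := congrArg (fun g : SL(2, K) => g.1 0 1) c1
      have d3 := congrArg (fun g : SL(2, K) => g.1 0 0) c2
      simp [sl2_mul, sU_val, sL_val, hc] at d1 d2 d3
      have d := sl2_det w
      have d4 : w.1 1 1 = w.1 0 0 := by linear_combination d2
      rw [d1, d4, mul_zero, sub_zero] at d
      have d5 : w.1 0 0 = 1 := by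
        rcases mul_self_eq_one_iff.1 d with e | e
        · exact e
        · rw [e, CharTwo.neg_eq]
      rw [show w = 1 by apply sl2_ext <;> simp [d1, d3, d4, d5], map_one]
    · rw [← eU, ← eL, ← map_mul, ← map_pow, h1 c hc]
      have two : (2 : K) = 0 := CharTwo.two_eq_zero
      rw [show (sU 1 * sL 1 : SL(2, K)) ^ 3 = 1 by
        apply sl2_ext <;> simp [pow_succ, sl2_mul, sU_val, sL_val] <;> grind, map_one]
  · right; right
    have e : (a * b) ^ 2 = ⁅a, b⁆ := by rw [commutatorElement_def, ai, bi, sq]; group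
    have e' : ρ ((a * b) ^ 2) = 1 + (N * M - M * N) := by
      rw [e, rho_comm (K := K) (s := 1) (t := 1) (h.full N hN).sq (h.full M hM).sq e1 e2
        (by rw [ha, one_smul]) (by rw [hb, one_smul]), one_mul, one_smul]
    refine ⟨?_, _, e3, e'⟩
    have o2 := h.order_two e3 e'
    refine orderOf_eq_prime_pow (p := 2) (n := 1) (fun e => ?_) ?_
    · rw [pow_one] at e
      rw [e, orderOf_one] at o2
      omega
    · have := pow_orderOf_eq_one ((a * b) ^ 2)
      rwa [o2, ← pow_mul] at this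

end Inv

end CfsgH8.RT
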