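import Cfsg.Agent.H8.RT2
import Cfsg.Agent.H5.Orth6

/-! Siegel transvection groups as root subgroups. -/

set_option autoImplicit false
set_option linter.unusedSectionVars false

namespace CfsgH8.RT

open Subgroup Cfsg CfsgH9 CfsgH1 CfsgH5 Matrix Module

universe u v

variable {F : Type u} [Field F] {V : Type v} [AddCommGroup V] [Module F V] {G : Type*} [Group G]

/-- The Siegel map of a pair of vectors. -/
def Sg (f : CForm (FP.orth F) V) (p r : V) : Module.End F V := r1 r (f.left p) - r1 p (f.left r)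

/-- The Siegel maps of singular lines. -/
def NS (f : CForm (FP.orth F) V) : Set (Module.End F V) :=
  {N | N ≠ 0 ∧ ∃ p r, f.Q p = 0 ∧ f.Q r = 0 ∧ f.B p r = 0 ∧ N = Sg f p r}

variable {f : CForm (FP.orth F) V}

theorem Sg_apply (p r v : V) : Sg f p r v = f.B v p • r - f.B v r • p := rfl

theorem Sg_swap (p r : V) : Sg f (-r) p = Sg f p r := by
  ext v; simp only [Sg_apply, CForm.B_neg_right]; module

theorem Sg_swap' (p r : V) : Sg f r (-p) = Sg f p r := by
  ext v; simp only [Sg_apply, CForm.B_neg_right]; module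

theorem Sg_sub (p r : V) (c : F) : Sg f p (r - c • p) = Sg f p r := by
  ext v; simp only [Sg_apply, CForm.B_sub_right, CForm.B_smul_right, FP.orth_σ]; module

theorem Sg_smul (p r : V) (c : F) : Sg f (c • p) r = Sg f p (c • r) := by
  ext v; simp only [Sg_apply, CForm.B_smul_right, FP.orth_σ]; module

theorem Sg_zero (r : V) : Sg f 0 r = 0 := by ext v; simp [Sg_apply]

theorem Sg_span (p : V) (c : F) : Sg f p (c • p) = 0 := by
  ext v; simp only [Sg_apply, CForm.B_smul_right, FP.orth_σ, LinearMap.zero_apply]; module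

theorem Sg_ne_iff [FiniteDimensional F V] (hf : f.Nondeg) {p r : V} :
    Sg f p r ≠ 0 ↔ p ≠ 0 ∧ r ∉ F ∙ p := by
  constructor
  · intro h
    refine ⟨fun e => h (e ▸ Sg_zero r), fun e => ?_⟩
    obtain ⟨c, rfl⟩ := Submodule.mem_span_singleton.1 e
    exact h (Sg_span p c)
  · rintro ⟨hp, hr⟩ e
    obtain ⟨y, hy⟩ := hf.exists_B_eq_one hp
    have := LinearMap.congr_fun e y
    rw [Sg_apply, f.orth_B_symm, hy, one_smul, LinearMap.zero_apply, sub_eq_zero] at this
    exact hr (Submodule.mem_span_singleton.2 ⟨_, this.symm⟩)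

theorem Sg_mul3 (p r s t : V) : Sg f p r * Sg f s t * Sg f p r =
    (f.B p t * f.B r s - f.B p s * f.B r t) • Sg f p r := by
  ext v
  simp only [Module.End.mul_apply, Sg_apply, LinearMap.smul_apply, CForm.B_sub_left, CForm.B_smul_left,
    f.orth_B_symm p s, f.orth_B_symm p t, f.orth_B_symm r s, f.orth_B_symm r t]
  module

theorem Sg_opp {p r s t : V} (h : f.B p t * f.B r s - f.B p s * f.B r t ≠ 0) :
    Opp F (Sg f p r) (Sg f s t) := by
  refine ⟨_, h, Sg_mul3 p r s t, ?_⟩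
  rw [Sg_mul3, f.orth_B_symm p s, f.orth_B_symm p t, f.orth_B_symm r s, f.orth_B_symm r t]
  congr 1; ring

theorem Sg_key {p r s t : V} (hp : f.Q p = 0) (hr : f.Q r = 0) (hpr : f.B p r = 0)
    (hs : f.Q s = 0) (ht : f.Q t = 0) (hst : f.B s t = 0)
    (h : f.B p t * f.B r s - f.B p s * f.B r t = 0) (hd : f.B r t ≠ 0) :
    ∃ x y, f.Q x = 0 ∧ f.Q y = 0 ∧ f.B x y = 0 ∧ Sg f p r * Sg f s t - Sg f s t * Sg f p r = Sg f x y := by
  have e : f.B p s = f.B p t * f.B r s / f.B r t := by field_simp; linear_combination -h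
  refine ⟨p - (f.B p t / f.B r t) • r, f.B r t • s - f.B r s • t, ?_, ?_, ?_, ?_⟩
  · simp [CForm.Q_sub, CForm.orth_Q_smul, CForm.B_smul_right, hp, hr, hpr]
  · simp [CForm.Q_sub, CForm.orth_Q_smul, CForm.B_smul_right, CForm.B_smul_left, hs, ht, hst]
  · simp only [CForm.B_sub_left, CForm.B_smul_left, CForm.B_sub_right, CForm.B_smul_right, FP.orth_σ, e]
    field_simp; ring
  · ext v
    simp only [Module.End.mul_apply, LinearMap.sub_apply, Sg_apply, CForm.B_sub_left, CForm.B_smul_left,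
      CForm.B_sub_right, CForm.B_smul_right, FP.orth_σ,
      f.orth_B_symm p s, f.orth_B_symm p t, f.orth_B_symm r s, f.orth_B_symm r t, e]
    match_scalars <;> field_simp <;> ring

theorem NS_tri : ∀ N ∈ NS f, ∀ M ∈ NS f, N * M = M * N ∨ Opp F N M ∨
    (N * M * N = 0 ∧ M * N * M = 0 ∧ N * M - M * N ∈ NS f) := by
  rintro _ ⟨-, p, r, hp, hr, hpr, rfl⟩ _ ⟨-, s, t, hs, ht, hst, rfl⟩
  by_cases h : f.B p t * f.B r s - f.B p s * f.B r t = 0
  swap
  · exact Or.inr (Or.inl (Sg_opp h))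
  by_cases h0 : Sg f p r * Sg f s t - Sg f s t * Sg f p r = 0
  · exact Or.inl (sub_eq_zero.1 h0)
  right; right
  refine ⟨by rw [Sg_mul3, h, zero_smul], ?_, h0, ?_⟩
  · rw [Sg_mul3, f.orth_B_symm p s, f.orth_B_symm p t, f.orth_B_symm r s, f.orth_B_symm r t,
      show f.B r s * f.B p t - f.B p s * f.B r t = 0 by linear_combination h, zero_smul]
  have hrp : f.B (-r) p = 0 := by rw [f.B_neg_left, f.B_zero_symm hpr, neg_zero]
  have hts : f.B (-t) s = 0 := by rw [f.B_neg_left, f.B_zero_symm hst, neg_zero]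
  have hr' : f.Q (-r) = 0 := by rw [f.Q_neg, hr]
  have ht' : f.Q (-t) = 0 := by rw [f.Q_neg, ht]
  by_cases h1 : f.B r t ≠ 0
  · exact Sg_key hp hr hpr hs ht hst h h1
  by_cases h2 : f.B p t ≠ 0
  · have := Sg_key hr' hp hrp hs ht hst (by simp only [CForm.B_neg_left]; linear_combination h) h2
    rwa [Sg_swap] at this
  by_cases h3 : f.B r s ≠ 0
  · have := Sg_key hp hr hpr ht' hs hts (by simp only [CForm.B_neg_right]; linear_combination h) h3
    rwa [Sg_swap] at this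
  by_cases h4 : f.B p s ≠ 0
  · have := Sg_key hr' hp hrp ht' hs hts
      (by simp only [CForm.B_neg_right, CForm.B_neg_left]; linear_combination h) h4
    rwa [Sg_swap, Sg_swap] at this
  push Not at h1 h2 h3 h4
  exfalso
  apply h0
  ext v
  simp [Sg_apply, CForm.B_sub_left, CForm.B_smul_left, f.orth_B_symm p s, f.orth_B_symm p t,
    f.orth_B_symm r s, f.orth_B_symm r t, h1, h2, h3, h4]

theorem Sg_sq {p r : V} (hp : f.Q p = 0) (hr : f.Q r = 0) (hpr : f.B p r = 0) :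
    Sg f p r * Sg f p r = 0 := by
  ext v
  simp [Sg_apply, CForm.B_sub_left, CForm.B_smul_left, f.B_self_of_Q_zero hp, f.B_self_of_Q_zero hr, hpr,
    f.B_zero_symm hpr]

theorem NS_fam {ρ : G →* Module.End F V} (hρ : Function.Injective ρ)
    (hQ : ∀ g v, f.Q (ρ g v) = f.Q v) (hex : ∀ e ∈ f.Isom, ∃ g, ∀ v, ρ g v = e v) :
    Fam F ρ (NS f) := by
  have hB : ∀ g u v, f.B (ρ g u) (ρ g v) = f.B u v := fun g u v => by
    rw [f.orth_B, f.orth_B, ← map_add, hQ, hQ, hQ]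
  refine ⟨hρ, ?_, ?_, NS_tri⟩
  · rintro _ ⟨h0, p, r, hp, hr, hpr, rfl⟩
    refine ⟨h0, Sg_sq hp hr hpr, fun c => ?_⟩
    obtain ⟨e, he⟩ := CForm.exists_eich (f := f) (a := c • p) (c := 0) hr
      (by simp [CForm.B_smul_left, hpr]) (by simp [CForm.orth_Q_smul, hp])
    obtain ⟨g, hg⟩ := hex e he.mem_Isom
    refine ⟨g, LinearMap.ext fun v => ?_⟩
    rw [hg, he.app]
    simp only [LinearMap.add_apply, LinearMap.smul_apply, Module.End.one_apply, Sg_apply,
      CForm.B_smul_right, FP.orth_σ, FP.orth_ε]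
    module
  · rintro _ ⟨h0, p, r, hp, hr, hpr, rfl⟩ g
    refine ⟨fun e => h0 ?_, ρ g p, ρ g r, by rw [hQ, hp], by rw [hQ, hr], by rw [hB, hpr], ?_⟩
    · ext v
      have := congrArg (ρ g⁻¹) (LinearMap.congr_fun e (ρ g v))
      simpa [rho_cancel] using this
    · ext v
      simp only [Module.End.mul_apply, Sg_apply, map_sub, map_smul]
      rw [← hB g _ p, ← hB g _ r, rho_cancel']

variable [FiniteDimensional F V]

theorem NS_conn1 (hf : f.Nondeg) {p r r' : V} (hp : f.Q p = 0) (hr : f.Q r = 0) (hpr : f.B p r = 0)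
    (hr' : f.Q r' = 0) (hpr' : f.B p r' = 0) (h0 : Sg f p r ≠ 0) (h0' : Sg f p r' ≠ 0)
    (h : f.B r r' = 0) : Relation.ReflTransGen (Adj F (NS f)) (Sg f p r) (Sg f p r') := by
  obtain ⟨p0, r0⟩ := (Sg_ne_iff hf).1 h0
  obtain ⟨-, r0'⟩ := (Sg_ne_iff hf).1 h0'
  obtain ⟨s, hs⟩ := hf.exists_hyp' hp p0
  have hpp := f.B_self_of_Q_zero hp
  have hrr := f.B_self_of_Q_zero hr
  have hss := hs.hyy
  have hps := hs.hxy
  have ne : ∀ x, x ∉ F ∙ p → ∃ w, f.B (x - f.B x s • p) w ≠ 0 := fun x hx => by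
    obtain ⟨w, hw⟩ := hf.exists_B_eq_one (x := x - f.B x s • p)
      (fun e => hx (Submodule.mem_span_singleton.2 ⟨_, (sub_eq_zero.1 e).symm⟩))
    exact ⟨w, by rw [hw]; exact one_ne_zero⟩
  obtain ⟨w, h1, h2⟩ := ex_two (p := fun w => f.B (r - f.B r s • p) w ≠ 0)
    (q := fun w => f.B (r' - f.B r' s • p) w ≠ 0) (ne r r0) (ne r' r0')
    (fun a b ha hb => by push Not at hb; rwa [f.B_add_right, hb, add_zero])
    (fun a b ha hb => by push Not at ha; rwa [f.B_add_right, ha, zero_add])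
  obtain ⟨t, ht, hst, g1, g2⟩ : ∃ t, f.Q t = 0 ∧ f.B s t = 0 ∧ f.B (r - f.B r s • p) t ≠ 0 ∧
      f.B (r' - f.B r' s • p) t ≠ 0 := by
    have a1 : f.B (r - f.B r s • p) p = 0 := by
      simp [CForm.B_sub_left, CForm.B_smul_left, hpp, f.B_zero_symm hpr]
    have a2 : f.B (r' - f.B r' s • p) p = 0 := by
      simp [CForm.B_sub_left, CForm.B_smul_left, hpp, f.B_zero_symm hpr']
    have a3 : f.Q (r - f.B r s • p) = 0 := by
      simp [CForm.Q_sub, CForm.orth_Q_smul, CForm.B_smul_right, hp, hr, f.B_zero_symm hpr]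
    have a4 : f.B (r' - f.B r' s • p) (r - f.B r s • p) = 0 := by
      simp [CForm.B_sub_left, CForm.B_smul_left, CForm.B_sub_right, CForm.B_smul_right, hpp, hpr,
        f.B_zero_symm hpr', f.B_zero_symm h]
    have a5 : f.B s (r - f.B r s • p) = 0 := by
      rw [f.orth_B_symm]; simp [CForm.B_sub_left, CForm.B_smul_left, hps]
    generalize r - f.B r s • p = x at *
    generalize r' - f.B r' s • p = x' at *
    have b1 : f.B x (w - f.B w s • p) = f.B x w := by
      simp [CForm.B_sub_right, CForm.B_smul_right, a1]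
    refine ⟨w - f.B w s • p - (f.Q (w - f.B w s • p) / f.B x w) • x, ?_, ?_, ?_, ?_⟩
    · rw [CForm.Q_sub, CForm.orth_Q_smul, a3, CForm.B_smul_right, f.orth_B_symm x (w - _), b1]
      simp [h1]
    · rw [CForm.B_sub_right, CForm.B_smul_right, a5, f.orth_B_symm]
      simp [CForm.B_sub_left, CForm.B_smul_left, hps]
    · rw [CForm.B_sub_right, CForm.B_smul_right, b1, f.B_self_of_Q_zero a3]; simpa using h1
    · rw [CForm.B_sub_right, CForm.B_smul_right, a4, CForm.B_sub_right, CForm.B_smul_right, a2]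
      simpa using h2
  have o : ∀ x, f.B (x - f.B x s • p) t ≠ 0 → Opp F (Sg f p x) (Sg f s t) := fun x hx => by
    refine Sg_opp fun e => hx ?_
    rw [CForm.B_sub_left, CForm.B_smul_left]
    rw [hps] at e
    linear_combination -e
  have hm : Sg f s t ∈ NS f := by
    refine ⟨fun e => ?_, s, t, hs.hy, ht, hst, rfl⟩
    obtain ⟨c, hc, e1, -⟩ := o r g1
    rw [e, mul_zero, zero_mul] at e1
    exact smul_ne_zero hc h0 e1.symm
  exact (Relation.ReflTransGen.single ⟨⟨h0, p, r, hp, hr, hpr, rfl⟩, hm, o r g1⟩).tail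
    ⟨hm, ⟨h0', p, r', hp, hr', hpr', rfl⟩, (o r' g2).symm⟩

theorem ex_third (hf : f.Nondeg) {U : Submodule F V} (hU : f.TS U) (h3 : 3 ≤ finrank F U) {p r : V}
    (hp : f.Q p = 0) (hr : f.Q r = 0) (hpr : f.B p r = 0) :
    ∃ w, f.Q w = 0 ∧ f.B p w = 0 ∧ f.B r w = 0 ∧ w ∉ Submodule.span F ({p, r} : Set V) := by
  classical
  have hT : f.TS (Submodule.span F ({p, r} : Set V)) := by
    refine CForm.TS_orth.2 fun w hw => ?_
    obtain ⟨a, b, rfl⟩ := Submodule.mem_span_pair.1 hw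
    simp [CForm.orth_Q_add, CForm.orth_Q_smul, CForm.B_smul_left, CForm.B_smul_right, hp, hr, hpr]
  have h2 : finrank F (Submodule.span F ({p, r} : Set V)) ≤ 2 := by
    have := finrank_span_finset_le_card (R := F) ({p, r} : Finset V)
    rw [Set.finrank, Finset.coe_pair] at this
    exact this.trans Finset.card_le_two
  obtain ⟨g, hg, hle⟩ := hT.exists_map_le hf hU (by omega)
  obtain ⟨u, hu, hu'⟩ : ∃ u ∈ U, u ∉ (Submodule.span F ({p, r} : Set V)).map g.toLinearMap := by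
    by_contra hc
    push Not at hc
    have h1 := Submodule.finrank_mono (show U ≤ _ from hc)
    have := Submodule.finrank_map_le g.toLinearMap (Submodule.span F ({p, r} : Set V))
    omega
  refine ⟨g.symm u, ?_, ?_, ?_, fun h => hu' ⟨_, h, by simp⟩⟩
  · rw [← f.Isom_Q hg, LinearEquiv.apply_symm_apply]; exact hU.1 u hu
  · rw [← f.Isom_B hg, LinearEquiv.apply_symm_apply]
    exact hU.2 _ (hle ⟨p, Submodule.subset_span (by simp), rfl⟩) u hu
  · rw [← f.Isom_B hg, LinearEquiv.apply_symm_apply]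
    exact hU.2 _ (hle ⟨r, Submodule.subset_span (by simp), rfl⟩) u hu

theorem NS_conn2 (hf : f.Nondeg) {U : Submodule F V} (hU : f.TS U) (h3 : 3 ≤ finrank F U) {p r r' : V}
    (hp : f.Q p = 0) (hr : f.Q r = 0) (hpr : f.B p r = 0)
    (hr' : f.Q r' = 0) (hpr' : f.B p r' = 0) (h0 : Sg f p r ≠ 0) (h0' : Sg f p r' ≠ 0) :
    Relation.ReflTransGen (Adj F (NS f)) (Sg f p r) (Sg f p r') := by
  by_cases h : f.B r r' = 0
  · exact NS_conn1 hf hp hr hpr hr' hpr' h0 h0' h
  obtain ⟨w, hw, w1, w2, w3⟩ := ex_third hf hU h3 hp hr hpr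
  have a1 : f.Q (w - (f.B w r' / f.B r r') • r) = 0 := by
    simp [CForm.Q_sub, CForm.orth_Q_smul, CForm.B_smul_right, hw, hr, f.B_zero_symm w2]
  have a2 : f.B p (w - (f.B w r' / f.B r r') • r) = 0 := by
    simp [CForm.B_sub_right, CForm.B_smul_right, w1, hpr]
  have a3 : f.B r (w - (f.B w r' / f.B r r') • r) = 0 := by
    simp [CForm.B_sub_right, CForm.B_smul_right, w2, f.B_self_of_Q_zero hr]
  have a4 : f.B (w - (f.B w r' / f.B r r') • r) r' = 0 := by
    simp [CForm.B_sub_left, CForm.B_smul_left, h]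
  have a5 : Sg f p (w - (f.B w r' / f.B r r') • r) ≠ 0 := by
    refine (Sg_ne_iff hf).2 ⟨((Sg_ne_iff hf).1 h0).1, fun e => w3 ?_⟩
    obtain ⟨c, hc⟩ := Submodule.mem_span_singleton.1 e
    exact Submodule.mem_span_pair.2 ⟨c, f.B w r' / f.B r r', by rw [hc]; module⟩
  exact (NS_conn1 hf hp hr hpr a1 a2 h0 a5 a3).trans (NS_conn1 hf hp a1 a2 hr' hpr' a5 h0' a4)

theorem NS_conn3 (hf : f.Nondeg) {U : Submodule F V} (hU : f.TS U) (h3 : 3 ≤ finrank F U) {p r s t : V}
    (hp : f.Q p = 0) (hr : f.Q r = 0) (hpr : f.B p r = 0) (hs : f.Q s = 0)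
    (ht : f.Q t = 0) (hst : f.B s t = 0) (h0 : Sg f p r ≠ 0) (h0' : Sg f s t ≠ 0) (h : f.B p s = 0) :
    Relation.ReflTransGen (Adj F (NS f)) (Sg f p r) (Sg f s t) := by
  by_cases e : s ∈ F ∙ p
  · obtain ⟨c, rfl⟩ := Submodule.mem_span_singleton.1 e
    rw [Sg_smul] at h0' ⊢
    refine NS_conn2 hf hU h3 hp hr hpr (by simp [CForm.orth_Q_smul, ht]) ?_ h0 h0'
    rw [CForm.B_smul_left] at hst
    rwa [CForm.B_smul_right]
  · have a : Sg f p s ≠ 0 := (Sg_ne_iff hf).2 ⟨((Sg_ne_iff hf).1 h0).1, e⟩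
    refine (NS_conn2 hf hU h3 hp hr hpr hs h h0 a).trans ?_
    rw [← Sg_swap'] at a ⊢
    exact NS_conn2 hf hU h3 hs (by rw [f.Q_neg, hp]) (by rw [f.B_neg_right, f.B_zero_symm h, neg_zero])
      ht hst a h0'

theorem NS_conn (hf : f.Nondeg) {U : Submodule F V} (hU : f.TS U) (h3 : 3 ≤ finrank F U) :
    ∀ N ∈ NS f, ∀ M ∈ NS f, Relation.ReflTransGen (Adj F (NS f)) N M := by
  rintro _ ⟨h0, p, r, hp, hr, hpr, rfl⟩ _ ⟨h0', s, t, hs, ht, hst, rfl⟩
  by_cases h : f.B p s = 0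
  · exact NS_conn3 hf hU h3 hp hr hpr hs ht hst h0 h0' h
  rw [← Sg_sub p r (f.B r s / f.B p s), ← Sg_swap'] at h0 ⊢
  refine NS_conn3 hf hU h3 ?_ (by rw [f.Q_neg, hp]) ?_ hs ht hst h0 h0' ?_
  · simp [CForm.Q_sub, CForm.orth_Q_smul, CForm.B_smul_right, hp, hr, f.B_zero_symm hpr]
  · simp [CForm.B_sub_left, CForm.B_smul_left, f.B_self_of_Q_zero hp, f.B_zero_symm hpr]
  · simp [CForm.B_sub_left, CForm.B_smul_left, h]

theorem mem_T_NS (hf : f.Nondeg) {ρ : G →* Module.End F V} (hQ : ∀ g v, f.Q (ρ g v) = f.Q v) {p r : V}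
    (hp : f.Q p = 0) (hr : f.Q r = 0) (hpr : f.B p r = 0) (h0 : Sg f p r ≠ 0) {g : G} :
    g ∈ T F ρ (Sg f p r) ↔ ∀ v, f.B v p = 0 → f.B v r = 0 → ρ g v = v := by
  have hB : ∀ u v, f.B (ρ g u) (ρ g v) = f.B u v := fun u v => by
    rw [f.orth_B, f.orth_B, ← map_add, hQ, hQ, hQ]
  rw [mem_T (Sg_sq hp hr hpr)]
  constructor
  · rintro ⟨c, hc⟩ v h1 h2
    simp [hc, Sg_apply, h1, h2]
  intro h
  obtain ⟨p0, r0⟩ := (Sg_ne_iff hf).1 h0
  have h0' : Sg f r (-p) ≠ 0 := by rwa [Sg_swap']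
  obtain ⟨-, p1⟩ := (Sg_ne_iff hf).1 h0'
  rw [neg_mem_iff] at p1
  obtain ⟨y, y1, y2⟩ := hf.exists_dual p1
  obtain ⟨z, z1, z2⟩ := hf.exists_dual r0
  have y2 := y2 r (Submodule.mem_span_singleton_self r)
  have z2 := z2 p (Submodule.mem_span_singleton_self p)
  have im : ∀ v, ∃ a b : F, ρ g v = v + (a • p + b • r) := fun v => by
    have : ρ g v - v ∈ Submodule.span F ({p, r} : Set V) := by
      rw [← hf.perp_perp (Submodule.span F ({p, r} : Set V)), CForm.mem_perp]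
      intro w hw
      rw [CForm.mem_perp_span] at hw
      rw [CForm.B_sub_left, ← hB v w, h w (hw p (by simp)) (hw r (by simp)), sub_self]
    obtain ⟨a, b, e⟩ := Submodule.mem_span_pair.1 this
    exact ⟨a, b, by rw [e]; abel⟩
  obtain ⟨a, b, ey⟩ := im y
  obtain ⟨c, d, ez⟩ := im z
  have q1 := hQ g y
  have q2 := hQ g z
  have q3 := hB y z
  rw [ey] at q1
  rw [ez] at q2
  rw [ey, ez] at q3
  simp only [CForm.orth_Q_add, CForm.orth_Q_smul, CForm.B_add_left, CForm.B_add_right, CForm.B_smul_left,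
    CForm.B_smul_right, FP.orth_σ, hp, hr, hpr, f.B_zero_symm hpr, f.B_self_of_Q_zero hp,
    f.B_self_of_Q_zero hr, f.orth_B_symm p y, f.orth_B_symm r y, f.orth_B_symm p z, f.orth_B_symm r z,
    y1, y2, z1, z2] at q1 q2 q3
  have a0 : a = 0 := by linear_combination q1
  have d0 : d = 0 := by linear_combination q2
  have cb : c = -b := by linear_combination q3
  refine ⟨b, LinearMap.ext fun v => ?_⟩
  have := h (v - f.B v p • y - f.B v r • z)
    (by simp [CForm.B_sub_left, CForm.B_smul_left, f.orth_B_symm p y, f.orth_B_symm p z, y1, z2])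
    (by simp [CForm.B_sub_left, CForm.B_smul_left, f.orth_B_symm r y, f.orth_B_symm r z, y2, z1])
  rw [map_sub, map_sub, map_smul, map_smul, ey, ez, a0, d0, cb] at this
  simp only [LinearMap.add_apply, LinearMap.smul_apply, Module.End.one_apply, Sg_apply]
  linear_combination (norm := module) this

end CfsgH8.RT
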