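import Mathlib
import Cfsg.Agent.H8.P2a

/-! The rank one Steinberg relations over a finite field. -/

set_option autoImplicit false

namespace CfsgH8

/-- The Steinberg relations of rank one. -/
structure St1 {K Γ : Type*} [Field K] [Group Γ] (x y : K → Γ) : Prop where
  xa : ∀ t u, x t * x u = x (t + u)
  ya : ∀ t u, y t * y u = y (t + u)
  wx : ∀ t u, t ≠ 0 → x t * y (-t⁻¹) * x t * x u * (x t * y (-t⁻¹) * x t)⁻¹ = y (-(t⁻¹ ^ 2 * u))
  wy : ∀ t u, t ≠ 0 → y t * x (-t⁻¹) * y t * y u * (y t * x (-t⁻¹) * y t)⁻¹ = x (-(t⁻¹ ^ 2 * u))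

namespace St1

variable {K Γ : Type*} [Field K] [Group Γ] {x y : K → Γ} {s t u : K}

/-- the Weyl elements. -/
def w (_ : St1 x y) (t : K) : Γ := x t * y (-t⁻¹) * x t

/-- the torus elements. -/
def h (S : St1 x y) (t : K) : Γ := S.w t * S.w (-1)

variable (S : St1 x y)
include S

theorem x0 : x 0 = 1 := by simpa using S.xa 0 0

theorem y0 : y 0 = 1 := by simpa using S.ya 0 0

theorem xn (t : K) : x (-t) = (x t)⁻¹ := eq_inv_of_mul_eq_one_left (by rw [S.xa, neg_add_cancel, S.x0])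

theorem yn (t : K) : y (-t) = (y t)⁻¹ := eq_inv_of_mul_eq_one_left (by rw [S.ya, neg_add_cancel, S.y0])

theorem wn (t : K) : S.w (-t) = (S.w t)⁻¹ := by simp [w, S.xn, S.yn, inv_neg, mul_assoc]

theorem w_x (ht : t ≠ 0) (u : K) : S.w t * x u = y (-(t⁻¹ ^ 2 * u)) * S.w t :=
  mul_inv_eq_iff_eq_mul.1 (S.wx t u ht)

theorem braid (ht : t ≠ 0) : S.w t = y (-t⁻¹) * x t * y (-t⁻¹) := by
  have := S.w_x ht t
  rw [show t⁻¹ ^ 2 * t = t⁻¹ by field_simp] at this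
  exact mul_right_cancel (this.trans (by simp [w, mul_assoc]))

theorem w_y (ht : t ≠ 0) (u : K) : S.w t * y u = x (-(t ^ 2 * u)) * S.w t := by
  have := S.wy (-t⁻¹) u (by simpa)
  rw [inv_neg, inv_inv, neg_neg, ← S.braid ht, neg_sq] at this
  exact mul_inv_eq_iff_eq_mul.1 this

theorem y_eq (t : K) : y (-t⁻¹) = x (-t) * S.w t * x (-t) := by simp [w, S.xn, mul_assoc]

theorem w_w (ht : t ≠ 0) (hu : u ≠ 0) : S.w t * S.w u = S.w (t ^ 2 / u) * S.w t := by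
  rw [S.braid (t := t ^ 2 / u) (by positivity), show (t ^ 2 / u)⁻¹ = t⁻¹ ^ 2 * u by field_simp,
    show t ^ 2 / u = -(t ^ 2 * -u⁻¹) by field_simp, mul_assoc, ← S.w_x ht, mul_assoc, ← mul_assoc (x _), ← S.w_y ht,
    ← mul_assoc, ← mul_assoc, ← S.w_x ht]
  simp [w, mul_assoc]

theorem ww_x (ht : t ≠ 0) (hu : u ≠ 0) (a : K) : S.w t * S.w u * x a = x ((t / u) ^ 2 * a) * (S.w t * S.w u) := by
  rw [mul_assoc, S.w_x hu, ← mul_assoc, S.w_y ht, mul_assoc]
  congr 2; field_simp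

theorem h_x (ht : t ≠ 0) (a : K) : S.h t * x a = x (t ^ 2 * a) * S.h t := by
  rw [h, S.ww_x ht (by simp), div_neg, div_one, neg_sq]

theorem h_y (ht : t ≠ 0) (a : K) : S.h t * y a = y (t⁻¹ ^ 2 * a) * S.h t := by
  rw [h, mul_assoc, S.w_y (by simp), ← mul_assoc, S.w_x ht, mul_assoc]; simp

theorem h_w (ht : t ≠ 0) (u : K) : S.h t * S.w u = S.w (t ^ 2 * u) * S.h t := by
  rw [w, ← mul_assoc, ← mul_assoc, S.h_x ht, mul_assoc _ _ (y _), S.h_y ht, ← mul_assoc, mul_assoc, S.h_x ht, w,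
    mul_inv, mul_neg, inv_pow, ← mul_assoc]

theorem h_one : S.h 1 = 1 := by rw [h, S.wn, mul_inv_cancel]

theorem w_eq (t : K) : S.w t = S.h t * S.w 1 := by rw [h, S.wn, inv_mul_cancel_right]

theorem ww (t u : K) : S.w t * S.w u = S.h t * (S.h (-u))⁻¹ := by simp [h, S.wn, mul_assoc]

theorem five (ht : t ≠ 0) (hu : u ≠ 0) (e : t + u ≠ 0) :
    S.w t * S.w u = S.w (t ^ 2 / (t + u)) * S.w (t * u / (t + u)) := by
  have h1 := S.ya (-t⁻¹) (-u⁻¹)
  rw [show -t⁻¹ + -u⁻¹ = -(t * u / (t + u))⁻¹ by field_simp; ring, S.y_eq, S.y_eq, S.y_eq] at h1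
  have h2 := S.w_x ht (-t + -u)
  rw [show -(t⁻¹ ^ 2 * (-t + -u)) = -(-(t ^ 2 / (t + u)))⁻¹ by field_simp; ring, S.y_eq, neg_neg, ← S.xa] at h2
  have h3 := S.ww_x ht hu (u ^ 2 / (t + u))
  rw [show (t / u) ^ 2 * (u ^ 2 / (t + u)) = t ^ 2 / (t + u) by field_simp] at h3
  have h4 : x (-t) * x (t ^ 2 / (t + u)) = x (-(t * u / (t + u))) := by rw [S.xa]; congr 1; field_simp; ring
  have h5 : x (u ^ 2 / (t + u)) * x (-u) = x (-(t * u / (t + u))) := by rw [S.xa]; congr 1; field_simp; ring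
  rw [← inv_mul_eq_iff_eq_mul, ← S.wn]
  refine mul_left_cancel (a := x (-(t * u / (t + u)))) (mul_right_cancel (b := x (-(t * u / (t + u)))) ?_)
  rw [← h1]
  conv_lhs => rw [← h5]
  calc _ = x (-(t * u / (t + u))) * S.w (-(t ^ 2 / (t + u))) * (S.w t * S.w u * x (u ^ 2 / (t + u))) * x (-u) := by
        rw [h5]; conv_rhs => rw [mul_assoc, mul_assoc _ (x _), h5]
        simp only [mul_assoc]
    _ = x (-t) * (S.w t * (x (-t) * x (-u))) * S.w u * x (-u) := by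
        rw [h3, h2, ← h4]; simp only [mul_assoc]
    _ = _ := by simp only [mul_assoc]

theorem comm [Finite K] (ht : t ≠ 0) (hu : u ≠ 0) : Commute (S.h t) (S.h u) := by
  obtain ⟨g, hg⟩ := IsCyclic.exists_monoid_generator (α := Kˣ)
  have k : ∀ t : K, t ≠ 0 → ∃ (n : ℕ) (z : Γ), S.h t = S.h g ^ n * z ∧ ∀ u, Commute z (S.h u) := fun t ht => by
    obtain ⟨n, hn⟩ := hg (Units.mk0 t ht)
    obtain rfl : (g : K) ^ n = t := by simpa using congrArg Units.val hn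
    have a : ∀ a, S.h g ^ n * x a = x ((g ^ n) ^ 2 * a) * S.h g ^ n ∧
        S.h g ^ n * y a = y (((g : K) ^ n)⁻¹ ^ 2 * a) * S.h g ^ n := by
      clear hn ht
      induction n with
      | zero => simp
      | succ n ih =>
        intro a
        constructor
        · rw [pow_succ, mul_assoc, S.h_x g.ne_zero, ← mul_assoc, (ih _).1, mul_assoc]; congr 2; ring
        · rw [pow_succ, mul_assoc, S.h_y g.ne_zero, ← mul_assoc, (ih _).2, mul_assoc]; congr 2; ring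
    have c : ∀ a, Commute ((S.h g ^ n)⁻¹ * S.h (g ^ n)) (x a) ∧ Commute ((S.h g ^ n)⁻¹ * S.h (g ^ n)) (y a) := fun b =>
      ⟨by rw [Commute, SemiconjBy, mul_assoc, S.h_x ht, inv_mul_eq_iff_eq_mul, ← mul_assoc, (a b).1]; simp [mul_assoc],
        by rw [Commute, SemiconjBy, mul_assoc, S.h_y ht, inv_mul_eq_iff_eq_mul, ← mul_assoc, (a b).2]; simp [mul_assoc]⟩
    have d : ∀ a, Commute ((S.h g ^ n)⁻¹ * S.h (g ^ n)) (S.w a) := fun a =>
      ((c _).1.mul_right (c _).2).mul_right (c _).1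
    exact ⟨n, _, (mul_inv_cancel_left _ _).symm, fun u => (d _).mul_right (d _)⟩
  obtain ⟨m, z, e, c⟩ := k t ht
  obtain ⟨n, z', e', c'⟩ := k u hu
  rw [e]
  refine Commute.mul_left ?_ (c u)
  rw [e']
  exact (Commute.pow_pow_self _ _ _).mul_right ((c' g).symm.pow_left m)

theorem h_sq [Finite K] (ht : t ≠ 0) (hu : u ≠ 0) : S.h (t ^ 2 * u) = S.h (t ^ 2) * S.h u := by
  have : S.h t * S.h u = S.h (t ^ 2 * u) * (S.h (t ^ 2))⁻¹ * S.h t := by
    conv_lhs => rw [h.eq_1 S u, ← mul_assoc, S.h_w ht, mul_assoc, S.h_w ht, ← mul_assoc, S.ww]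
    simp
  rw [(S.comm ht hu).eq, mul_left_inj, eq_mul_inv_iff_mul_eq] at this
  rw [← this, (S.comm hu (pow_ne_zero 2 ht)).eq]

theorem h_mul [Finite K] (ht : t ≠ 0) (hu : u ≠ 0) : S.h (t * u) = S.h t * S.h u := by
  by_cases a : IsSquare t
  · obtain ⟨r, rfl⟩ := a
    rw [← sq, S.h_sq (left_ne_zero_of_mul ht) hu]
  by_cases b : IsSquare u
  · obtain ⟨r, rfl⟩ := b
    rw [← sq, mul_comm, S.h_sq (left_ne_zero_of_mul hu) ht, (S.comm (sq r ▸ hu) ht).eq]
  haveI := Fintype.ofFinite K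
  have h2 : (2 : K) ≠ 0 := fun e => a (FiniteField.isSquare_of_char_two (by
    have : ringChar K ∣ 2 := (ringChar.spec K 2).1 (by exact_mod_cast e)
    exact ((Nat.dvd_prime Nat.prime_two).1 this).resolve_left (CharP.ringChar_ne_one)) t)
  obtain ⟨c, d, e⟩ := exists_norm_reg (s := (0 : K)) (by
    rw [show (0 : K) ^ 2 - 4 = -(2 * 2) by ring]; simpa) t
  have c0 : c ≠ 0 := by rintro rfl; exact a ⟨d, by linear_combination -e⟩
  have d0 : d ≠ 0 := by rintro rfl; exact a ⟨c, by linear_combination -e⟩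
  have e' : t + -c ^ 2 = d ^ 2 := by linear_combination -e
  have f := S.five ht (u := -c ^ 2) (by simpa) (by rw [e']; positivity)
  rw [S.ww, S.ww, e', neg_neg, show -(t * -c ^ 2 / d ^ 2) = (c / d) ^ 2 * t by field_simp, S.h_sq (by positivity) ht,
    mul_inv_eq_iff_eq_mul, ← div_pow] at f
  have k : S.h (t ^ 2) = S.h t * S.h t := by
    have := S.h_sq (t := t / d) (u := c ^ 2) (by positivity) (by positivity)
    rw [show (t / d) ^ 2 * c ^ 2 = (c / d) ^ 2 * t ^ 2 by field_simp, S.h_sq (by positivity) (by positivity)] at this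
    refine mul_left_cancel (this.trans ?_)
    rw [← mul_assoc]
    conv_rhs => enter [2]; rw [f]
    have := ((S.comm (t := (c / d) ^ 2) (u := (t / d) ^ 2) (by positivity) (by positivity)).mul_left
      (S.comm (u := (t / d) ^ 2) ht (by positivity))).eq
    rw [← mul_assoc, ← mul_assoc, this, mul_inv_cancel_right]
  obtain ⟨r, hr⟩ := isSquare_mul_of_not a b
  have r0 : r ≠ 0 := left_ne_zero_of_mul (hr ▸ mul_ne_zero ht hu)
  obtain rfl : u = (r / t) ^ 2 * t := by field_simp; linear_combination hr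
  rw [S.h_sq (by positivity) ht, show t * ((r / t) ^ 2 * t) = (r / t) ^ 2 * t ^ 2 by ring,
    S.h_sq (by positivity) (by positivity), k, ← mul_assoc, ← mul_assoc, (S.comm ht (by positivity)).eq]

theorem w_h [Finite K] (hs : s ≠ 0) (ht : t ≠ 0) : S.w s * S.h t = S.w (s / t) := by
  have : S.w 1 * S.h t = S.h t⁻¹ * S.w 1 := by
    rw [h, ← mul_assoc, S.w_w one_ne_zero ht, h, S.wn]; simp
  rw [S.w_eq, mul_assoc, this, ← mul_assoc, ← S.h_mul hs (inv_ne_zero ht), ← S.w_eq, div_eq_mul_inv]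

theorem ww_h [Finite K] (hs : s ≠ 0) (ht : t ≠ 0) : S.w s * S.w t = S.h (-(s / t)) := by
  rw [S.ww, mul_inv_eq_iff_eq_mul, ← S.h_mul (by simp [hs, ht]) (by simpa)]
  congr 1; field_simp

theorem x_h (ht : t ≠ 0) (a : K) : x a * S.h t = S.h t * x (t⁻¹ ^ 2 * a) := by
  rw [S.h_x ht]; congr 2; field_simp

/-- The Bruhat decomposition. -/
theorem bruhat [Finite K] {g : Γ} (hg : g ∈ Subgroup.closure (Set.range x ∪ Set.range y)) :
    (∃ a t, t ≠ 0 ∧ g = x a * S.h t) ∨ ∃ a t b, t ≠ 0 ∧ g = x a * S.w t * x b := by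
  let P : Γ → Prop := fun g => (∃ a t, t ≠ 0 ∧ g = x a * S.h t) ∨ ∃ a t b, t ≠ 0 ∧ g = x a * S.w t * x b
  have kx : ∀ u g, P g → P (x u * g) := by
    rintro u _ (⟨a, t, h, rfl⟩ | ⟨a, t, b, h, rfl⟩)
    · exact .inl ⟨u + a, t, h, by rw [← mul_assoc, S.xa]⟩
    · exact .inr ⟨u + a, t, b, h, by rw [← S.xa]; simp only [mul_assoc]⟩
  have kw : ∀ s g, s ≠ 0 → P g → P (S.w s * g) := by
    rintro s _ hs (⟨a, t, h, rfl⟩ | ⟨a, t, b, h, rfl⟩)
    · exact .inr ⟨0, s / t, t⁻¹ ^ 2 * a, by positivity, by rw [S.x_h h, ← mul_assoc, S.w_h hs h, S.x0, one_mul]⟩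
    by_cases a0 : a = 0
    · exact .inl ⟨(-(s / t)) ^ 2 * b, -(s / t), by simp [hs, h], by
        rw [a0, S.x0, one_mul, ← mul_assoc, S.ww_h hs h, S.h_x (by simp [hs, h])]⟩
    · have n : -(s / t) ≠ 0 := by simp [hs, h]
      refine .inr ⟨-(s ^ 2 / a), s ^ 2 / a / -(s / t), (-(s / t))⁻¹ ^ 2 * -(s ^ 2 / a) + b, by positivity, ?_⟩
      rw [← mul_assoc, ← mul_assoc, S.w_x hs, show s⁻¹ ^ 2 * a = (s ^ 2 / a)⁻¹ by field_simp, S.y_eq,
        mul_assoc _ (S.w s), S.ww_h hs h, mul_assoc _ (x _), S.x_h n, ← S.xa, ← S.w_h (by positivity) n]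
      simp only [mul_assoc]
  have ky : ∀ u g, P g → P (y u * g) := fun u g hg => by
    have := kw 1 _ one_ne_zero (kx (-u) _ (kw (-1) g (by simp) hg))
    rwa [← mul_assoc, S.w_x one_ne_zero, S.wn, mul_assoc, mul_inv_cancel_left, inv_one, one_pow, one_mul, neg_neg] at this
  induction hg using Subgroup.closure_induction_left with
  | one => exact .inl ⟨0, 1, one_ne_zero, by rw [S.x0, S.h_one, one_mul]⟩
  | mul_left a ha g _ ih => rcases ha with ⟨u, rfl⟩ | ⟨u, rfl⟩; exacts [kx u g ih, ky u g ih]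
  | inv_mul_cancel a ha g _ ih =>
    rcases ha with ⟨u, rfl⟩ | ⟨u, rfl⟩
    exacts [S.xn u ▸ kx _ g ih, S.yn u ▸ ky _ g ih]

end St1

end CfsgH8
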