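import Cfsg.Agent.H8.Mono

/-! The ternary code of length twelve, parametrised. -/

set_option autoImplicit false
set_option maxRecDepth 100000

namespace CfsgH8.TG

open Cfsg Equiv

abbrev V : Type := ZMod 3 × ZMod 3 × ZMod 3 × ZMod 3 × ZMod 3 × ZMod 3

def W6 (a b c d e f : ZMod 3) (p : ArrayPt) : ZMod 3 :=
  ![![a, b, c], ![d, e, a + b + c + 2 * d + 2 * e], ![f, 2 * b + c + 2 * d + e + f, a + 2 * b + d + 2 * e + f],
    ![a + 2 * b + 2 * c + 2 * d + 2 * f, a + c + d + e + 2 * f, 2 * a + 2 * b + c + 2 * e + 2 * f]] p.1 p.2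

def W (v : V) : ArrayPt → ZMod 3 := W6 v.1 v.2.1 v.2.2.1 v.2.2.2.1 v.2.2.2.2.1 v.2.2.2.2.2

def pr (x : ArrayPt → ZMod 3) : V := (x (0, 0), x (0, 1), x (0, 2), x (1, 0), x (1, 1), x (2, 0))

theorem pr_W (v : V) : pr (W v) = v := rfl

theorem W_inj : Function.Injective W := Function.LeftInverse.injective pr_W

theorem tet (t : Fin 4 → ZMod 3) : t ∈ tetracode ↔ ∃ m n : ZMod 3, ![n, m, m + n, m + 2 * n] = t := by
  rw [tetracode, Submodule.mem_span_pair]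
  refine exists₂_congr fun m n => ?_
  rw [show m • (![0, 1, 1, 1] : Fin 4 → ZMod 3) + n • ![1, 0, 1, 2] = ![n, m, m + n, m + 2 * n] by
    funext i; fin_cases i <;> simp [mul_comm]]

theorem W_mem (v : V) : W v ∈ ternaryGolayCode := by
  refine ⟨2 * v.1 + 2 * v.2.1 + 2 * v.2.2.1, ?_, fun t ht => ?_⟩
  · revert v; decide +kernel
  · obtain ⟨m, n, rfl⟩ := (tet t).1 ht
    clear ht
    revert v m n; decide +kernel

theorem sum3 (f : ZMod 3 → ZMod 3) : ∑ r, f r = f 0 + f 1 + f 2 := Fin.sum_univ_three f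

theorem eq_W {x : ArrayPt → ZMod 3} (h : x ∈ ternaryGolayCode) : x = W (pr x) := by
  obtain ⟨s, h1, h2⟩ := h
  have a0 := h1 0
  have a1 := h1 1
  have a2 := h1 2
  have a3 := h1 3
  have b : ∀ m n : ZMod 3, x (0, n) + x (1, m) + x (2, m + n) + x (3, m + 2 * n) = s := fun m n => by
    have := h2 _ ((tet _).2 ⟨m, n, rfl⟩)
    rwa [Fin.sum_univ_four] at this
  have b0 : x (0, 0) + x (1, 0) + x (2, 0) + x (3, 0) = s := b 0 0
  have b1 : x (0, 0) + x (1, 1) + x (2, 1) + x (3, 1) = s := b 1 0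
  have b2 : x (0, 0) + x (1, 2) + x (2, 2) + x (3, 2) = s := b 2 0
  have b3 : x (0, 1) + x (1, 0) + x (2, 1) + x (3, 2) = s := b 0 1
  have b4 : x (0, 1) + x (1, 1) + x (2, 2) + x (3, 0) = s := b 1 1
  have b5 : x (0, 1) + x (1, 2) + x (2, 0) + x (3, 1) = s := b 2 1
  have b6 : x (0, 2) + x (1, 0) + x (2, 2) + x (3, 1) = s := b 0 2
  have b7 : x (0, 2) + x (1, 1) + x (2, 0) + x (3, 2) = s := b 1 2
  have b8 : x (0, 2) + x (1, 2) + x (2, 1) + x (3, 0) = s := b 2 2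
  rw [sum3] at a0 a1 a2 a3
  have t3 : (3 : ZMod 3) = 0 := rfl
  have c1 : x (1, 2) = x (0, 0) + x (0, 1) + x (0, 2) + 2 * x (1, 0) + 2 * x (1, 1) := by
    linear_combination -a0 + a1 + (0 - x (1, 0) - x (1, 1)) * t3
  have c2 : x (2, 1) = 2 * x (0, 1) + x (0, 2) + 2 * x (1, 0) + x (1, 1) + x (2, 0) := by
    linear_combination -a0 + a3 - b0 - b1 - b3 + (0 + x (0, 0) + x (2, 1) - s) * t3
  have c3 : x (2, 2) = x (0, 0) + 2 * x (0, 1) + x (1, 0) + 2 * x (1, 1) + x (2, 0) := by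
    linear_combination a2 - a3 + b0 + b1 + b3 + (0 - x (0, 0) - x (0, 1) - x (1, 0) - x (1, 1) - x (2, 0) - x (2, 1) + s) * t3
  have c4 : x (3, 0) = x (0, 0) + 2 * x (0, 1) + 2 * x (0, 2) + 2 * x (1, 0) + 2 * x (2, 0) := by
    linear_combination a0 + b0 + (0 - x (0, 0) - x (0, 1) - x (0, 2) - x (1, 0) - x (2, 0)) * t3
  have c5 : x (3, 1) = x (0, 0) + x (0, 2) + x (1, 0) + x (1, 1) + 2 * x (2, 0) := by
    linear_combination -a0 - a3 + b0 - b1 + b3 + (0 - x (1, 0) - x (2, 0) + x (3, 1) + s) * t3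
  have c6 : x (3, 2) = 2 * x (0, 0) + 2 * x (0, 1) + x (0, 2) + 2 * x (1, 1) + 2 * x (2, 0) := by
    linear_combination -a0 - a3 + b0 + b1 - b3 + (0 - x (0, 0) - x (1, 1) - x (2, 0) + x (3, 2) + s) * t3
  funext ⟨i, r⟩
  fin_cases i <;> fin_cases r
  exacts [rfl, rfl, rfl, rfl, rfl, c1, rfl, c2, c3, c4, c5, c6]

theorem mem_iff {x : ArrayPt → ZMod 3} : x ∈ ternaryGolayCode ↔ ∃ v, W v = x :=
  ⟨fun h => ⟨_, (eq_W h).symm⟩, fun ⟨v, h⟩ => h ▸ W_mem v⟩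

theorem mem_of {x : ArrayPt → ZMod 3} (h : ∀ p, x p = W (pr x) p) : x ∈ ternaryGolayCode :=
  mem_iff.2 ⟨_, (funext h).symm⟩

theorem ncard_eq (P : (ArrayPt → ZMod 3) → Prop) [DecidablePred P] :
    {x | x ∈ ternaryGolayCode ∧ P x}.ncard = (Finset.univ.filter fun v => P (W v)).card := by
  rw [← Set.ncard_coe_finset, ← Set.ncard_image_of_injective _ W_inj]
  congr 1
  ext x
  simp only [Set.mem_ofPred_eq, mem_iff, Set.mem_image, Finset.coe_filter, Finset.mem_univ, true_and]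
  exact ⟨fun ⟨⟨v, h⟩, h'⟩ => ⟨v, h ▸ h', h⟩, fun ⟨v, h, h'⟩ => ⟨⟨v, h'⟩, h' ▸ h⟩⟩

theorem wt : ∀ v : V, v = 0 ∨ (ternarySupport (W v)).card = 6 ∨ (ternarySupport (W v)).card = 9 ∨
    (ternarySupport (W v)).card = 12 := by decide +kernel

end CfsgH8.TG
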