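import Cfsg.Agent.H5.Orth7
import Cfsg.Agent.H5.Unit2
import Cfsg.Agent.H5.Symp2
import Cfsg.Prelude.Def_FischerSpaces

/-! Classes of transvections and reflections which are 3-transpositions. -/

set_option autoImplicit false

namespace CfsgH8.TV

open CfsgH5 CfsgH5.CForm Module Cfsg Matrix

variable {F : Type*} [Field F] {P : FP F} {V : Type*} [AddCommGroup V] [Module F V] {f : CForm P V}

theorem refl_sq {g : V ≃ₗ[F] V} {d : V} {k : F} (h : f.IsRefl g d k) (hk : P.ε * P.σ k = k) : g * g = 1 := by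
  ext v
  have h1 := f.B_self h.hd
  have h2 := h.hk
  rw [LinearEquiv.mul_apply, h.app, h.app, f.B_sub_left, f.B_smul_left, h1, hk, sub_sub, ← add_smul]
  rw [show k⁻¹ * f.B v d + k⁻¹ * (f.B v d - k⁻¹ * f.B v d * (k + k)) = 0 by field_simp; ring]
  simp

theorem refl_ne [FiniteDimensional F V] (hf : f.Nondeg) {g : V ≃ₗ[F] V} {d : V} {k : F} (h : f.IsRefl g d k)
    (hd : d ≠ 0) : g ≠ 1 := by
  rintro rfl
  obtain ⟨y, hy⟩ := hf.exists_B_eq_one hd
  have := h.app y
  rw [f.B_one_symm hy, eq_comm, LinearEquiv.coe_one, id, sub_eq_self] at this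
  simp [hd, h.hk, P.ε_ne] at this

theorem refl_pair {g g' : V ≃ₗ[F] V} {d e : V} {k : F} (h : f.IsRefl g d k) (h' : f.IsRefl g' e k)
    (hk : P.ε * P.σ k = k) (hB : f.B e d = 0 ∨ f.B e d * f.B d e = k ^ 2) :
    (g * g') ^ 2 = 1 ∨ (g * g') ^ 3 = 1 := by
  have a := refl_sq h hk
  have b := refl_sq h' hk
  have c := h'.conj h.mem_Isom
  rw [inv_eq_of_mul_eq_one_right a] at c
  rcases hB with hB | hB
  · rw [h.fix hB] at c
    left
    rw [sq, ← mul_assoc, c.unique h', b]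
  · right
    have c' := h.conj h'.mem_Isom
    rw [inv_eq_of_mul_eq_one_right b] at c'
    have k0 := h.hk
    have b0 : f.B e d ≠ 0 := fun e => pow_ne_zero 2 k0 (by rw [← hB, e, zero_mul])
    have s1 : P.σ k = P.ε * k := by rw [← hk, P.εε_mul, hk]
    have s2 : P.σ (f.B e d) = P.ε * f.B d e := by rw [f.B_symm e d, P.εε_mul]
    have c2 := c'.smul (l := -(k⁻¹ * f.B e d)) (by simp [k0, b0])
    have e1 : -(k⁻¹ * f.B e d) * P.σ (-(k⁻¹ * f.B e d)) * k = k := by
      have := P.ε_ne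
      rw [map_neg, map_mul, map_inv₀, s1, s2]
      field_simp
      exact hB
    have e2 : -(k⁻¹ * f.B e d) • g' d = g e := by
      rw [h.app, h'.app, smul_sub, smul_smul, show -(k⁻¹ * f.B e d) * (k⁻¹ * f.B d e) = -1 by field_simp; rw [hB]]
      simp [sub_eq_add_neg, add_comm]
    rw [e1, e2] at c2
    have e3 := c.unique c2
    calc (g * g') ^ 3 = (g * g' * g) * (g' * g * g') := by simp only [pow_succ, pow_zero, one_mul, mul_assoc]
      _ = g * (g' * (g * g) * g') * g := by rw [← e3]; simp only [mul_assoc]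
      _ = 1 := by rw [a, mul_one, b, mul_one, a]

theorem tv_class [FiniteDimensional F V] (hf : f.Nondeg) {H : Type*} [Group H] (φ : H →* (V ≃ₗ[F] V))
    (hφ : Function.Injective φ) (hI : ∀ s, φ s ∈ f.Isom) {k : F} (hk : P.ε * P.σ k = k)
    (hB : ∀ β : F, β = 0 ∨ β * (P.ε * P.σ β) = k ^ 2) {D : Set H} (hD : ∀ g, g ∈ D ↔ ∃ d ≠ 0, f.IsRefl (φ g) d k)
    (hne : D.Nonempty)
    (hc : ∀ d e, d ≠ 0 → e ≠ 0 → P.t k = f.Q d → P.t k = f.Q e → ∃ s : H, ∃ l : F, l * P.σ l = 1 ∧ φ s d = l • e)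
    (hgen : ∀ g, φ g ∈ (Subgroup.closure D).map φ) : IsThreeTranspositionClass D := by
  refine ⟨⟨fun g hg => ?_, fun g hg g' hg' => ?_⟩, ?_, eq_top_iff.2 fun g _ => (Subgroup.mem_map_iff_mem hφ).1 (hgen g)⟩
  · obtain ⟨d, h0, h⟩ := (hD g).1 hg
    exact orderOf_eq_prime (hφ (by rw [sq, map_mul, refl_sq h hk, map_one])) fun e => refl_ne hf h h0 (by rw [e, map_one])
  · obtain ⟨d, -, h⟩ := (hD g).1 hg
    obtain ⟨e, -, h'⟩ := (hD g').1 hg'
    exact (refl_pair h h' hk (by rw [f.B_symm e d]; exact hB _)).imp (fun e => hφ (by simpa using e))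
      fun e => hφ (by simpa using e)
  · obtain ⟨g, hg⟩ := hne
    obtain ⟨d, h0, h⟩ := (hD g).1 hg
    refine ⟨g, hg, Set.ext fun g' => ⟨fun hg' => ?_, fun hg' => ?_⟩⟩
    · obtain ⟨e, e0, h'⟩ := (hD g').1 hg'
      obtain ⟨s, l, h1, h2⟩ := hc d e h0 e0 h.hd h'.hd
      have a := h.conj (hI s)
      have b := h'.smul (l := l) (by rintro rfl; simp at h1)
      rw [h1, one_mul, ← h2] at b
      exact isConj_iff.2 ⟨s, hφ (by simpa using a.unique b)⟩
    · obtain ⟨s, rfl⟩ := isConj_iff.1 hg'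
      exact (hD _).2 ⟨φ s d, by simpa using h0, by simpa using h.conj (hI s)⟩

theorem eich_refl {g : V ≃ₗ[F] V} {x : V} {c : F} (h : f.IsEich g x 0 c) : g = 1 ∨ x ≠ 0 ∧ ∃ k, f.IsRefl g x k := by
  by_cases hx : x = 0
  · exact Or.inl (hx ▸ h).eq_one_of_x_zero
  by_cases hc : c = 0
  · left; ext v; simp [h.app, hc]
  refine Or.inr ⟨hx, P.ε * c⁻¹, by simp [hc, P.ε_ne], ?_, fun v => ?_⟩
  · rw [h.hx, P.t_ε_inv (h.hc.trans f.Q_zero)]
  · rw [h.app, show (P.ε * c⁻¹)⁻¹ = P.ε * c by rw [mul_inv, inv_inv, inv_eq_of_mul_eq_one_right P.εε]]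
    simp

theorem rank_iff {ι : Type} [Fintype ι] [DecidableEq ι] {f : CForm P (ι → F)} (hf : f.Nondeg)
    {g : (ι → F) ≃ₗ[F] (ι → F)} (hg : g ∈ f.Isom) {M : Matrix ι ι F} (hM : ∀ v, g v = M *ᵥ v) :
    (M - 1).rank = 1 ↔ ∃ d ≠ 0, ∃ k, f.IsRefl g d k := by
  have e : ∀ v, (M - 1).mulVecLin v = g v - v := fun v => by simp [hM, sub_mulVec]
  rw [Matrix.rank]
  constructor
  · intro h
    obtain ⟨⟨d, y, hy⟩, h0, h1⟩ := finrank_eq_one_iff'.1 h
    have d0 : d ≠ 0 := fun e => h0 (Subtype.ext e)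
    have h2 : ∀ v, ∃ c : F, g v = v + c • d := fun v => by
      obtain ⟨c, hc⟩ := h1 ⟨_, v, rfl⟩
      exact ⟨c, by rw [show c • d = (M - 1).mulVecLin v from congrArg Subtype.val hc, e]; simp⟩
    choose c hc using h2
    have h3 : ∀ u v, c u * f.B d v + P.σ (c v) * f.B u d + c u * P.σ (c v) * f.B d d = 0 := fun u v => by
      have := f.Isom_B hg u v
      rw [hc u, hc v] at this
      simp only [f.B_add_left, f.B_add_right, f.B_smul_left, f.B_smul_right] at this
      linear_combination this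
    have y1 : c y = 1 := by
      have := hc y
      rw [e, sub_eq_iff_eq_add'] at hy
      rw [hy, add_right_inj] at this
      exact (smul_left_injective F d0 ((one_smul _ _).trans this)).symm
    have h4 : ∀ u, f.B u d = -(f.B d y + f.B d d) * c u := fun u => by
      have := h3 u y
      rw [y1, map_one] at this
      linear_combination this
    have k0 : f.B d y + f.B d d ≠ 0 := fun e => d0 (hf d fun u => by rw [h4, e]; simp)
    refine ⟨d, d0, f.B d y + f.B d d, k0, ?_, fun v => ?_⟩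
    · have := f.Isom_Q hg y
      rw [hc y, y1, one_smul, f.Q_add, h4, y1, mul_one, map_neg] at this
      linear_combination -this
    · rw [hc v, h4 v, sub_eq_add_neg, ← neg_smul]
      congr 2
      field_simp
  · rintro ⟨d, d0, k, h⟩
    suffices (M - 1).mulVecLin.range = F ∙ d by rw [this, finrank_span_singleton d0]
    refine le_antisymm ?_ ((Submodule.span_singleton_le_iff_mem _ _).2 ?_)
    · rintro _ ⟨v, rfl⟩
      rw [e, h.app, sub_sub_cancel_left]
      exact neg_mem (Submodule.smul_mem _ _ (Submodule.mem_span_singleton_self d))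
    · obtain ⟨y, hy⟩ := hf.exists_B_eq_one d0
      refine ⟨-(k * P.ε) • y, ?_⟩
      have := h.hk
      rw [e, h.app, sub_sub_cancel_left, f.B_smul_left, f.B_one_symm hy,
        show k⁻¹ * (-(k * P.ε) * P.ε) = -1 by rw [neg_mul, mul_assoc, P.εε]; field_simp]
      simp

end CfsgH8.TV
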