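import Cfsg.Agent.H8.TV

/-! Orthogonal transvections over the field with two elements. -/

set_option autoImplicit false

namespace CfsgH8.TV

open CfsgH5 CfsgH5.CForm Module Cfsg Matrix

theorem z2 : ∀ x : ZMod 2, x = 0 ∨ x = 1 := by decide

theorem orth2 {ι : Type} [Fintype ι] [DecidableEq ι] (Q : QuadraticForm (ZMod 2) (ι → ZMod 2))
    (hf : (ofQuad Q).Nondeg) (h5 : 5 ≤ Fintype.card ι) :
    IsThreeTranspositionClass {g : isometryGroup (ZMod 2) ⇑Q |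
      (((g : GL ι (ZMod 2)) : Matrix ι ι (ZMod 2)) - 1).rank = 1} := by
  have hr : finrank (ZMod 2) (ι → ZMod 2) = Fintype.card ι := Module.finrank_fintype_fun_eq_card _
  have hD : ∀ g : isometryGroup (ZMod 2) ⇑Q, (((g : GL ι (ZMod 2)) : Matrix ι ι (ZMod 2)) - 1).rank = 1 ↔
      ∃ d ≠ 0, (ofQuad Q).IsRefl (orthEquiv Q g) d 1 := fun g => by
    rw [rank_iff hf (orthEquiv Q g).2 (orthEquiv_apply Q g)]
    exact exists_congr fun d => and_congr_right fun _ =>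
      ⟨fun ⟨k, h⟩ => (z2 k).resolve_left h.hk ▸ h, fun h => ⟨1, h⟩⟩
  have hm : ∀ d, (ofQuad Q).Q d ≠ 0 → ∃ g : isometryGroup (ZMod 2) ⇑Q,
      (((g : GL ι (ZMod 2)) : Matrix ι ι (ZMod 2)) - 1).rank = 1 ∧ (orthEquiv Q g).1 = (ofQuad Q).rf d := fun d hd => by
    refine ⟨(orthEquiv Q).symm ⟨_, rf_mem d⟩, (hD _).2 ⟨d, fun e => hd (by rw [e, Q_zero]), ?_⟩, by simp⟩
    rw [MulEquiv.apply_symm_apply]
    exact (z2 _).resolve_left hd ▸ isRefl_rf hd
  refine tv_class hf ((ofQuad Q).Isom.subtype.comp (orthEquiv Q).toMonoidHom)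
    (Subtype.val_injective.comp (orthEquiv Q).injective) (fun s => (orthEquiv Q s).2) (k := 1) (by simp)
    (fun β => (z2 β).imp id fun e => by simp [e]) hD ?_ (fun d e hd he h1 h2 => ?_) fun g => ?_
  · obtain ⟨d, hd⟩ := orth_exists_Q_ne hf (by omega)
    obtain ⟨g, hg, -⟩ := hm d hd
    exact ⟨g, hg⟩
  · obtain ⟨s, hs, h⟩ := witt_one hf hd he (h2.symm.trans h1)
    exact ⟨(orthEquiv Q).symm ⟨s, hs⟩, 1, by simp, by simpa using h⟩
  · refine Isom_le_of_rf hf (split_of_finrank hf (by omega)) (fun d hd => ?_) (orthEquiv Q g).2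
    obtain ⟨g, hg, h⟩ := hm d hd
    exact ⟨g, Subgroup.subset_closure hg, h⟩

end CfsgH8.TV
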