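import Cfsg.Agent.H8.TV

/-! Reflections of a fixed norm in odd characteristic. -/

set_option autoImplicit false

namespace CfsgH8.TV

open CfsgH5 CfsgH5.CForm Module Cfsg Matrix

section
variable {F : Type*} [Field F] {V : Type*} [AddCommGroup V] [Module F V] {f : CForm (FP.orth F) V}

theorem E_le_refl [Finite F] [FiniteDimensional F V] (hf : f.Nondeg) (h2 : (2 : F) ≠ 0) (h5 : 5 ≤ finrank F V)
    {c : F} (hc : c ≠ 0) : f.E ≤ Subgroup.closure {g | ∃ v, f.Q v = c ∧ g = f.rf v} := by
  set S := Subgroup.closure {g | ∃ v, f.Q v = c ∧ g = f.rf v}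
  obtain ⟨x, y, h⟩ := orth_exists_hyp hf (by omega)
  have hr := rich_of_finrank hf (by omega)
  haveI : (S.subgroupOf f.E).Normal := ⟨fun g hg s => by
    have : S ≤ S.comap (MulAut.conj s.1).toMonoidHom := (Subgroup.closure_le _).2 (by
      rintro _ ⟨v, hv, rfl⟩
      exact Subgroup.subset_closure ⟨s.1 v, (f.Isom_Q (E_le_Isom s.2) v).trans hv, rf_conj (E_le_Isom s.2) v⟩)
    exact this hg⟩
  rcases E_normal_subgroup hf hr (rich2_of_finrank hf h5) h (orth_perfect hf h5) (S.subgroupOf f.E) with h1 | h1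
  · exfalso
    obtain ⟨⟨w, hw⟩, w0, wQ⟩ := orth_exists_sing (f.res (f.perp (Submodule.span F {x, y}))) (by
      classical
      have a := hf.finrank_perp (Submodule.span F {x, y})
      have b := finrank_span_finset_le_card (R := F) ({x, y} : Finset V)
      have c := Finset.card_le_two (a := x) (b := y)
      rw [Set.finrank, Finset.coe_pair] at b
      omega)
    have w1 := f.mem_perp_span.1 hw x (by simp)
    have w2 := f.mem_perp_span.1 hw y (by simp)
    rw [res_Q] at wQ
    have a1 : f.Q (c • x + y) = c := by simpa using h.Q_comb₀ c 1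
    have w3 : f.B w (c • x + y) = 0 := by rw [f.B_add_right, f.B_smul_right, w1, w2]; simp
    have w4 : f.B w (c • x + y + w) = 0 := by rw [f.B_add_right, w3, f.B_self_of_Q_zero wQ, add_zero]
    have a2 : f.Q (c • x + y + w) = c := by rw [f.Q_add_of_perp (f.B_zero_symm w3), a1, wQ, add_zero]
    generalize c • x + y = a at *
    obtain ⟨l, hl⟩ := (mem_center_iff_scalar hf hr h le_rfl E_le_Isom).1
      (h1 (x := ⟨_, h.rf_mul_rf_mem_E hf (by omega) (a1 ▸ hc) (a2.trans a1.symm)⟩)
        (S.mul_mem (Subgroup.subset_closure ⟨_, a1, rfl⟩) (Subgroup.subset_closure ⟨_, a2, rfl⟩)))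
    have w0' : w ≠ 0 := fun e => w0 (Subtype.ext e)
    have l1 := hl w
    have l2 := hl (a + w)
    rw [LinearEquiv.mul_apply, rf_fix w4, rf_fix w3] at l1
    rw [LinearEquiv.mul_apply, rf_self (a2 ▸ hc), map_neg, map_add, rf_self (a1 ▸ hc), rf_fix w3,
      ← smul_left_injective F w0' ((one_smul _ _).trans l1), one_smul] at l2
    have : (2 : F) • w = 0 := by linear_combination (norm := module) -l2
    simp [h2, w0'] at this
  · exact Subgroup.subgroupOf_eq_top.1 h1

end

variable {F : Type*} [Field F] {ι : Type} [Fintype ι] [DecidableEq ι] (Q : QuadraticForm F (ι → F))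

theorem E_le_R [Finite F] (hf : (ofQuad Q).Nondeg) (h2 : (2 : F) ≠ 0) (h5 : 5 ≤ Fintype.card ι) {c : F} (hc : c ≠ 0)
    {g : isometryGroup F ⇑Q} (hg : (orthEquiv Q g).1 ∈ (ofQuad Q).E) : g ∈ reflectionSubgroup ⇑Q c := by
  have : Subgroup.closure {g | ∃ v, (ofQuad Q).Q v = c ∧ g = (ofQuad Q).rf v} ≤
      (reflectionSubgroup ⇑Q c).map ((ofQuad Q).Isom.subtype.comp (orthEquiv Q).toMonoidHom) :=
    (Subgroup.closure_le _).2 (by
      rintro _ ⟨v, hv, rfl⟩
      exact ⟨(orthEquiv Q).symm ⟨_, rf_mem v⟩, Subgroup.subset_closure ⟨v, hv, orthEquiv_symm_rf Q v⟩, by simp⟩)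
  exact (Subgroup.mem_map_iff_mem (Subtype.val_injective.comp (orthEquiv Q).injective)).1
    (this (E_le_refl hf h2 (by rwa [Module.finrank_fintype_fun_eq_card]) hc hg))

end CfsgH8.TV
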