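import Cfsg.Agent.H8.Za13
import Cfsg.Agent.L0.Count

/-! Counting in Zassenhaus groups. -/

set_option autoImplicit false
open Subgroup Cfsg CfsgH2 CfsgH1 CfsgH3 CfsgRO Function MulAction

namespace CfsgH8.Za

variable {G Ω : Type*} [Group G] [MulAction G Ω] {a b c : Ω} {K : Subgroup G} {w : G}

local notation "L" => stabilizer G a
local notation "H" => HH G a b

variable [Finite G]

theorem ZK.card_der (h : ZK a b K) :
    2 * Nat.card {g : G // ∀ c : Ω, g • c ≠ c} + o[K] * o[K] = Nat.card G + o[K] := by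
  classical
  haveI := h.finΩ
  haveI := Fintype.ofFinite Ω
  haveI := Fintype.ofFinite G
  haveI := h.toZT.pretrans
  have cΩ : Fintype.card Ω = o[K] + 1 := by rw [← h.card_Ω', Nat.card_eq_fintype_card]
  let f : G → ℕ := fun g => (Finset.univ.filter fun x : Ω => g • x = x).card
  have st : ∀ x : Ω, o[stabilizer G x] = o[K] * o[H] := fun x => by
    have := (stabilizer G x).card_mul_index
    rw [index_stabilizer_of_transitive, h.card_Ω', h.card_G, mul_comm] at this
    exact Nat.eq_of_mul_eq_mul_left (Nat.succ_pos _) this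
  have cs : ∀ X : Subgroup G, ∑ g : G, (if g ∈ X then 1 else 0) = o[X] := fun X => by
    rw [Finset.sum_boole, Nat.card_eq_fintype_card, Fintype.card_subtype]; simp
  have s1 : ∑ g, f g = Nat.card G := by
    simp only [f, Finset.card_filter]
    have : ∀ x : Ω, ∑ g : G, (if g • x = x then 1 else 0) = o[K] * o[H] := fun x => by
      rw [← st x, ← cs]
      exact Finset.sum_congr rfl fun g _ => by simp
    rw [Finset.sum_comm, h.card_G, Finset.sum_congr rfl fun x _ => this x]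
    simp [cΩ]
  have s2 : ∑ g, f g * f g = 2 * Nat.card G := by
    simp only [f, Finset.card_filter, Finset.sum_mul_sum]
    rw [Finset.sum_comm, Finset.sum_congr rfl fun x _ => Finset.sum_comm]
    have : ∀ x : Ω, ∑ y : Ω, ∑ g : G, (if g • x = x then 1 else 0) * (if g • y = y then 1 else 0) =
        2 * (o[K] * o[H]) := fun x => by
      have e : ∀ y : Ω, ∑ g : G, (if g • x = x then 1 else 0) * (if g • y = y then 1 else 0) =
          o[HH G x y] := fun y => by
        rw [← cs]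
        exact Finset.sum_congr rfl fun g _ => by
          by_cases h1 : g • x = x <;> by_cases h2 : g • y = y <;> simp [mem_HH, h1, h2]
      rw [Finset.sum_congr rfl fun y _ => e y, ← Finset.add_sum_erase _ _ (Finset.mem_univ x),
        Finset.sum_congr rfl fun y hy => h.toZT.card_HH h.ne (Finset.ne_of_mem_erase hy).symm, HH,
        inf_idem, st]
      simp [cΩ, two_mul]
    rw [Finset.sum_congr rfl fun x _ => this x, h.card_G]
    simp [cΩ]; ring
  have s3 : ∀ g, f g * f g + 2 + (if g = 1 then o[K] else 0) = 3 * f g +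
      (2 * (if ∀ c : Ω, g • c ≠ c then 1 else 0) + if g = 1 then o[K] * o[K] else 0) := fun g => by
    by_cases g1 : g = 1
    · have : ¬ ∀ c : Ω, g • c ≠ c := fun e => e a (by simp [g1])
      rw [if_neg this]
      simp only [f, g1, one_smul, Finset.filter_true, Finset.card_univ, cΩ, if_true]
      ring
    have l : f g ≤ 2 := by
      by_contra l
      obtain ⟨x, hx, y, hy, z, hz, a1, a2, a3⟩ := Finset.two_lt_card.1 (not_le.1 l)
      simp only [Finset.mem_filter] at hx hy hz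
      exact g1 (h.three g x y z a1 a3 a2 hx.2 hy.2 hz.2)
    have : (∀ c : Ω, g • c ≠ c) ↔ f g = 0 := by simp [f, Finset.filter_eq_empty_iff]
    simp only [g1, this, if_false]
    generalize f g = m at *
    interval_cases m <;> simp
  have s4 := Finset.sum_congr rfl fun g (_ : g ∈ Finset.univ) => s3 g
  simp only [Finset.sum_add_distrib, ← Finset.mul_sum, s1, s2, Finset.sum_ite_eq', Finset.mem_univ,
    if_true, Finset.sum_const, Finset.card_univ, smul_eq_mul, Finset.sum_boole, Nat.cast_id] at s4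
  rw [Nat.card_eq_fintype_card, Fintype.card_subtype]
  rw [← Nat.card_eq_fintype_card] at s4
  omega

theorem ZK.two_der (h : ZK a b K) (h0 : H ≠ ⊥) (ho : Odd o[H]) (inv : ∀ x y : Ω, x ≠ y → ∀ v : G,
    v • x = y → v • y = x → ∀ g ∈ HH G x y, v * g * v⁻¹ = g⁻¹) :
    ∃ x y : G, (∀ c : Ω, x • c ≠ c) ∧ (∀ c : Ω, y • c ≠ c) ∧ ¬ IsConj x y := by
  by_contra ne
  push Not at ne
  have e1 := h.card_der
  have e2 := h.card_G
  have p1 := (one_lt_card_iff_ne_bot _).2 h0
  have p2 := (one_lt_card_iff_ne_bot _).2 (h.ker_ne h0)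
  obtain ⟨⟨x, hx⟩⟩ : Nonempty {g : G // ∀ c : Ω, g • c ≠ c} := by
    by_contra e
    rw [not_nonempty_iff] at e
    rw [Nat.card_of_isEmpty] at e1
    nlinarith [Nat.mul_le_mul_left (o[K] * o[K]) p1]
  have e3 := CfsgL0.card_isConj_mul x
  rw [Nat.card_congr (Equiv.subtypeEquivRight (q := fun g : G => ∀ c : Ω, g • c ≠ c) fun g =>
    ⟨fun e c => by
      obtain ⟨k, rfl⟩ := isConj_iff.1 e
      rw [mul_smul, mul_smul, Ne, ← eq_inv_smul_iff]
      exact hx _, ne x g hx⟩)] at e3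
  have e4 : o[C1[x]] ∣ o[K] + 1 := by
    haveI := h.finΩ
    rw [← h.card_Ω']
    refine card_dvd_of_semiregular fun y c e => by_contra fun y1 => ?_
    have e5 : y.1 • x • c = x • c := by rw [← mul_smul, mc1.1 y.2, mul_smul]; exact congrArg _ e
    have y2 : y.1 ≠ 1 := fun e => y1 (Subtype.ext e)
    have hy : y.1 ∈ HH G c (x • c) := ⟨e, e5⟩
    have e6 : x • x • c = c := (h.toZT.fix_H (hx c).symm hy y2 (by
      rw [← mul_smul, mc1.1 y.2, mul_smul, e5])).resolve_right (hx _)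
    have e7 := inv c _ (hx c).symm x rfl e6 y hy
    rw [← mc1.1 y.2, mul_inv_cancel_right] at e7
    have e8 : orderOf y.1 ∣ 2 := orderOf_dvd_of_pow_eq_one (by rw [sq]; nth_rw 1 [e7]; simp)
    exact y2 (orderOf_eq_one_iff.1 (Nat.eq_one_of_dvd_coprimes (Nat.coprime_two_right.2 ho)
      (h.toZT.dvd_of_fix h.ne (hx c).symm e e5) e8))
  obtain ⟨m, hm⟩ := e4
  obtain ⟨f, hf⟩ := ho
  generalize Nat.card {g : G // ∀ c : Ω, g • c ≠ c} = D at *
  generalize o[C1[x]] = c at *
  generalize o[K] = n at *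
  rw [hf] at e2 p1
  have e5 : D = n * ((n + 1) * f + 1) := by nlinarith
  have c0 : 0 < c := Nat.pos_of_ne_zero (by rintro rfl; omega)
  have e6 : (n + 1) * f + 1 = m * (2 * f + 1) := by
    refine Nat.eq_of_mul_eq_mul_left (Nat.mul_pos (by omega : 0 < n) c0) ?_
    rw [e5, e2] at e3
    calc _ = n * ((n + 1) * f + 1) * c := by ring
      _ = _ := by rw [e3, hm]; ring
  obtain rfl : m = 1 := Nat.eq_one_of_dvd_one ((Nat.dvd_add_right
    (hm ▸ (dvd_mul_left m c).mul_right f : m ∣ (n + 1) * f)).1 (e6 ▸ dvd_mul_right _ _))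
  nlinarith

theorem ZI.suz (h : ZI a (w • a) K w) (hZ : IsZassenhausGroup G Ω)
    (hd : 2 * o[HH G a (w • a)] < o[K] - 1) : Even o[K] := by
  obtain ⟨k, hk⟩ := exists_card_eq_pow ((Za.feit hZ h.toZK).resolve_left hd.not_ge).1
  rw [hk] at hd ⊢
  exact Nat.even_pow.2 ⟨even_two, by rintro rfl; simp at hd⟩

theorem ZI.card_I (h : ZI a (w • a) K w) (he : Even o[K]) :
    Nat.card (involutionsIn (SetLike.coe L)) = o[HH G a (w • a)] :=
  (h.toZK.ro h.ww he).card_K.symm.trans (Nat.card_congr (Equiv.subtypeEquivRight fun x =>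
    ⟨fun e => e.1, fun e => ⟨e, h.inv x e⟩⟩))

theorem ZI.card_inv (h : ZI a (w • a) K w) (he : Even o[K]) :
    Nat.card {x : G // orderOf x = 2} = o[HH G a (w • a)] * (o[K] + 1) := by
  haveI := Fintype.ofFinite G
  haveI := Fintype.ofFinite L
  have := CfsgL0.card_subtype_or (p := fun x : G => x ∉ L ∧ x * x = 1)
    (q := fun x => x ∈ involutionsIn (SetLike.coe L)) fun x h1 h2 => h1.1 h2.1
  rw [h.card_out, h.toZK.card_L] at this
  rw [mul_add, mul_one, mul_comm, ← h.card_I he]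
  refine Eq.trans (Nat.card_congr (Equiv.subtypeEquivRight fun x => ⟨fun e => ?_, fun e => ?_⟩))
    (this.trans (by rw [h.card_I he]))
  · by_cases hx : x ∈ L
    exacts [Or.inr ⟨hx, ne_of_ord e, sq_of_ord e⟩, Or.inl ⟨hx, sq_of_ord e⟩]
  · exact orderOf_eq_prime (by rw [sq]; exact e.elim (·.2) (·.2.2))
      (e.elim (fun e e' => e.1 (e' ▸ one_mem _)) (·.2.1))

theorem ZI.inv_of_mul (h : ZI a (w • a) K w) (he : Even o[K]) (pg : IsPGroup 2 K) {x y : G}
    (hx : orderOf x = 2) (hy : orderOf y = 2) (hu : x * y ∈ K) : x * y * (x * y) = 1 := by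
  by_contra e
  have := (h.toZK.ro h.ww he).odd_cent_real (h.r2 he) (ne_of_ord hx) (sq_of_ord hx) (sq_of_ord hy) e
  rw [eq_one_of_coprime_order pg hu (Nat.coprime_two_right.2 (this.of_dvd_nat
    (Subgroup.orderOf_dvd_natCard _ (mc1.2 rfl))))] at e
  exact e (mul_one 1)

theorem ZI.classes (h : ZI a (w • a) K w) (he : Even o[K]) (pg : IsPGroup 2 K) :
    o[HH G a (w • a)] ≤ Nat.card {C : ConjClasses G // ∀ g : G, ConjClasses.mk g = C → g ∉ K} := by
  classical
  haveI := Fintype.ofFinite G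
  have ro := h.toZK.ro h.ww he
  let J := Finset.univ.filter fun x : G => orderOf x = 2
  have cJ : J.card = o[HH G a (w • a)] * (o[K] + 1) := by
    rw [← h.card_inv he, Nat.card_eq_fintype_card, Fintype.card_subtype]
  let P := (J ×ˢ J).filter fun p => ¬ p.1 * p.2 = p.2 * p.1
  have c1 : ((J ×ˢ J).filter fun p => p.1 * p.2 = p.2 * p.1).card ≤ o[HH G a (w • a)] * J.card := by
    refine Finset.card_le_mul_card_image_of_maps_to (f := Prod.fst)
      (fun p hp => (Finset.mem_product.1 (Finset.mem_filter.1 hp).1).1) _ fun x hx => ?_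
    have ox := (Finset.mem_filter.1 hx).2
    obtain ⟨g, hg⟩ := ro.inv_fix (ne_of_ord ox) (sq_of_ord ox)
    rw [← h.card_I he, Nat.card_coe_set_eq, ← Set.ncard_coe_finset]
    refine Set.ncard_le_ncard_of_injOn (fun p => g * p.2 * g⁻¹) (fun p hp => ?_) fun p hp q hq e => ?_
    · simp only [Finset.coe_filter, Finset.mem_filter, Finset.mem_product, J, Set.mem_ofPred_eq] at hp
      obtain ⟨⟨⟨-, -, o2⟩, e⟩, rfl⟩ := hp
      exact ⟨ro.cent_le (ro.I_Q hg) hg.2.1 (mc1.2 (by rw [conj_mul, conj_mul, e])),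
        conj_ne_one (ne_of_ord o2), by rw [conj_mul, sq_of_ord o2]; simp⟩
    · exact Prod.ext ((Finset.mem_filter.1 hp).2.trans (Finset.mem_filter.1 hq).2.symm) (by simpa using e)
  have mP : ∀ p ∈ P, orderOf p.1 = 2 ∧ orderOf p.2 = 2 ∧ ¬ p.1 * p.2 = p.2 * p.1 := fun p hp => by
    simp only [P, J, Finset.mem_filter, Finset.mem_product, Finset.mem_univ, true_and] at hp
    exact ⟨hp.1.1, hp.1.2, hp.2⟩
  have inv : ∀ {x : G}, orderOf x = 2 → x⁻¹ = x := fun e => inv_eq_of_mul_eq_one_left (sq_of_ord e)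
  have iv : ∀ p ∈ P, p.1 * (p.1 * p.2) * p.1⁻¹ = (p.1 * p.2)⁻¹ := fun p hp => by
    rw [← mul_assoc, sq_of_ord (mP p hp).1, one_mul, mul_inv_rev, inv (mP p hp).2.1]
  have c2 : P.card ≤ Nat.card G * (P.image fun p => ConjClasses.mk (p.1 * p.2)).card := by
    refine Finset.card_le_mul_card_image _ _ fun C hC => ?_
    obtain ⟨q, hq, rfl⟩ := Finset.mem_image.1 hC
    have : ∀ c : G, IsConj (q.1 * q.2) c → ∃ k : G, k * (q.1 * q.2) * k⁻¹ = c := fun c => isConj_iff.1
    choose! k hk using this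
    rw [Nat.card_eq_fintype_card]
    have key : ∀ p ∈ P.filter fun p => ConjClasses.mk (p.1 * p.2) = ConjClasses.mk (q.1 * q.2),
        p.1 * k (p.1 * p.2) * q.1 * (q.1 * q.2) * (p.1 * k (p.1 * p.2) * q.1)⁻¹ = p.1 * p.2 :=
      fun p hp => by
        obtain ⟨h1, h2⟩ := Finset.mem_filter.1 hp
        calc _ = p.1 * (k (p.1 * p.2) * (q.1 * (q.1 * q.2) * q.1⁻¹) * (k (p.1 * p.2))⁻¹) * p.1⁻¹ := by
              group
          _ = _ := by
            rw [iv q hq, conj_inv.symm, hk _ (ConjClasses.mk_eq_mk_iff_isConj.1 h2.symm), conj_inv.symm,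
              iv p h1, inv_inv]
    refine Finset.card_le_card_of_injOn (fun p => p.1 * k (p.1 * p.2) * q.1)
      (fun _ _ => Finset.mem_univ _) fun p hp r hr e => ?_
    have e1 : p.1 * p.2 = r.1 * r.2 := by rw [← key p hp, ← key r hr]; simp only at e; rw [e]
    have e2 : p.1 = r.1 := by simpa [e1] using e
    exact Prod.ext e2 (by simpa [e2] using e1)
  have c3 : (P.image fun p => ConjClasses.mk (p.1 * p.2)).card ≤
      Nat.card {C : ConjClasses G // ∀ g : G, ConjClasses.mk g = C → g ∉ K} := by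
    rw [← Set.ncard_coe_finset]
    refine Set.ncard_le_ncard (t := {C | ∀ g : G, ConjClasses.mk g = C → g ∉ K}) fun C hC g e hg => ?_
    obtain ⟨p, hp, rfl⟩ := Finset.mem_image.1 hC
    obtain ⟨k, rfl⟩ := isConj_iff.1 (ConjClasses.mk_eq_mk_iff_isConj.1 e.symm)
    obtain ⟨o1, o2, ne⟩ := mP p hp
    have := h.inv_of_mul he pg ((CfsgH2.orderOf_conj' k _).trans o1) ((CfsgH2.orderOf_conj' k _).trans o2)
      (by rwa [conj_mul])
    rw [conj_mul, conj_mul, conj_eq_one_iff] at this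
    exact ne (by rw [eq_inv_of_mul_eq_one_left this, mul_inv_rev, inv o1, inv o2])
  have c4 := Finset.card_filter_add_card_filter_not (s := J ×ˢ J) fun p => p.1 * p.2 = p.2 * p.1
  rw [Finset.card_product, cJ] at c4
  rw [cJ] at c1
  have c5 := h.toZK.card_G
  refine Nat.le_of_mul_le_mul_left ?_ (Nat.card_pos (α := G))
  refine le_trans ?_ (c2.trans (Nat.mul_le_mul_left _ c3))
  rw [c5]
  change _ + P.card = _ at c4
  nlinarith

theorem inv_simple [IsSimpleGroup G] (hZ : IsZassenhausGroup G Ω) (hab : a ≠ b) (ho : Odd o[H])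
    (x y : Ω) (hxy : x ≠ y) (v : G) (h1 : v • x = y) (h2 : v • y = x) :
    ∀ g ∈ HH G x y, v * g * v⁻¹ = g⁻¹ := by
  obtain ⟨K, h⟩ := (ZT.of hZ).exists_K hxy
  obtain ⟨w, hw⟩ := h.exists_ZI (HH_ne hZ hxy) (h.toZT.card_HH hab hxy ▸ ho)
  exact inv_all hw.wa hw.wb hw.inv h1 h2

end CfsgH8.Za
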