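import Cfsg.Agent.H8.Zsig

/-! Size of the primitive part of `a ^ n - 1`. -/

set_option autoImplicit false
open Polynomial Finset

namespace CfsgH8

variable {a n d r k m : ℕ}

theorem Ph_struct (ha : 1 < a) (hn : 3 ≤ n) :
    ∃ c M, Ph n a = c * M ∧ c ≤ n ∧ ∀ s : ℕ, s.Prime → s ∣ M → orderOf (a : ZMod s) = n := by
  by_cases H : ∀ s : ℕ, s.Prime → s ∣ Ph n a → orderOf (a : ZMod s) = n
  · exact ⟨1, _, (one_mul _).symm, by omega, H⟩
  push Not at H
  have D : ∀ r : ℕ, r.Prime → r ∣ Ph n a → orderOf (a : ZMod r) ≠ n →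
      ∃ k m, n = r ^ (k + 1) * m ∧ m ∣ r - 1 ∧ orderOf (a : ZMod r) = m := by
    intro r hr h H
    obtain ⟨k, m, hm, e⟩ := Nat.exists_eq_pow_mul_and_not_dvd (by omega : n ≠ 0) r hr.ne_one
    have o := Ph_ord ha hr hm (e ▸ h)
    obtain _ | k := k
    · exact absurd (by simpa [e] using o) H
    · exact ⟨k, m, e, o ▸ ord_dvd_sub hr (o ▸ Nat.pos_of_ne_zero fun z => hm (z ▸ dvd_zero r)), o⟩
  obtain ⟨r, hr, hd, hro⟩ := H
  obtain ⟨k, m, e, hm, o⟩ := D r hr hd hro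
  have r2 := hr.two_le
  have big : ∀ {r k m s : ℕ}, r.Prime → s.Prime → m ∣ r - 1 → s ∣ r ^ (k + 1) * m → s ≤ r := fun hr hs hm h =>
    (hs.dvd_mul.1 h).elim (fun h => Nat.le_of_dvd hr.pos (hs.dvd_of_dvd_pow h))
      fun h => (Nat.le_of_dvd (by have := hr.two_le; omega) (h.trans hm)).trans (Nat.sub_le _ _)
  have m0 : 0 < m := Nat.pos_of_ne_zero fun z => by simp [z] at e; omega
  have g := Ph_geom ha (Nat.mul_pos (Nat.pow_pos hr.pos (n := k)) m0) hr.one_lt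
  rw [show r ^ k * m * r = n by rw [e]; ring] at g
  have b1 : (r : ℤ) ∣ (a : ℤ) ^ (r ^ k * m) - 1 := by
    have := (dvd_iff_ord (r := r) (k := r ^ k * m) (by omega : 0 < a)).2 (by rw [o]; exact Dvd.intro_left _ rfl)
    have := Int.natCast_dvd_natCast.2 this
    rwa [Nat.cast_sub (Nat.one_le_pow _ _ (by omega)), Nat.cast_pow, Nat.cast_one] at this
  obtain ⟨M, hM⟩ := hd
  refine ⟨r, M, hM, Nat.le_of_dvd (by omega) ⟨r ^ k * m, by rw [e]; ring⟩, fun s hs h => ?_⟩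
  by_contra hso
  obtain ⟨k', m', e', hm', -⟩ := D s hs (hM ▸ h.mul_left r) hso
  obtain rfl : s = r := le_antisymm (big (k := k) hr hs hm ⟨s ^ k' * m', by rw [← e, e']; ring⟩)
      (big (k := k') hs hr hm' ⟨r ^ k * m, by rw [← e', e]; ring⟩)
  obtain ⟨M', rfl⟩ := h
  have g2 : (s : ℤ) ^ 2 ∣ _ := (Dvd.intro (M' : ℤ) (by rw [hM]; push_cast; ring)).trans g
  obtain ⟨c, hc⟩ := b1
  rcases hr.eq_two_or_odd' with rfl | ho
  · obtain rfl : m = 1 := Nat.dvd_one.1 hm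
    obtain _ | k := k
    · simp at e; omega
    · rw [mul_one, pow_succ 2 k, pow_mul] at g2 hc
      simp only [sum_range_succ, range_zero, sum_empty, pow_zero, pow_one, zero_add] at g2
      generalize (a : ℤ) ^ 2 ^ k = b at *
      obtain ⟨t, ht⟩ := g2
      rcases Int.even_or_odd' b with ⟨s, rfl | rfl⟩ <;> push_cast at * <;> ring_nf at * <;> omega
  · have := odd_sq_dvd_geom_sum₂_sub (R := ℤ) (1 : ℤ) c ho
    simp only [one_pow, mul_one, ← hc, add_sub_cancel] at this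
    have := (dvd_sub g2 this)
    rw [sub_sub_cancel, sq] at this
    have := Int.le_of_dvd (by omega) this
    nlinarith

theorem Ph_two (hn : 3 ≤ n) : 2 ^ n.totient ≤ Ph n 2 ^ 2 := by
  obtain ⟨r, m, hr, e, h⟩ : ∃ r m : ℕ, r.Prime ∧ n = m * r ∧ (r ∣ m ∨ 3 ≤ r) := by
    obtain ⟨k, m, hm, e⟩ := Nat.exists_eq_two_pow_mul_odd (by omega : n ≠ 0)
    by_cases h1 : m = 1
    · subst h1
      obtain _ | _ | k := k
      · omega
      · omega
      · exact ⟨2, 2 ^ (k + 1), Nat.prime_two, by rw [e]; ring, Or.inl (Dvd.intro_left _ (pow_succ 2 k).symm)⟩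
    · obtain ⟨r, hr, c, hc⟩ := Nat.exists_prime_and_dvd h1
      refine ⟨r, 2 ^ k * c, hr, by rw [e, hc]; ring, Or.inr ?_⟩
      have := hr.two_le
      rcases (by omega : r = 2 ∨ 3 ≤ r) with rfl | h
      · obtain ⟨t, ht⟩ := hm; omega
      · exact h
  have r2 := hr.two_le
  have m0 : 0 < m := Nat.pos_of_ne_zero fun z => by simp [z] at e; omega
  have tw : 1 < 2 ^ r := Nat.one_lt_two_pow (by omega)
  have ex : eval ((2 : ℕ) : ℝ) (expand ℝ r (cyclotomic m ℝ)) = Ph m (2 ^ r) := by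
    rw [Ph_cast _ tw, expand_eval]; simp
  obtain ⟨s, rfl⟩ : ∃ s, r = s + 2 := ⟨r - 2, by omega⟩
  have p1 : 1 ≤ 2 ^ s := Nat.one_le_two_pow
  have p2 : 2 ^ (s + 2) = 4 * 2 ^ s := by ring
  by_cases hd : s + 2 ∣ m
  · rw [cyclotomic_expand_eq_cyclotomic hr hd, ← Ph_cast _ one_lt_two, ← e, Nat.cast_inj] at ex
    have l : 1 < m := lt_of_lt_of_le hr.one_lt (Nat.le_of_dvd m0 hd)
    have h1 := (Ph_lt l tw).le
    have h2 : (2 ^ (s + 1)) ^ m.totient ≤ (2 ^ (s + 2) - 1) ^ m.totient := Nat.pow_le_pow_left (Nat.le_sub_one_of_lt (by omega)) _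
    rw [ex, e, mul_comm, Nat.totient_mul_of_prime_of_dvd hr hd]
    refine le_trans ?_ (Nat.pow_le_pow_left (h2.trans h1) 2)
    rw [← pow_mul, ← pow_mul]
    exact Nat.pow_le_pow_right two_pos (by nlinarith)
  · have r3 := h.resolve_left hd
    rw [cyclotomic_expand_eq_cyclotomic_mul hr hd, eval_mul, ← Ph_cast _ one_lt_two, ← e, Ph_cast ℝ tw] at ex
    have l1 := cyclotomic_eval_le_add_one_pow_totient (q := ((2 : ℕ) : ℝ)) (by norm_num) m
    have l2 := sub_one_pow_totient_le_cyclotomic_eval (q := ((2 ^ (s + 2) : ℕ) : ℝ)) (by exact_mod_cast (by omega)) m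
    have l3 : (2 ^ (s + 2) - 1) ^ m.totient ≤ Ph n 2 * 3 ^ m.totient := by
      have : (((2 ^ (s + 2) - 1) ^ m.totient : ℕ) : ℝ) ≤ (Ph n 2 * 3 ^ m.totient : ℕ) := by
        rw [Nat.cast_pow, Nat.cast_sub (by omega), Nat.cast_one]
        refine l2.trans (ex ▸ ?_)
        push_cast at l1 ⊢
        norm_num at l1
        exact mul_le_mul_of_nonneg_left l1 (by positivity)
      exact_mod_cast this
    have h2 : (2 ^ s * 3) ^ m.totient ≤ (2 ^ (s + 2) - 1) ^ m.totient := Nat.pow_le_pow_left (Nat.le_sub_one_of_lt (by omega)) _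
    rw [mul_pow] at h2
    have h3 := Nat.le_of_mul_le_mul_right (h2.trans l3) (by positivity)
    refine le_trans ?_ (Nat.pow_le_pow_left h3 2)
    rw [e, mul_comm, Nat.totient_mul_of_prime_of_not_dvd hr hd, ← pow_mul, ← pow_mul]
    refine Nat.pow_le_pow_right two_pos ?_
    rw [show s + 2 - 1 = s + 1 by omega]
    nlinarith

theorem tot_lb (n : ℕ) : 16 * n ^ 3 ≤ n.totient ^ 4 * (if 2 ∣ n then 8 else 1) * (if 3 ∣ n then 27 else 16) := by
  induction n using Nat.recOnPosPrimePosCoprime with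
  | zero => simp
  | one => simp
  | prime_pow p k hp hk =>
    obtain ⟨k, rfl⟩ : ∃ j, k = j + 1 := ⟨k - 1, by omega⟩
    rw [Nat.totient_prime_pow_succ hp]
    have h1 : 1 ≤ p ^ k := Nat.one_le_pow _ _ hp.pos
    have key : ∀ c, 16 * p ^ 3 ≤ (p - 1) ^ 4 * c → 16 * (p ^ (k + 1)) ^ 3 ≤ (p ^ k * (p - 1)) ^ 4 * c := fun c hc => by
      calc 16 * (p ^ (k + 1)) ^ 3 = (p ^ k) ^ 3 * (16 * p ^ 3) := by ring
        _ ≤ (p ^ k) ^ 4 * ((p - 1) ^ 4 * c) := Nat.mul_le_mul (Nat.pow_le_pow_right h1 (by norm_num)) hc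
        _ = _ := by ring
    rw [mul_assoc]
    apply key
    simp only [Nat.prime_two.dvd_iff_eq, Nat.Prime.dvd_iff_eq, Nat.prime_two.prime.dvd_pow_iff_dvd (Nat.succ_ne_zero k),
      Nat.prime_three.prime.dvd_pow_iff_dvd (Nat.succ_ne_zero k)]
    have := hp.two_le
    rcases (by omega : p = 2 ∨ p = 3 ∨ 4 ≤ p) with rfl | rfl | h4
    · norm_num
    · norm_num
    · obtain ⟨t, rfl⟩ : ∃ t, p = t + 4 := ⟨p - 4, by omega⟩
      have : 16 * (t + 4) ^ 3 ≤ (t + 4 - 1) ^ 4 * 16 := by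
        rw [show t + 4 - 1 = t + 3 by omega]; ring_nf; nlinarith [Nat.zero_le (t ^ 4), Nat.zero_le (t ^ 3), Nat.zero_le (t ^ 2)]
      refine this.trans (Nat.mul_le_mul_left _ ?_)
      split_ifs <;> norm_num
  | coprime a b ha hb hab iha ihb =>
    rw [Nat.totient_mul hab]
    have h := Nat.mul_le_mul iha ihb
    have h2 : ¬ (2 ∣ a ∧ 2 ∣ b) := fun h => by simpa [hab.gcd_eq_one] using Nat.dvd_gcd h.1 h.2
    have h3 : ¬ (3 ∣ a ∧ 3 ∣ b) := fun h => by simpa [hab.gcd_eq_one] using Nat.dvd_gcd h.1 h.2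
    simp only [Nat.prime_two.dvd_mul, Nat.prime_three.dvd_mul]
    by_cases a2 : 2 ∣ a <;> by_cases b2 : 2 ∣ b <;> by_cases a3 : 3 ∣ a <;> by_cases b3 : 3 ∣ b <;>
      simp only [a2, b2, a3, b3, if_true, if_false, or_true, true_or, or_false, and_true, not_true] at h h2 h3 ⊢ <;>
      nlinarith

theorem tot_big (hn : 400 ≤ n) : 9 * n ^ 4 < 2 ^ n.totient := by
  have h1 : 2 * n ^ 3 ≤ 27 * n.totient ^ 4 := by
    have := tot_lb n
    split_ifs at this <;> omega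
  generalize n.totient = t at *
  have h2 : 46 ≤ t := by
    by_contra h
    have := Nat.pow_le_pow_left (show t ≤ 45 by omega) 4
    have := Nat.pow_le_pow_left hn 3
    omega
  have h3 : ∀ s, 46 ≤ s → 3000 * 10 ^ 4 * s ^ 16 < 2 ^ (3 * s) := by
    intro s hs
    induction s, hs using Nat.le_induction with
    | base => norm_num
    | succ s hs ih =>
      have : (s + 1) ^ 16 ≤ 8 * s ^ 16 := by
        have h1 : (8 * (s + 1)) ^ 16 ≤ (9 * s) ^ 16 := Nat.pow_le_pow_left (by omega) 16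
        rw [mul_pow, mul_pow] at h1
        omega
      rw [mul_add, pow_add]
      omega
  have h4 := Nat.pow_le_pow_left h1 4
  have h5 := h3 t h2
  by_contra h
  have h6 := Nat.pow_le_pow_left (not_lt.1 h) 3
  rw [← pow_mul, mul_comm t] at h6
  ring_nf at h4 h6 h5
  omega

def PP (a n : ℕ) : ℕ := ((List.range n).map fun i => if i = 0 then 1 else a ^ i - 1).prod

def rem (P : ℕ) : ℕ → ℕ → ℕ
  | 0, N => N
  | f + 1, N => rem P f (N / Nat.gcd N P)

theorem rem_dvd (P f : ℕ) : ∀ N, rem P f N ∣ N := by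
  induction f with
  | zero => intro N; exact dvd_rfl
  | succ f ih => intro N; exact (ih _).trans (Nat.div_dvd_of_dvd (Nat.gcd_dvd_left _ _))

theorem dvd_rem {P m : ℕ} (h : Nat.Coprime m P) (f : ℕ) : ∀ N, m ∣ N → m ∣ rem P f N := by
  induction f with
  | zero => intro N h; exact h
  | succ f ih =>
    intro N hN
    apply ih
    apply (h.coprime_dvd_right (Nat.gcd_dvd_right N P)).dvd_of_dvd_mul_right
    rwa [Nat.div_mul_cancel (Nat.gcd_dvd_left _ _)]

theorem cop_PP {m : ℕ} : Nat.Coprime m (PP a n) ↔ ∀ i : ℕ, 1 ≤ i → i < n → Nat.Coprime m (a ^ i - 1) := by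
  rw [PP, Nat.coprime_list_prod_right_iff]
  simp only [List.mem_map, List.mem_range, forall_exists_index, and_imp]
  constructor
  · intro h i h1 h2
    exact h _ i h2 (if_neg (by omega))
  · rintro h _ i hi rfl
    split_ifs with h0
    · simp
    · exact h i (by omega) hi

def exc : List (ℕ × ℕ) := [(2, 6), (2, 4), (2, 10), (2, 12), (2, 18), (3, 4), (3, 6), (5, 6), (2, 3), (2, 8), (2, 20), (4, 3), (4, 6)]

def chk1 (e t q : ℕ) : Bool :=
  Nat.ble (3 * e * e) ((q - 1) ^ t) || (q, e) ∈ exc ||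
    (Nat.gcd (rem (PP q e) 8 (q ^ e - 1)) (PP q e) == 1 && Nat.ble (3 * e + 1) (rem (PP q e) 8 (q ^ e - 1)))

def chk (e : ℕ) : Bool := (List.range (2 * e)).all fun q => chk1 e (Nat.totient e) (q + 2)

theorem chk_all : (List.range 400).all (fun e => Nat.ble e 2 || chk e) = true := by decide +kernel

theorem prim_big (ha : 2 ≤ a) (hn : 3 ≤ n) (h : (a, n) ∉ exc) :
    ∃ m : ℕ, m ∣ a ^ n - 1 ∧ (∀ i : ℕ, 1 ≤ i → i < n → Nat.Coprime m (a ^ i - 1)) ∧ 3 * n + 1 ≤ m := by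
  have key : 3 * n * n < Ph n a → ∃ m : ℕ, m ∣ a ^ n - 1 ∧ (∀ i : ℕ, 1 ≤ i → i < n → Nat.Coprime m (a ^ i - 1)) ∧ 3 * n + 1 ≤ m := by
    intro hb
    obtain ⟨c, M, e, hc, hM⟩ := Ph_struct ha hn
    refine ⟨M, (Dvd.intro_left c e.symm).trans (Ph_dvd ha), fun i h1 h2 => ?_, ?_⟩
    · apply Nat.Coprime.symm
      apply Nat.coprime_of_dvd
      intro s hs h3 h4
      rw [dvd_iff_ord (by omega), hM s hs h4] at h3
      exact absurd (Nat.le_of_dvd (by omega) h3) (by omega)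
    · by_contra hh
      have := Nat.mul_le_mul hc (show M ≤ 3 * n by omega)
      nlinarith
  have l := Ph_lt (show 1 < n by omega) ha
  by_cases h4 : 400 ≤ n
  · apply key
    have h1 := tot_big h4
    rcases (by omega : a = 2 ∨ 2 ≤ a - 1) with rfl | a3
    · have := h1.trans_le (Ph_two hn)
      by_contra hh
      have := Nat.pow_le_pow_left (not_lt.1 hh) 2
      nlinarith
    · have := h1.trans_le ((Nat.pow_le_pow_left a3 _).trans l.le)
      nlinarith [Nat.pow_le_pow_right (show 0 < n by omega) (show 2 ≤ 4 by norm_num)]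
  by_cases h5 : a < 2 * n + 2
  · have h1 := List.all_eq_true.1 chk_all n (List.mem_range.2 (by omega))
    rw [Bool.or_eq_true, Nat.ble_eq] at h1
    have h2 := List.all_eq_true.1 (h1.resolve_left (by omega)) (a - 2) (List.mem_range.2 (by omega))
    rw [Nat.sub_add_cancel ha] at h2
    simp only [chk1, Bool.or_eq_true, Nat.ble_eq, decide_eq_true_eq, Bool.and_eq_true, beq_iff_eq] at h2
    rcases h2 with (h2 | h2) | h2
    · exact key (h2.trans_lt l)
    · exact absurd h2 h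
    · exact ⟨_, rem_dvd _ _ _, cop_PP.1 h2.1, h2.2⟩
  · apply key
    have t2 : 2 ≤ n.totient := by
      have := Nat.totient_even (show 2 < n by omega)
      have := Nat.totient_pos.2 (show 0 < n by omega)
      rcases ‹Even _› with ⟨t, ht⟩
      omega
    have h1 := (Nat.pow_le_pow_left (show 2 * n ≤ a - 1 by omega) 2).trans (Nat.pow_le_pow_right (by omega) t2)
    nlinarith

theorem prim_exc (h : (a, n) ∈ exc) (m : ℕ) (h1 : m ∣ a ^ n - 1) (h2 : ∀ i : ℕ, 1 ≤ i → i < n → Nat.Coprime m (a ^ i - 1)) :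
    m ≤ 2 * n + 1 := by
  have h3 := dvd_rem (cop_PP.2 h2) 8 _ h1
  have : ∀ p ∈ exc, 0 < rem (PP p.1 p.2) 8 (p.1 ^ p.2 - 1) ∧ rem (PP p.1 p.2) 8 (p.1 ^ p.2 - 1) ≤ 2 * p.2 + 1 := by
    decide +kernel
  exact (Nat.le_of_dvd (this _ h).1 h3).trans (this _ h).2

end CfsgH8
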